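import Mathlib
import Cfsg.Prelude.Def_RootSubgroups
import Cfsg.Agent.Lib.Helper83.Root

set_option autoImplicit false

namespace Cfsg.Agent.Lib.Helper83

open Cfsg
open scoped commutatorElement

variable {G : Type*} [Group G] {H H₁ H₂ K K₁ K₂ L : Subgroup G}

/-- `H` normalizes `K` -/
def Nz (H K : Subgroup G) : Prop := ∀ h ∈ H, conjBy K h = K

theorem Nz.of_conj_le (h : ∀ x ∈ H, conjBy K x ≤ K) : Nz H K := by
  intro x hx
  apply le_antisymm (h x hx)
  have := conjBy_mono (h x⁻¹ (H.inv_mem hx)) x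
  rwa [conjBy_conjBy, mul_inv_cancel, conjBy_one] at this

theorem Nz.of_commute (h : ∀ x ∈ H, ∀ k ∈ K, x * k = k * x) : Nz H K :=
  fun x hx => conjBy_eq_self_of_commute (h x hx)

theorem Nz.of_le (h : H ≤ K) : Nz H K := fun _ hx => conjBy_of_mem (h hx)

theorem Nz.sup_right (h₁ : Nz H K₁) (h₂ : Nz H K₂) : Nz H (K₁ ⊔ K₂) := by
  intro x hx
  rw [conjBy_sup, h₁ x hx, h₂ x hx]

theorem Nz.le_normalizer (h : Nz H K) : H ≤ Subgroup.normalizer (K : Set G) :=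
  fun x hx => mem_normalizer_iff_conjBy.mpr (h x hx)

theorem Nz.of_le_normalizer (h : H ≤ Subgroup.normalizer (K : Set G)) : Nz H K :=
  fun x hx => mem_normalizer_iff_conjBy.mp (h hx)

theorem Nz.sup_left (h₁ : Nz H₁ K) (h₂ : Nz H₂ K) : Nz (H₁ ⊔ H₂) K :=
  Nz.of_le_normalizer (sup_le h₁.le_normalizer h₂.le_normalizer)

theorem Nz.mono (h : Nz H K) (hle : H₁ ≤ H) : Nz H₁ K := fun x hx => h x (hle hx)

theorem Nz.conj_mem (h : Nz H K) {x k : G} (hx : x ∈ H) (hk : k ∈ K) : x * k * x⁻¹ ∈ K := by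
  have := h x hx
  rw [← this]
  exact conj_mem_conjBy hk

theorem Nz.commutator_le (h : Nz H K) : ⁅K, H⁆ ≤ K := by
  rw [Subgroup.commutator_le]
  intro k hk x hx
  rw [commutatorElement_def, mul_assoc, mul_assoc]
  refine K.mul_mem hk ?_
  have := h.conj_mem hx (K.inv_mem hk)
  simpa [mul_assoc] using this

theorem Nz.of_commutator_le (h : ⁅K, H⁆ ≤ K) : Nz H K :=
  Nz.of_le_normalizer (Subgroup.le_normalizer_iff_commutator_le_left.mpr h)

theorem Nz.commutator (h₁ : Nz H K₁) (h₂ : Nz H K₂) : Nz H ⁅K₁, K₂⁆ := by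
  intro x hx
  rw [conjBy_commutator, h₁ x hx, h₂ x hx]

/-- commutators with a join -/
theorem comm_sup_left (h₁ : Nz H₁ K) (h₂ : Nz H₂ K) (c₁ : ⁅H₁, L⁆ ≤ K) (c₂ : ⁅H₂, L⁆ ≤ K) :
    ⁅H₁ ⊔ H₂, L⁆ ≤ K := by
  rw [Subgroup.commutator_le]
  intro x hx l hl
  let P : Subgroup G :=
    { carrier := {h | conjBy K h = K ∧ ⁅h, l⁆ ∈ K}
      one_mem' := ⟨conjBy_one K, by simp [K.one_mem]⟩
      mul_mem' := by
        rintro h h' ⟨n, c⟩ ⟨n', c'⟩
        refine ⟨by rw [← conjBy_conjBy, n', n], ?_⟩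
        rw [commutatorElement_mul_left_eq_conj_mul]
        refine K.mul_mem ?_ c
        rw [← n]
        exact conj_mem_conjBy c'
      inv_mem' := by
        rintro h ⟨n, c⟩
        have n' : conjBy K h⁻¹ = K := by
          rw [conjBy_eq_iff, inv_inv, n]
        refine ⟨n', ?_⟩
        rw [commutatorElement_inv_left, ← commutatorElement_inv]
        have := conj_mem_conjBy (g := h⁻¹) (K.inv_mem c)
        rw [n', inv_inv] at this
        exact this }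
  have hle : H₁ ⊔ H₂ ≤ P := by
    refine sup_le ?_ ?_
    · intro h hh
      exact ⟨h₁ h hh, c₁ (Subgroup.commutator_mem_commutator hh hl)⟩
    · intro h hh
      exact ⟨h₂ h hh, c₂ (Subgroup.commutator_mem_commutator hh hl)⟩
  exact (hle hx).2

theorem comm_sup_right (h₁ : Nz H₁ K) (h₂ : Nz H₂ K) (c₁ : ⁅L, H₁⁆ ≤ K) (c₂ : ⁅L, H₂⁆ ≤ K) :
    ⁅L, H₁ ⊔ H₂⁆ ≤ K := by
  rw [Subgroup.commutator_comm]
  rw [Subgroup.commutator_comm] at c₁ c₂
  exact comm_sup_left h₁ h₂ c₁ c₂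

/-- elementwise commuting -/
def Cm (H K : Subgroup G) : Prop := ∀ x ∈ H, ∀ y ∈ K, x * y = y * x

theorem Cm.symm (h : Cm H K) : Cm K H := fun x hx y hy => (h y hy x hx).symm

theorem Cm.commutator_eq_bot (h : Cm H K) : ⁅H, K⁆ = ⊥ := commutator_eq_bot_of_commute h

theorem Cm.of_commutator_eq_bot (h : ⁅H, K⁆ = ⊥) : Cm H K :=
  fun _ hx _ hy => commute_of_commutator_eq_bot h hx hy

theorem Cm.sup_right (h₁ : Cm H K₁) (h₂ : Cm H K₂) : Cm H (K₁ ⊔ K₂) :=
  fun x hx => commute_sup (h₁ x hx) (h₂ x hx)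

theorem Cm.sup_left (h₁ : Cm H₁ K) (h₂ : Cm H₂ K) : Cm (H₁ ⊔ H₂) K :=
  (Cm.sup_right h₁.symm h₂.symm).symm

theorem Cm.mono (h : Cm H K) (h₁ : H₁ ≤ H) (h₂ : K₁ ≤ K) : Cm H₁ K₁ :=
  fun x hx y hy => h x (h₁ hx) y (h₂ hy)

theorem Cm.nz (h : Cm H K) : Nz H K := Nz.of_commute h

theorem Cm.conj (h : Cm H K) (g : G) : Cm (conjBy H g) (conjBy K g) := by
  apply Cm.of_commutator_eq_bot
  rw [← conjBy_commutator, h.commutator_eq_bot, conjBy_bot]

theorem Cm.of_comm (h : IsMulCommutative H) : Cm H H :=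
  fun _ hx _ hy => comm_of_isMulCommutative h hx hy

theorem Cm.closure_right {s : Set G} (h : ∀ x ∈ H, ∀ y ∈ s, x * y = y * x) :
    Cm H (Subgroup.closure s) := by
  intro x hx y hy
  have : Subgroup.closure s ≤ Subgroup.centralizer {x} := by
    rw [Subgroup.closure_le]
    intro y hy
    exact Subgroup.mem_centralizer_singleton_iff.mpr (h x hx y hy).symm
  exact (Subgroup.mem_centralizer_singleton_iff.mp (this hy)).symm

end Cfsg.Agent.Lib.Helper83
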