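import Mathlib
import Cfsg.Prelude.Def_RootSubgroups
import Cfsg.Agent.Lib.Helper83.Root3

set_option autoImplicit false

namespace Cfsg.Agent.Lib.Helper83

open Cfsg
open scoped commutatorElement

variable {G : Type*} [Group G] {S : Set (Subgroup G)} {A B C D E : Subgroup G}

theorem mem_sup_of_commute (h : ∀ a ∈ A, ∀ c ∈ C, a * c = c * a) {x : G} :
    x ∈ A ⊔ C ↔ ∃ a ∈ A, ∃ c ∈ C, c * a = x := by
  constructor
  · intro hx
    let H : Subgroup G :=
      { carrier := {x | ∃ a ∈ A, ∃ c ∈ C, c * a = x}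
        one_mem' := ⟨1, A.one_mem, 1, C.one_mem, by simp⟩
        mul_mem' := by
          rintro _ _ ⟨a, ha, c, hc, rfl⟩ ⟨a', ha', c', hc', rfl⟩
          refine ⟨a * a', A.mul_mem ha ha', c * c', C.mul_mem hc hc', ?_⟩
          calc c * c' * (a * a') = c * (c' * a) * a' := by simp only [mul_assoc]
            _ = c * (a * c') * a' := by rw [h a ha c' hc']
            _ = c * a * (c' * a') := by simp only [mul_assoc]
        inv_mem' := by
          rintro _ ⟨a, ha, c, hc, rfl⟩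
          refine ⟨a⁻¹, A.inv_mem ha, c⁻¹, C.inv_mem hc, ?_⟩
          rw [mul_inv_rev, h a⁻¹ (A.inv_mem ha) c⁻¹ (C.inv_mem hc)] }
    have hle : A ⊔ C ≤ H := by
      refine sup_le ?_ ?_
      · intro a ha; exact ⟨a, ha, 1, C.one_mem, by simp⟩
      · intro c hc; exact ⟨1, A.one_mem, c, hc, by simp⟩
    exact hle hx
  · rintro ⟨a, ha, c, hc, rfl⟩
    exact Subgroup.mul_mem _ (Subgroup.mem_sup_right hc) (Subgroup.mem_sup_left ha)

theorem CC.conjBy_le (_hc : RootCommutatorCase S A B) {b : G} (hb : b ∈ B) :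
    conjBy A b ≤ A ⊔ ⁅A, B⁆ := by
  intro x hx
  rw [mem_conjBy] at hx
  have e : x = ⁅b, b⁻¹ * x * b⁆ * (b⁻¹ * x * b) := by
    simp [commutatorElement_def, mul_assoc]
  rw [e]
  refine Subgroup.mul_mem _ (Subgroup.mem_sup_right ?_) (Subgroup.mem_sup_left hx)
  rw [Subgroup.commutator_comm]
  exact Subgroup.commutator_mem_commutator hb hx

theorem CC.commute_left (hc : RootCommutatorCase S A B) :
    ∀ a ∈ A, ∀ c ∈ ⁅A, B⁆, a * c = c * a :=
  fun a ha c hcc => (hc.2.1 c hcc a (Subgroup.mem_sup_left ha)).symm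

/-- every non-identity element of `A ⁅A,B⁆` outside `⁅A,B⁆` lies in a conjugate `b A b⁻¹` -/
theorem CC.exists_conj (hc : RootCommutatorCase S A B) {x : G} (hx : x ∈ A ⊔ ⁅A, B⁆)
    (hxC : x ∉ ⁅A, B⁆) : ∃ b ∈ B, x ∈ conjBy A b := by
  obtain ⟨a, ha, c, hcc, rfl⟩ := (mem_sup_of_commute (CC.commute_left hc)).mp hx
  have ha1 : a ≠ 1 := by
    rintro rfl
    apply hxC
    simpa using hcc
  obtain ⟨b, hb, hbc⟩ := CC.surj_left (CC.symm hc) (b := a) ha ha1 (c := c)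
    (by rw [Subgroup.commutator_comm]; exact hcc)
  refine ⟨b, hb, ?_⟩
  rw [← hbc]
  have : ⁅b, a⁆ * a = b * a * b⁻¹ := by simp [commutatorElement_def]
  rw [this]
  exact conj_mem_conjBy ha

theorem line_members (hS : IsRootSubgroupSet S) (hA : A ∈ S) (hE : E ∈ S) (hAE : IsRankOnePair A E)
    (hc : RootCommutatorCase S A B) :
    membersIn S (A ⊔ ⁅A, B⁆) = (fun b : G => conjBy A b) '' (B : Set G) ∪ {⁅A, B⁆} := by
  ext D
  constructor
  · rintro ⟨hD, hle⟩
    by_cases hDC : D ≤ ⁅A, B⁆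
    · right
      exact CC.eq_of_le hS hA hE hAE hc hD hDC
    · left
      obtain ⟨d, hd, hdC⟩ := SetLike.not_le_iff_exists.mp hDC
      obtain ⟨b, hb, hdb⟩ := CC.exists_conj hc (hle hd) hdC
      refine ⟨b, hb, ?_⟩
      rcases root_inf_eq_bot_or_eq hS (hS.conj_mem E hE b) (R1.conj hAE b) hD with h1 | h1
      · exfalso
        have : d ∈ conjBy A b ⊓ D := ⟨hdb, hd⟩
        rw [h1, Subgroup.mem_bot] at this
        exact hdC (this ▸ Subgroup.one_mem _)
      · exact h1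
  · rintro (⟨b, hb, rfl⟩ | rfl)
    · exact ⟨hS.conj_mem A hA b, CC.conjBy_le hc hb⟩
    · exact ⟨hc.1, le_sup_right⟩

theorem line_partition (hS : IsRootSubgroupSet S) (hA : A ∈ S) (hE : E ∈ S)
    (hAE : IsRankOnePair A E) (hc : RootCommutatorCase S A B) :
    IsSubgroupPartition (A ⊔ ⁅A, B⁆) (membersIn S (A ⊔ ⁅A, B⁆)) := by
  refine ⟨fun D hD => hD.2, ?_, ?_⟩
  · intro x hx _
    by_cases hxC : x ∈ ⁅A, B⁆
    · exact ⟨_, ⟨hc.1, le_sup_right⟩, hxC⟩
    · obtain ⟨b, hb, hxb⟩ := CC.exists_conj hc hx hxC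
      exact ⟨_, ⟨hS.conj_mem A hA b, CC.conjBy_le hc hb⟩, hxb⟩
  · intro D hD D' hD' hne
    have TI : ∀ b : G, ∀ D' ∈ S, conjBy A b ≠ D' → conjBy A b ⊓ D' = ⊥ := by
      intro b D' hD' hne
      rcases root_inf_eq_bot_or_eq hS (hS.conj_mem E hE b) (R1.conj hAE b) hD' with h1 | h1
      · exact h1
      · exact absurd h1 hne
    have hDS := hD.1
    have hDS' := hD'.1
    rw [line_members hS hA hE hAE hc] at hD hD'
    rcases hD with ⟨b, -, rfl⟩ | hD
    · exact TI b D' hDS' hne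
    · rcases hD' with ⟨b, -, rfl⟩ | hD'
      · rw [inf_comm]
        exact TI b D hDS hne.symm
      · exact absurd (hD.trans hD'.symm) hne

theorem left_mem_linePartners (hS : IsRootSubgroupSet S) (hA : A ∈ S) (hE : E ∈ S)
    (hAE : IsRankOnePair A E) (hc : RootCommutatorCase S A B) : A ∈ linePartners S ⁅A, B⁆ := by
  refine ⟨⟨hA, CC.left_ne hS hc, ?_⟩, ?_⟩
  · apply commutator_eq_bot_of_commute
    intro c hcc a ha
    exact hc.2.1 c hcc a (Subgroup.mem_sup_left ha)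
  · rw [sup_comm]
    exact line_partition hS hA hE hAE hc

theorem CC.exists_equiv (hS : IsRootSubgroupSet S) (hA : A ∈ S) (hE : E ∈ S)
    (hAE : IsRankOnePair A E) (hc : RootCommutatorCase S A B) {a : G} (ha : a ∈ A) (ha1 : a ≠ 1) :
    ∃ φ : ↥B ≃* ↥⁅A, B⁆, ∀ b : ↥B, (φ b : G) = a⁻¹ * (b : G)⁻¹ * a * b := by
  let f : ↥B →* ↥⁅A, B⁆ :=
    { toFun := fun b => ⟨⁅a, (b : G)⁆, CC.comm_mem hc ha b.2⟩
      map_one' := by ext; simp
      map_mul' := fun b b' => by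
        ext
        exact CC.mul_right hc ha b.2 b'.2 }
  have hbij : Function.Bijective f := by
    constructor
    · rw [injective_iff_map_eq_one]
      intro b hb
      have h1 : ⁅a, (b : G)⁆ = 1 := congrArg Subtype.val hb
      rw [commutatorElement_eq_one_iff_mul_comm] at h1
      exact Subtype.ext (CC.inj_right hS hA hE hAE hc ha ha1 b.2 h1)
    · rintro ⟨c, hcc⟩
      obtain ⟨b, hb, hbc⟩ := CC.surj_right hc ha ha1 hcc
      exact ⟨⟨b, hb⟩, Subtype.ext hbc⟩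
  refine ⟨MulEquiv.ofBijective f hbij, fun b => ?_⟩
  show ⁅a, (b : G)⁆ = _
  have e1 : a⁻¹ * (b : G)⁻¹ * a * b = ⁅a⁻¹, (b : G)⁻¹⁆ := by simp [commutatorElement_def]
  rw [e1, CC.inv_left hc ha (B.inv_mem b.2), CC.inv_right hc ha b.2, inv_inv]

end Cfsg.Agent.Lib.Helper83
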