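import Mathlib
import Cfsg.Prelude.Def_RootSubgroups
import Cfsg.Agent.Lib.Helper83.Comm
import Cfsg.Agent.Lib.Helper83.Root4
import Cfsg.Agent.Lib.Helper83.RankOne3

set_option autoImplicit false

namespace Cfsg.Agent.Lib.Helper83

open Cfsg
open scoped commutatorElement

variable {G : Type*} [Group G] {S : Set (Subgroup G)} {A B C K : Subgroup G}

theorem Cm.bot_left (K : Subgroup G) : Cm ⊥ K := by
  intro x hx y _
  rw [Subgroup.mem_bot.mp hx]; simp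

theorem comm_sup_self (hA : Cm A A) (hC : Cm C C) : ⁅A ⊔ C, A ⊔ C⁆ ≤ ⁅A, C⁆ := by
  have nA : Nz A ⁅A, C⁆ := Nz.of_le_normalizer (Subgroup.normalizer_commutator_ge_left A C)
  have nC : Nz C ⁅A, C⁆ := Nz.of_le_normalizer (Subgroup.normalizer_commutator_ge_right A C)
  apply comm_sup_left nA nC
  · apply comm_sup_right nA nC
    · rw [hA.commutator_eq_bot]; exact bot_le
    · exact le_rfl
  · apply comm_sup_right nA nC
    · rw [Subgroup.commutator_comm]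
    · rw [hC.commutator_eq_bot]; exact bot_le

theorem nilpotent_of_chain {R R₁ V T : Subgroup G} (h0 : ⁅R, R⁆ ≤ R₁) (h1 : ⁅R₁, R⁆ ≤ V)
    (h2 : ⁅V, R⁆ ≤ T) (h3 : ⁅T, R⁆ = ⊥) : Group.IsNilpotent R := by
  apply Subgroup.isNilpotent_of_lowerCentralSeries_eq_bot (n := 4)
  simp only [Subgroup.lowerCentralSeries_succ, Subgroup.lowerCentralSeries_zero]
  rw [eq_bot_iff, ← h3]
  exact Subgroup.commutator_mono ((Subgroup.commutator_mono
    ((Subgroup.commutator_mono h0 le_rfl).trans h1) le_rfl).trans h2) le_rfl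

/-- `A, B, C ∈ S` with `⁅A,B⁆, ⁅C,B⁆ ∈ S` and `A`, `C` commuting -/
structure Chain (S : Set (Subgroup G)) (A B C : Subgroup G) : Prop where
  hS : IsRootSubgroupSet S
  hA : A ∈ S
  hB : B ∈ S
  hC : C ∈ S
  cA : RootCommutatorCase S A B
  cC : RootCommutatorCase S C B
  cm : Cm A C

theorem Chain.symm (h : Chain S A B C) : Chain S C B A :=
  ⟨h.hS, h.hC, h.hB, h.hA, h.cC, h.cA, h.cm.symm⟩

theorem Chain.AA (h : Chain S A B C) : Cm A A := Cm.of_comm (h.hS.commutative A h.hA)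

theorem Chain.BB (h : Chain S A B C) : Cm B B := Cm.of_comm (h.hS.commutative B h.hB)

theorem Chain.AD (h : Chain S A B C) : Cm A ⁅A, B⁆ := CC.commute_left h.cA

theorem Chain.BD (h : Chain S A B C) : Cm B ⁅A, B⁆ :=
  fun b hb c hc => (h.cA.2.1 c hc b (Subgroup.mem_sup_right hb)).symm

theorem Chain.conj_le (h : Chain S A B C) {β : G} (hβ : β ∈ B) : conjBy A β ≤ A ⊔ ⁅A, B⁆ :=
  CC.conjBy_le h.cA hβ

theorem Chain.A_conj (h : Chain S A B C) {β : G} (hβ : β ∈ B) : Cm A (conjBy A β) :=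
  (Cm.sup_right h.AA h.AD).mono le_rfl (h.conj_le hβ)

theorem Chain.D_le (h : Chain S A B C) {β : G} (hβ : β ∈ B) (hβ1 : β ≠ 1) :
    ⁅A, B⁆ ≤ A ⊔ conjBy A β := by
  rw [← h.cA.2.2.2 β hβ hβ1, Subgroup.closure_le]
  rintro _ ⟨a, ha, rfl⟩
  have e : a * β * a⁻¹ * β⁻¹ = a * (β * a⁻¹ * β⁻¹) := by group
  simp only [e]
  exact Subgroup.mul_mem _ (Subgroup.mem_sup_left ha)
    (Subgroup.mem_sup_right (conj_mem_conjBy (A.inv_mem ha)))

theorem Chain.not_r1 (h : Chain S A B C) {β : G} (hβ : β ∈ B) :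
    ¬ IsRankOnePair A (conjBy C β) := by
  intro hr
  obtain ⟨c, hc, hc1⟩ := exists_ne_one_of_ne_bot (h.hS.ne_bot C h.hC)
  have hC' : conjBy C β ∈ S := h.hS.conj_mem C h.hC β
  have hz : ∀ y ∈ conjBy C β ⊔ A, c⁻¹ * y = y * c⁻¹ := by
    have : Cm C (conjBy C β ⊔ A) := Cm.sup_right (h.symm.A_conj hβ) h.cm.symm
    exact fun y hy => this _ (C.inv_mem hc) y hy
  refine root_central_translate h.hS hC' h.hA (R1.symm hr) hz (inv_ne_one.mpr hc1)
    (conj_mem_conjBy hc) ?_ h.cC.1 ?_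
  · simpa using hc1
  · have e : c⁻¹ * (β * c * β⁻¹) = ⁅c⁻¹, β⁆ := by rw [commutatorElement_def]; group
    rw [e]; exact Subgroup.commutator_mem_commutator (C.inv_mem hc) hβ

theorem Chain.K_cases (h : Chain S A B C) {β : G} (hβ : β ∈ B) :
    ⁅A, conjBy C β⁆ = ⊥ ∨ RootCommutatorCase S A (conjBy C β) := by
  rcases h.hS.pair A h.hA _ (h.hS.conj_mem C h.hC β) with h1 | h1 | h1
  · exact Or.inl h1
  · exact absurd h1 (h.not_r1 hβ)
  · exact Or.inr h1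

theorem Chain.K_central (h : Chain S A B C) {β : G} (hβ : β ∈ B) :
    Cm ⁅A, conjBy C β⁆ (A ⊔ conjBy C β) := by
  rcases h.K_cases hβ with h1 | h1
  · rw [h1]; exact Cm.bot_left _
  · exact h1.2.1

theorem Chain.K_bot_iff (h : Chain S A B C) {β : G} (hβ : β ∈ B) (hβ1 : β ≠ 1) :
    ⁅A, conjBy C β⁆ = ⊥ ↔ ⁅A, ⁅C, B⁆⁆ = ⊥ := by
  constructor
  · intro h1
    apply Cm.commutator_eq_bot
    exact (Cm.sup_right h.cm (Cm.of_commutator_eq_bot h1)).mono le_rfl (h.symm.D_le hβ hβ1)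
  · intro h1
    apply Cm.commutator_eq_bot
    exact (Cm.sup_right h.cm (Cm.of_commutator_eq_bot h1)).mono le_rfl (h.symm.conj_le hβ)

theorem Chain.K_bot_iff' (h : Chain S A B C) {β : G} (hβ : β ∈ B) (hβ1 : β ≠ 1) :
    ⁅conjBy A β, C⁆ = ⊥ ↔ ⁅A, ⁅C, B⁆⁆ = ⊥ := by
  rw [← h.K_bot_iff (B.inv_mem hβ) (inv_ne_one.mpr hβ1)]
  have e : ⁅conjBy A β, C⁆ = conjBy ⁅A, conjBy C β⁻¹⁆ β := by
    rw [conjBy_commutator, conjBy_conjBy, mul_inv_cancel, conjBy_one]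
  rw [e, conjBy_eq_bot]

theorem Chain.XY (h : Chain S A B C) {β : G} (hβ : β ∈ B) :
    Cm (A ⊔ conjBy C β) (conjBy A β ⊔ C) :=
  Cm.sup_left (Cm.sup_right (h.A_conj hβ) h.cm)
    (Cm.sup_right (h.cm.symm.conj β) (h.symm.A_conj hβ).symm)

theorem Chain.M_eq (h : Chain S A B C) {β : G} (hβ : β ∈ B) (hβ1 : β ≠ 1) :
    (A ⊔ conjBy C β) ⊔ (conjBy A β ⊔ C) = (A ⊔ ⁅A, B⁆) ⊔ (C ⊔ ⁅C, B⁆) := by
  apply le_antisymm
  · refine sup_le (sup_le ?_ ?_) (sup_le ?_ ?_)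
    · exact le_sup_left.trans le_sup_left
    · exact (h.symm.conj_le hβ).trans le_sup_right
    · exact (h.conj_le hβ).trans le_sup_left
    · exact le_sup_left.trans le_sup_right
  · refine sup_le (sup_le ?_ ?_) (sup_le ?_ ?_)
    · exact le_sup_left.trans le_sup_left
    · exact (h.D_le hβ hβ1).trans
        (sup_le (le_sup_left.trans le_sup_left) (le_sup_left.trans le_sup_right))
    · exact le_sup_right.trans le_sup_right
    · exact (h.symm.D_le hβ hβ1).trans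
        (sup_le (le_sup_right.trans le_sup_right) (le_sup_right.trans le_sup_left))

theorem Chain.B_nz (h : Chain S A B C) : Nz B ((A ⊔ ⁅A, B⁆) ⊔ (C ⊔ ⁅C, B⁆)) := by
  apply Nz.of_conj_le
  intro x hx
  rw [conjBy_sup, conjBy_sup, conjBy_sup, h.BD.nz x hx, h.symm.BD.nz x hx]
  exact sup_le_sup (sup_le (h.conj_le hx) le_sup_right) (sup_le (h.symm.conj_le hx) le_sup_right)

theorem Chain.MB_eq (_h : Chain S A B C) :
    ((A ⊔ ⁅A, B⁆) ⊔ (C ⊔ ⁅C, B⁆)) ⊔ B = A ⊔ B ⊔ C := by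
  have hA : A ≤ A ⊔ B ⊔ C := le_sup_left.trans le_sup_left
  have hB : B ≤ A ⊔ B ⊔ C := le_sup_right.trans le_sup_left
  have hC : C ≤ A ⊔ B ⊔ C := le_sup_right
  apply le_antisymm
  · refine sup_le (sup_le (sup_le hA ?_) (sup_le hC ?_)) hB
    · exact (Subgroup.commutator_le_sup A B).trans le_sup_left
    · exact (Subgroup.commutator_le_sup C B).trans (sup_le hC hB)
  · refine sup_le (sup_le ?_ le_sup_right) ?_
    · exact (le_sup_left.trans le_sup_left).trans le_sup_left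
    · exact (le_sup_left.trans le_sup_right).trans le_sup_left

theorem Chain.R_nz (h : Chain S A B C) : Nz (A ⊔ B ⊔ C) ((A ⊔ ⁅A, B⁆) ⊔ (C ⊔ ⁅C, B⁆)) :=
  Nz.sup_left (Nz.sup_left (Nz.of_le (le_sup_left.trans le_sup_left)) h.B_nz)
    (Nz.of_le (le_sup_left.trans le_sup_right))

theorem Chain.nilpotent (h : Chain S A B C) : Group.IsNilpotent ↥(A ⊔ B ⊔ C) := by
  obtain ⟨β, hβ, hβ1⟩ := exists_ne_one_of_ne_bot (h.hS.ne_bot B h.hB)
  have hMeq := h.M_eq hβ hβ1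
  have hXY := h.XY hβ
  have hKX := h.K_central hβ
  have hKY : Cm ⁅conjBy A β, C⁆ (conjBy A β ⊔ C) := by
    have := h.symm.K_central hβ
    rwa [Subgroup.commutator_comm, sup_comm] at this
  have hXX : ⁅A ⊔ conjBy C β, A ⊔ conjBy C β⁆ ≤ ⁅A, conjBy C β⁆ :=
    comm_sup_self h.AA (h.symm.AA.conj β)
  have hYY : ⁅conjBy A β ⊔ C, conjBy A β ⊔ C⁆ ≤ ⁅conjBy A β, C⁆ :=
    comm_sup_self (h.AA.conj β) h.symm.AA
  have hKXS : ⁅A, conjBy C β⁆ = ⊥ ∨ ⁅A, conjBy C β⁆ ∈ S := (h.K_cases hβ).imp id (fun x => x.1)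
  have hKYS : ⁅conjBy A β, C⁆ = ⊥ ∨ ⁅conjBy A β, C⁆ ∈ S := by
    rw [Subgroup.commutator_comm]
    exact (h.symm.K_cases hβ).imp id (fun x => x.1)
  have KXle : ⁅A, conjBy C β⁆ ≤ A ⊔ conjBy C β := Subgroup.commutator_le_sup _ _
  have KYle : ⁅conjBy A β, C⁆ ≤ conjBy A β ⊔ C := Subgroup.commutator_le_sup _ _
  have hKXM : ⁅A, conjBy C β⁆ ≤ ⁅(A ⊔ conjBy C β) ⊔ (conjBy A β ⊔ C),
      (A ⊔ conjBy C β) ⊔ (conjBy A β ⊔ C)⁆ :=
    Subgroup.commutator_mono (le_sup_left.trans le_sup_left) (le_sup_right.trans le_sup_left)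
  have hKYM : ⁅conjBy A β, C⁆ ≤ ⁅(A ⊔ conjBy C β) ⊔ (conjBy A β ⊔ C),
      (A ⊔ conjBy C β) ⊔ (conjBy A β ⊔ C)⁆ :=
    Subgroup.commutator_mono (le_sup_left.trans le_sup_right) (le_sup_right.trans le_sup_right)
  generalize ⁅A, conjBy C β⁆ = KX at *
  generalize ⁅conjBy A β, C⁆ = KY at *
  generalize A ⊔ conjBy C β = X at *
  generalize conjBy A β ⊔ C = Y at *
  have nBM : Nz B (X ⊔ Y) := by rw [hMeq]; exact h.B_nz
  have hR : (X ⊔ Y) ⊔ B = A ⊔ B ⊔ C := by rw [hMeq]; exact h.MB_eq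
  have hDM : ⁅A, B⁆ ≤ X ⊔ Y := by rw [hMeq]; exact le_sup_right.trans le_sup_left
  have hFM : ⁅C, B⁆ ≤ X ⊔ Y := by rw [hMeq]; exact le_sup_right.trans le_sup_right
  have hVM : Cm (KX ⊔ KY) (X ⊔ Y) :=
    Cm.sup_left (Cm.sup_right hKX (hXY.mono KXle le_rfl))
      (Cm.sup_right (hXY.symm.mono KYle le_rfl) hKY)
  have hVle : KX ⊔ KY ≤ X ⊔ Y := sup_le_sup KXle KYle
  have nMV : Nz (X ⊔ Y) (KX ⊔ KY) := hVM.symm.nz
  have hMM : ⁅X ⊔ Y, X ⊔ Y⁆ ≤ KX ⊔ KY := by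
    apply comm_sup_left (nMV.mono le_sup_left) (nMV.mono le_sup_right)
    · apply comm_sup_right (nMV.mono le_sup_left) (nMV.mono le_sup_right)
      · exact hXX.trans le_sup_left
      · rw [hXY.commutator_eq_bot]; exact bot_le
    · apply comm_sup_right (nMV.mono le_sup_left) (nMV.mono le_sup_right)
      · rw [hXY.symm.commutator_eq_bot]; exact bot_le
      · exact hYY.trans le_sup_right
  have hVeq : KX ⊔ KY = ⁅X ⊔ Y, X ⊔ Y⁆ := le_antisymm (sup_le hKXM hKYM) hMM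
  have nBV : Nz B (KX ⊔ KY) := by rw [hVeq]; exact nBM.commutator nBM
  have hVV : Cm (KX ⊔ KY) (KX ⊔ KY) := hVM.mono le_rfl hVle
  have key : ∀ K : Subgroup G, K ≤ KX ⊔ KY → (K = ⊥ ∨ K ∈ S) → Cm ⁅K, B⁆ B := by
    intro K hK hKS
    rcases hKS with rfl | hKS
    · rw [Subgroup.commutator_bot_left]; exact Cm.bot_left _
    rcases h.hS.pair K hKS B h.hB with h1 | h1 | h1
    · rw [h1]; exact Cm.bot_left _
    · exfalso
      obtain ⟨k, hk, hk1⟩ := exists_ne_one_of_ne_bot (h.hS.ne_bot K hKS)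
      obtain ⟨b₀, hb₀, -, e⟩ := R1.exists_partner h1 hk hk1
      have h2 : conjBy B k ≤ KX ⊔ KY := by
        rw [← e, ← nBV b₀ hb₀]; exact conjBy_mono hK b₀
      have h3 : B ≤ KX ⊔ KY := by
        have := conjBy_mono h2 k⁻¹
        rwa [conjBy_conjBy, inv_mul_cancel, conjBy_one,
          conjBy_of_mem ((KX ⊔ KY).inv_mem (hK hk))] at this
      exact hk1 (R1.eq_one_of_commute h1 hk (fun b hb => hVV k (hK hk) b (h3 hb)))
    · exact fun x hx y hy => h1.2.1 x hx y (Subgroup.mem_sup_right hy)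
  have hTB : Cm (⁅KX, B⁆ ⊔ ⁅KY, B⁆) B :=
    Cm.sup_left (key KX le_sup_left hKXS) (key KY le_sup_right hKYS)
  have hVB : ⁅KX ⊔ KY, B⁆ ≤ KX ⊔ KY := nBV.commutator_le
  have hTV : ⁅KX, B⁆ ⊔ ⁅KY, B⁆ ≤ KX ⊔ KY :=
    sup_le ((Subgroup.commutator_mono le_sup_left le_rfl).trans hVB)
      ((Subgroup.commutator_mono le_sup_right le_rfl).trans hVB)
  have hTM : Cm (⁅KX, B⁆ ⊔ ⁅KY, B⁆) (X ⊔ Y) := hVM.mono hTV le_rfl
  have nMT : Nz (X ⊔ Y) (⁅KX, B⁆ ⊔ ⁅KY, B⁆) := hTM.symm.nz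
  have hR₁M : ⁅A, B⁆ ⊔ ⁅C, B⁆ ⊔ (KX ⊔ KY) ≤ X ⊔ Y := sup_le (sup_le hDM hFM) hVle
  have nMR₁ : Nz (X ⊔ Y) (⁅A, B⁆ ⊔ ⁅C, B⁆ ⊔ (KX ⊔ KY)) :=
    Nz.of_commutator_le (((Subgroup.commutator_mono hR₁M le_rfl).trans hMM).trans le_sup_right)
  have nBR₁ : Nz B (⁅A, B⁆ ⊔ ⁅C, B⁆ ⊔ (KX ⊔ KY)) :=
    Nz.sup_right (Nz.sup_right h.BD.nz h.symm.BD.nz) nBV
  have hMB : ⁅X ⊔ Y, B⁆ ≤ ⁅A, B⁆ ⊔ ⁅C, B⁆ ⊔ (KX ⊔ KY) := by
    have nM' := nMR₁
    rw [hMeq] at nM' ⊢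
    apply comm_sup_left (nM'.mono le_sup_left) (nM'.mono le_sup_right)
    · apply comm_sup_left (nM'.mono (le_sup_left.trans le_sup_left))
        (nM'.mono (le_sup_right.trans le_sup_left))
      · exact le_sup_left.trans le_sup_left
      · rw [h.BD.symm.commutator_eq_bot]; exact bot_le
    · apply comm_sup_left (nM'.mono (le_sup_left.trans le_sup_right))
        (nM'.mono (le_sup_right.trans le_sup_right))
      · exact le_sup_right.trans le_sup_left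
      · rw [h.symm.BD.symm.commutator_eq_bot]; exact bot_le
  rw [← hR]
  apply nilpotent_of_chain (R₁ := ⁅A, B⁆ ⊔ ⁅C, B⁆ ⊔ (KX ⊔ KY)) (V := KX ⊔ KY)
    (T := ⁅KX, B⁆ ⊔ ⁅KY, B⁆)
  · apply comm_sup_left nMR₁ nBR₁
    · apply comm_sup_right nMR₁ nBR₁
      · exact hMM.trans le_sup_right
      · exact hMB
    · apply comm_sup_right nMR₁ nBR₁
      · rw [Subgroup.commutator_comm]; exact hMB
      · rw [h.BB.commutator_eq_bot]; exact bot_le
  · apply comm_sup_right nMV nBV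
    · exact (Subgroup.commutator_mono hR₁M le_rfl).trans hMM
    · apply comm_sup_left (nMV.mono (sup_le hDM hFM)) (nMV.mono hVle)
      · rw [(Cm.sup_left h.BD.symm h.symm.BD.symm).commutator_eq_bot]; exact bot_le
      · exact hVB
  · apply comm_sup_right nMT hTB.symm.nz
    · rw [hVM.commutator_eq_bot]; exact bot_le
    · apply comm_sup_left (nMT.mono (le_sup_left.trans hVle)) (nMT.mono (le_sup_right.trans hVle))
      · exact le_sup_left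
      · exact le_sup_right
  · exact (Cm.sup_right hTM hTB).commutator_eq_bot

end Cfsg.Agent.Lib.Helper83
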