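import Mathlib
import Cfsg.Prelude.Def_RootSubgroups
import Cfsg.Agent.Lib.Helper83.RankOne3

set_option autoImplicit false

namespace Cfsg.Agent.Lib.Helper83

open Cfsg

section ring

variable {R : Type*} [Ring R]

/-- the ring computation behind "quadratic modules force special" -/
theorem ring_key (α β β' : R) (hα : α * α = 0) (hβ : β * β = 0)
    (H1 : α * (1 + β) * (1 - α) * β = 0) (H2 : β * (1 + α) * (1 - β) * α = 0)
    (E : (1 - β) * α * (1 + β) = (1 - α) * β' * (1 + α)) :
    α * (β + β') = 0 ∧ (β + β') * α = 0 := by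
  have hα' : ∀ x, α * (α * x) = 0 := fun x => by rw [← mul_assoc, hα, zero_mul]
  have hβ' : ∀ x, β * (β * x) = 0 := fun x => by rw [← mul_assoc, hβ, zero_mul]
  have P : α * (β * (α * β)) = α * β := by
    have : α * (1 + β) * (1 - α) * β = α * β - α * (α * β) + α * (β * β) - α * (β * (α * β)) := by
      noncomm_ring
    rw [this, hα', hβ] at H1
    simp only [mul_zero, sub_zero, add_zero] at H1
    exact (sub_eq_zero.mp H1).symm
  have Q : β * (α * (β * α)) = β * α := by
    have : β * (1 + α) * (1 - β) * α = β * α - β * (β * α) + β * (α * α) - β * (α * (β * α)) := by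
      noncomm_ring
    rw [this, hβ', hα] at H2
    simp only [mul_zero, sub_zero, add_zero] at H2
    exact (sub_eq_zero.mp H2).symm
  have P' : ∀ x, α * (β * (α * (β * x))) = α * (β * x) := fun x => by
    have := congrArg (fun t => t * x) P
    simpa only [mul_assoc] using this
  have E' : α + α * β - β * α - β * (α * β) = β' + β' * α - α * β' - α * (β' * α) := by
    have e1 : (1 - β) * α * (1 + β) = α + α * β - β * α - β * (α * β) := by noncomm_ring
    have e2 : (1 - α) * β' * (1 + α) = β' + β' * α - α * β' - α * (β' * α) := by noncomm_ring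
    rw [← e1, ← e2, E]
  -- left multiplication by α
  have L := congrArg (fun t => α * t) E'
  simp only [mul_add, mul_sub, hα, hα', P, zero_add, zero_sub, sub_zero] at L
  -- both sides
  have LR := congrArg (fun t => t * α) L
  simp only [add_mul, sub_mul, neg_mul, mul_assoc, hα, mul_zero, add_zero] at LR
  -- right multiplication by α
  have Rr := congrArg (fun t => t * α) E'
  simp only [add_mul, sub_mul, mul_assoc, hα, mul_zero, Q, zero_add, add_zero, sub_zero] at Rr
  constructor
  · rw [mul_add]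
    linear_combination (norm := abel) LR - L
  · rw [add_mul]
    linear_combination (norm := abel) (-1 : ℤ) • Rr - LR

end ring

section module

variable {X : Type*} [Group X] (N : Type*) [AddCommGroup N] [DistribMulAction X N]

/-- the action of `x` as an additive endomorphism -/
noncomputable def TT (x : X) : AddMonoid.End N := DistribMulAction.toAddMonoidEnd X N x

/-- the endomorphism `x - 1` -/
noncomputable def tt (x : X) : AddMonoid.End N := TT N x - 1

theorem TT_apply (x : X) (n : N) : TT N x n = x • n := rfl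

theorem tt_apply (x : X) (n : N) : tt N x n = x • n - n := rfl

theorem TT_mul (x y : X) : TT N (x * y) = TT N x * TT N y := map_mul _ x y

theorem TT_one : TT N (1 : X) = 1 := map_one _

theorem TT_eq (x : X) : TT N x = 1 + tt N x := by simp [tt]

theorem TT_mul_inv (x : X) : TT N x * TT N x⁻¹ = 1 := by rw [← TT_mul, mul_inv_cancel, TT_one]

theorem TT_inv_mul (x : X) : TT N x⁻¹ * TT N x = 1 := by rw [← TT_mul, inv_mul_cancel, TT_one]

theorem tt_conj (g x : X) : tt N (g * x * g⁻¹) = TT N g * tt N x * TT N g⁻¹ := by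
  simp only [tt, TT_mul, mul_sub, sub_mul, mul_one, TT_mul_inv]

theorem tt_conj' (g x : X) : tt N (g⁻¹ * x * g) = TT N g⁻¹ * tt N x * TT N g := by
  have := tt_conj N g⁻¹ x
  rwa [inv_inv] at this

theorem TT_inv_of_sq (x : X) (h : tt N x * tt N x = 0) : TT N x⁻¹ = 1 - tt N x := by
  have h1 : TT N x * (1 - tt N x) = 1 := by
    rw [TT_eq]
    have : (1 + tt N x) * (1 - tt N x) = 1 - tt N x * tt N x := by noncomm_ring
    rw [this, h, sub_zero]
  calc TT N x⁻¹ = TT N x⁻¹ * (TT N x * (1 - tt N x)) := by rw [h1, mul_one]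
    _ = 1 - tt N x := by rw [← mul_assoc, TT_inv_mul, one_mul]

/-- `C` acts quadratically on `N` -/
def QuadOn (C : Subgroup X) : Prop := ∀ c ∈ C, ∀ c' ∈ C, tt N c' * tt N c = 0

variable {N}

theorem quadOn_of (C : Subgroup X)
    (hq : ∀ a ∈ C, ∀ a' ∈ C, ∀ n : N, a' • (a • n - n) = a • n - n) : QuadOn N C := by
  intro c hc c' hc'
  ext n
  show c' • (c • n - n) - (c • n - n) = 0
  rw [hq c hc c' hc', sub_self]

theorem QuadOn.conj {C : Subgroup X} (h : QuadOn N C) (g : X) : QuadOn N (conjBy C g) := by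
  intro c hc c' hc'
  rw [mem_conjBy] at hc hc'
  have e : ∀ y : X, y = g * (g⁻¹ * y * g) * g⁻¹ := fun y => by simp [mul_assoc]
  rw [e c, e c', tt_conj, tt_conj]
  calc TT N g * tt N (g⁻¹ * c' * g) * TT N g⁻¹ * (TT N g * tt N (g⁻¹ * c * g) * TT N g⁻¹)
      = TT N g * tt N (g⁻¹ * c' * g) * (TT N g⁻¹ * TT N g) * tt N (g⁻¹ * c * g) * TT N g⁻¹ := by
        simp only [mul_assoc]
    _ = TT N g * (tt N (g⁻¹ * c' * g) * tt N (g⁻¹ * c * g)) * TT N g⁻¹ := by
        rw [TT_inv_mul]; simp only [mul_assoc, mul_one]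
    _ = 0 := by rw [h _ hc _ hc']; simp

theorem TT_cancel {u v : AddMonoid.End N} (g k : X) (h : TT N g * u * TT N k = TT N g * v * TT N k) :
    u = v := by
  have := congrArg (fun t => TT N g⁻¹ * t * TT N k⁻¹) h
  simp only [← mul_assoc, TT_inv_mul, one_mul] at this
  simpa only [mul_assoc, TT_mul_inv, mul_one] using this

variable {A B : Subgroup X}

theorem special_of_quad (h : IsRankOneGroup X A B) (hA : IsMulCommutative A) (hq : QuadOn N A)
    (hK : ∀ x : X, TT N x = 1 → x ∈ Subgroup.center X) : IsSpecialRankOnePair A B := by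
  refine ⟨h.2, ?_⟩
  intro a ha ha1 b hb hb1 hab
  have hqB : QuadOn N B := by
    obtain ⟨x, -, hx⟩ := R1.exists_conj h.2
    rw [← hx]; exact hq.conj x
  have hqC : QuadOn N (conjBy A b⁻¹) := hq.conj _
  have hc' : b⁻¹ * a * b ∈ conjBy A b⁻¹ := by
    have := conj_mem_conjBy (g := b⁻¹) ha
    rwa [inv_inv] at this
  have hc : a⁻¹ * b * a ∈ conjBy A b⁻¹ := by
    rw [hab]
    have := conj_mem_conjBy (g := a⁻¹) hb
    rwa [inv_inv] at this
  have hb' : a * (b⁻¹ * a * b) * a⁻¹ ∈ B := by
    have := hc'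
    rw [hab, mem_conjBy, inv_inv] at this
    exact this
  set b' := a * (b⁻¹ * a * b) * a⁻¹ with hb'def
  have hbb' : b⁻¹ * a * b = a⁻¹ * b' * a := by simp [hb'def, mul_assoc]
  set α := tt N a with hα
  set β := tt N b with hβ
  set β' := tt N b' with hβ'
  have hαα : α * α = 0 := hq a ha a ha
  have hββ : β * β = 0 := hqB b hb b hb
  have hββ' : β * β' = 0 := hqB b' hb' b hb
  have Ta : TT N a = 1 + α := TT_eq N a
  have Tb : TT N b = 1 + β := TT_eq N b
  have Tai : TT N a⁻¹ = 1 - α := TT_inv_of_sq N a hαα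
  have Tbi : TT N b⁻¹ = 1 - β := TT_inv_of_sq N b hββ
  have E : (1 - β) * α * (1 + β) = (1 - α) * β' * (1 + α) := by
    rw [← Ta, ← Tb, ← Tai, ← Tbi, ← tt_conj', ← tt_conj', hbb']
  have H1 : α * (1 + β) * (1 - α) * β = 0 := by
    have h1 := hqC _ hc _ hc'
    rw [tt_conj', tt_conj'] at h1
    apply TT_cancel b⁻¹ a
    rw [← Tb, ← Tai, mul_zero, zero_mul, ← h1]
    simp only [mul_assoc, hα, hβ]
  have H2 : β * (1 + α) * (1 - β) * α = 0 := by
    have h1 := hqC _ hc' _ hc
    rw [tt_conj', tt_conj'] at h1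
    apply TT_cancel a⁻¹ b
    rw [← Ta, ← Tbi, mul_zero, zero_mul, ← h1]
    simp only [mul_assoc, hα, hβ]
  obtain ⟨K1, K2⟩ := ring_key α β β' hαα hββ H1 H2 E
  -- d = b b'
  have hd : b * b' ∈ B := B.mul_mem hb hb'
  have Td : TT N (b * b') = 1 + (β + β') := by
    rw [TT_mul, Tb, TT_eq N b', ← hβ']
    have : (1 + β) * (1 + β') = 1 + (β + β') + β * β' := by noncomm_ring
    rw [this, hββ', add_zero]
  have hcomm : TT N a * TT N (b * b') = TT N (b * b') * TT N a := by
    rw [Td, Ta]
    have e1 : (1 + α) * (1 + (β + β')) = 1 + α + (β + β') + α * (β + β') := by noncomm_ring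
    have e2 : (1 + (β + β')) * (1 + α) = 1 + α + (β + β') + (β + β') * α := by noncomm_ring
    rw [e1, e2, K1, K2]
  have hk : a * (b * b') * a⁻¹ * (b * b')⁻¹ ∈ Subgroup.center X := by
    apply hK
    rw [TT_mul, TT_mul, TT_mul, hcomm, mul_assoc (TT N (b * b')), TT_mul_inv, mul_one, TT_mul_inv]
  have hd1 : b * b' = 1 := by
    by_contra hd1
    set d := b * b' with hddef
    have hne : conjBy A d ≠ A := fun h1 => hd1 (R1.eq_one_of_normalizes (R1.symm h.2) hd h1)
    have hmem : conjBy A d ∈ unipotentSubgroups A B := ⟨d, Subgroup.mem_sup_right hd, rfl⟩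
    have h3 := (R1.pair_of_mem h.2 hmem (left_mem_unipotentSubgroups A B) hne).1
    have hy : d * a * d⁻¹ = 1 := by
      apply R1.eq_one_of_commute h3 (conj_mem_conjBy ha)
      intro a' ha'
      have e1 : d * a * d⁻¹ = (a * d * a⁻¹ * d⁻¹)⁻¹ * a := by simp [mul_assoc]
      have e2 := Subgroup.mem_center_iff.mp (Subgroup.inv_mem _ hk) a'
      have e3 := comm_of_isMulCommutative hA ha ha'
      rw [e1, mul_assoc, e3, ← mul_assoc, ← e2, mul_assoc]
    apply ha1
    have : d⁻¹ * (d * a * d⁻¹) * d = d⁻¹ * 1 * d := by rw [hy]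
    simpa [mul_assoc] using this
  have : b' = b⁻¹ := (inv_eq_of_mul_eq_one_right hd1).symm
  rw [hbb', this]

end module

end Cfsg.Agent.Lib.Helper83
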