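import Mathlib
import Cfsg.Prelude.Def_RootSubgroups
import Cfsg.Agent.Lib.Helper83.Quad
import Cfsg.Agent.Lib.Helper83.Comm

set_option autoImplicit false

namespace Cfsg.Agent.Lib.Helper83

open Cfsg
open scoped commutatorElement

variable {G : Type*} [Group G] {A B N : Subgroup G}

theorem special_of_subgroupOf (h : IsRankOnePair A B) {U : Subgroup G} (hA : A ≤ U) (hB : B ≤ U)
    (hs : IsSpecialRankOnePair (A.subgroupOf U) (B.subgroupOf U)) : IsSpecialRankOnePair A B := by
  refine ⟨h, ?_⟩
  intro a ha ha1 b hb hb1 hab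
  have := hs.2 ⟨a, hA ha⟩ ha (fun e => ha1 (congrArg Subtype.val e)) ⟨b, hB hb⟩ hb
    (fun e => hb1 (congrArg Subtype.val e)) (by
      rw [conjBy_subgroupOf, conjBy_subgroupOf]
      simp only [Subgroup.coe_inv]
      rw [hab])
  exact congrArg Subtype.val this

/-- A rank one pair acting by conjugation on an abelian subgroup `N`, with `A` acting quadratically and
`C_X(N)` central, is special. -/
theorem special_of_conj_module (h : IsRankOnePair A B) (hA : IsMulCommutative A)
    (hN : Cm N N) (hnz : Nz (A ⊔ B) N)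
    (hq : ∀ a ∈ A, ∀ a' ∈ A, ∀ n ∈ N, a' * ⁅a, n⁆ = ⁅a, n⁆ * a')
    (hK : ∀ x ∈ A ⊔ B, (∀ n ∈ N, x * n = n * x) → ∀ y ∈ A ⊔ B, x * y = y * x) :
    IsSpecialRankOnePair A B := by
  let i1 : AddCommGroup (Additive ↥N) :=
    { (inferInstance : AddGroup (Additive ↥N)) with
      add_comm := fun x y => by
        apply Additive.toMul.injective
        apply Subtype.ext
        exact hN _ (Additive.toMul x).2 _ (Additive.toMul y).2 }
  let i2 : DistribMulAction ↥(A ⊔ B) (Additive ↥N) :=
    { smul := fun x m => Additive.ofMul ⟨x.1 * (Additive.toMul m).1 * x.1⁻¹,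
        hnz.conj_mem x.2 (Additive.toMul m).2⟩
      one_smul := fun m => by
        apply Additive.toMul.injective
        apply Subtype.ext
        show (1 : G) * (Additive.toMul m).1 * (1 : G)⁻¹ = (Additive.toMul m).1
        simp
      mul_smul := fun x y m => by
        apply Additive.toMul.injective
        apply Subtype.ext
        show (x.1 * y.1) * (Additive.toMul m).1 * (x.1 * y.1)⁻¹
          = x.1 * (y.1 * (Additive.toMul m).1 * y.1⁻¹) * x.1⁻¹
        simp [mul_assoc]
      smul_zero := fun x => by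
        apply Additive.toMul.injective
        apply Subtype.ext
        show x.1 * (1 : G) * x.1⁻¹ = 1
        simp
      smul_add := fun x m m' => by
        apply Additive.toMul.injective
        apply Subtype.ext
        show x.1 * ((Additive.toMul m).1 * (Additive.toMul m').1) * x.1⁻¹
          = (x.1 * (Additive.toMul m).1 * x.1⁻¹) * (x.1 * (Additive.toMul m').1 * x.1⁻¹)
        simp [mul_assoc] }
  have hsm : ∀ (x : ↥(A ⊔ B)) (m : Additive ↥N),
      ((Additive.toMul (x • m) : ↥N) : G) = x.1 * (Additive.toMul m).1 * x.1⁻¹ := fun _ _ => rfl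
  apply special_of_subgroupOf h le_sup_left le_sup_right
  apply special_of_quad (N := Additive ↥N) (R1.isRankOneGroup_sup h)
  · refine ⟨⟨fun x y => ?_⟩⟩
    apply Subtype.ext
    apply Subtype.ext
    exact comm_of_isMulCommutative hA x.2 y.2
  · apply quadOn_of
    intro a ha a' ha' n
    apply Additive.toMul.injective
    apply Subtype.ext
    rw [hsm]
    have e : ((Additive.toMul (a • n - n) : ↥N) : G) = ⁅a.1, (Additive.toMul n).1⁆ := by
      rw [toMul_sub, Subgroup.coe_div, hsm, div_eq_mul_inv, commutatorElement_def]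
    rw [e, hq a.1 ha a'.1 ha' _ (Additive.toMul n).2]
    simp
  · intro x hx
    rw [Subgroup.mem_center_iff]
    intro y
    apply Subtype.ext
    refine (hK x.1 x.2 ?_ y.1 y.2).symm
    intro n hn
    have h1 : TT (Additive ↥N) x (Additive.ofMul ⟨n, hn⟩) = Additive.ofMul ⟨n, hn⟩ := by
      rw [hx]; rfl
    rw [TT_apply] at h1
    have h2 := congrArg (fun t => ((Additive.toMul t : ↥N) : G)) h1
    simp only [hsm] at h2
    have h3 : x.1 * n * x.1⁻¹ = n := h2
    calc x.1 * n = x.1 * n * x.1⁻¹ * x.1 := by simp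
      _ = n * x.1 := by rw [h3]

end Cfsg.Agent.Lib.Helper83
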