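import Mathlib
import Cfsg.Prelude.Def_RootSubgroups
import Cfsg.Agent.Lib.Helper83.Chain

set_option autoImplicit false

namespace Cfsg.Agent.Lib.Helper83

open Cfsg
open scoped commutatorElement

variable {G : Type*} [Group G] {S : Set (Subgroup G)} {A B C D E : Subgroup G}

theorem FAdj.symm' (h : FAdj S A B) : FAdj S B A := ⟨h.2.1, h.1, R1.symm h.2.2⟩

theorem fadj_symmetric (S : Set (Subgroup G)) : Std.Symm (FAdj S) := ⟨fun _ _ h => FAdj.symm' h⟩

theorem path_symm (h : Relation.ReflTransGen (FAdj S) A B) : Relation.ReflTransGen (FAdj S) B A :=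
  haveI := fadj_symmetric S
  Relation.ReflTransGen.stdSymm.symm _ _ h

theorem comp_eq_of_path (h : Relation.ReflTransGen (FAdj S) A B) :
    componentOf (FAdj S) S A = componentOf (FAdj S) S B := by
  ext C
  constructor
  · rintro ⟨hC, hp⟩
    exact ⟨hC, (path_symm h).trans hp⟩
  · rintro ⟨hC, hp⟩
    exact ⟨hC, h.trans hp⟩

theorem path_of_comp_eq (hB : B ∈ S) (h : componentOf (FAdj S) S A = componentOf (FAdj S) S B) :
    Relation.ReflTransGen (FAdj S) A B := by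
  have : B ∈ componentOf (FAdj S) S B := ⟨hB, Relation.ReflTransGen.refl⟩
  rw [← h] at this
  exact this.2

theorem exists_adj_of_comp (h : ∃ A' ∈ componentOf (FAdj S) S A, A' ≠ A) : ∃ E, FAdj S A E := by
  obtain ⟨A', ⟨-, hp⟩, hne⟩ := h
  rcases Relation.ReflTransGen.cases_head hp with h1 | ⟨E, hE, -⟩
  · exact absurd h1.symm hne
  · exact ⟨E, hE⟩

theorem R1.pair_conj (h : IsRankOnePair A E) {x : G} (hx : x ∈ A) (hx1 : x ≠ 1) :
    IsRankOnePair E (conjBy E x) :=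
  (R1.pair_of_mem h (R1.right_mem_unipotentSubgroups h)
    ((R1.mem_unipotentSubgroups h).mpr (Or.inr ⟨x, hx, rfl⟩))
    (fun e => hx1 (R1.eq_one_of_normalizes h hx e.symm))).1

/-- If `A`, `B` commute, `E ∈ Ω_A`, `E ∉ Ω_B` and `D ∈ S`, `D ≤ AB` contains `ab` with `a, b ≠ 1`, then
`D ∈ Ω_E`. -/
theorem line_adj (hS : IsRootSubgroupSet S) (hA : A ∈ S) (hB : B ∈ S) (hE : E ∈ S) (hD : D ∈ S)
    (hAE : IsRankOnePair A E) (hcm : Cm A B) {a b : G} (ha : a ∈ A) (ha1 : a ≠ 1) (hb : b ∈ B)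
    (hb1 : b ≠ 1) (hd : a * b ∈ D) (hDle : D ≤ A ⊔ B) (hEB : ¬ IsRankOnePair E B) :
    IsRankOnePair E D := by
  have hab : a * b = b * a := hcm a ha b hb
  have cEB : RootCommutatorCase S E B := by
    rcases hS.pair E hE B hB with h1 | h1 | h1
    · exfalso
      have hz : ∀ y ∈ A ⊔ E, b * y = y * b :=
        (Cm.sup_right hcm.symm (Cm.of_commutator_eq_bot h1).symm) b hb
      exact root_central_translate hS hA hE hAE hz hb1 ha ha1 hD (hab ▸ hd)
    · exact absurd h1 hEB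
    · exact h1
  rcases hS.pair E hE D hD with h1 | h1 | h1
  · exfalso
    have h2 : conjBy E (a * b) = E :=
      conjBy_eq_self_of_commute (fun e he => ((Cm.of_commutator_eq_bot h1) e he _ hd).symm)
    have h3 : conjBy E b = conjBy E a⁻¹ := by
      rw [← conjBy_conjBy, conjBy_eq_iff] at h2; exact h2
    have h4 : Cm E (conjBy E b) :=
      (Cm.sup_right (Cm.of_comm (hS.commutative E hE)) (CC.commute_left cEB)).mono le_rfl
        (CC.conjBy_le cEB hb)
    have h5 := R1.pair_conj hAE (A.inv_mem ha) (inv_ne_one.mpr ha1)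
    rw [← h3] at h5
    obtain ⟨e, he, he1⟩ := R1.exists_left h5
    exact he1 (R1.eq_one_of_commute h5 he (h4 e he))
  · exact h1
  · exfalso
    have hDB : Cm D B := (Cm.sup_left hcm (Cm.of_comm (hS.commutative B hB))).mono hDle le_rfl
    have hch : Chain S D E B := ⟨hS, hD, hE, hB, CC.symm h1, CC.symm cEB, hDB⟩
    have hnil := hch.nilpotent
    have haR : a ∈ D ⊔ E ⊔ B := by
      have e : a = (a * b) * b⁻¹ := by group
      rw [e]
      exact Subgroup.mul_mem _ (Subgroup.mem_sup_left (Subgroup.mem_sup_left hd))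
        (Subgroup.inv_mem _ (Subgroup.mem_sup_right hb))
    have hER : E ≤ D ⊔ E ⊔ B := le_sup_right.trans le_sup_left
    exact R1.not_le_nilpotent (R1.pair_conj hAE ha ha1) hnil hER (conjBy_le_of_le hER haR)

/-- S5031 in path form -/
theorem path_of_linePartner (hS : IsRootSubgroupSet S) (hA : A ∈ S) (hB : B ∈ S)
    (hA2 : ∃ E, FAdj S A E) (hB2 : ∃ E, FAdj S B E) (hBL : B ∈ linePartners S A) :
    Relation.ReflTransGen (FAdj S) A B := by
  by_contra npath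
  obtain ⟨⟨-, hBA, hcomm⟩, hpart⟩ := hBL
  have hcm : Cm A B := Cm.of_commutator_eq_bot hcomm
  obtain ⟨E, hAE⟩ := hA2
  obtain ⟨E', hBE'⟩ := hB2
  obtain ⟨a, ha, ha1⟩ := exists_ne_one_of_ne_bot (hS.ne_bot A hA)
  obtain ⟨b, hb, hb1⟩ := exists_ne_one_of_ne_bot (hS.ne_bot B hB)
  have hAm : A ∈ membersIn S (A ⊔ B) := ⟨hA, le_sup_left⟩
  have hBm : B ∈ membersIn S (A ⊔ B) := ⟨hB, le_sup_right⟩
  have hinf : A ⊓ B = ⊥ := hpart.2.2 A hAm B hBm (Ne.symm hBA)
  have hab1 : a * b ≠ 1 := by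
    intro h
    have e : a = b⁻¹ := eq_inv_of_mul_eq_one_left h
    have hm : a ∈ A ⊓ B := ⟨ha, e ▸ B.inv_mem hb⟩
    rw [hinf] at hm; exact ha1 (Subgroup.mem_bot.mp hm)
  obtain ⟨D, ⟨hD, hDle⟩, hd⟩ := hpart.2.1 (a * b)
    (Subgroup.mul_mem _ (Subgroup.mem_sup_left ha) (Subgroup.mem_sup_right hb)) hab1
  have h1 : IsRankOnePair E D :=
    line_adj hS hA hB hAE.2.1 hD hAE.2.2 hcm ha ha1 hb hb1 hd hDle
      (fun h => npath (.tail (.single hAE) ⟨hAE.2.1, hB, h⟩))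
  have h2 : IsRankOnePair E' D :=
    line_adj hS hB hA hBE'.2.1 hD hBE'.2.2 hcm.symm hb hb1 ha ha1 (hcm a ha b hb ▸ hd)
      (sup_comm A B ▸ hDle)
      (fun h => npath (.tail (.single ⟨hA, hBE'.2.1, R1.symm h⟩) (FAdj.symm' hBE')))
  exact npath (.tail (.tail (.tail (.single hAE) ⟨hAE.2.1, hD, h1⟩) ⟨hD, hBE'.2.1, R1.symm h2⟩)
    (FAdj.symm' hBE'))

end Cfsg.Agent.Lib.Helper83
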