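import Mathlib
import Cfsg.Prelude.Def_RootSubgroups
import Cfsg.Agent.Lib.Helper83.Graph

set_option autoImplicit false

namespace Cfsg.Agent.Lib.Helper83

open Cfsg
open scoped commutatorElement

variable {G : Type*} [Group G] {S : Set (Subgroup G)} {A B C D E : Subgroup G}

theorem CC.le_sup_conj (hc : RootCommutatorCase S A B) {β : G} (hβ : β ∈ B) (hβ1 : β ≠ 1) :
    ⁅A, B⁆ ≤ A ⊔ conjBy A β := by
  rw [← hc.2.2.2 β hβ hβ1, Subgroup.closure_le]
  rintro _ ⟨a, ha, rfl⟩
  have e : a * β * a⁻¹ * β⁻¹ = a * (β * a⁻¹ * β⁻¹) := by group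
  simp only [e]
  exact Subgroup.mul_mem _ (Subgroup.mem_sup_left ha)
    (Subgroup.mem_sup_right (conj_mem_conjBy (A.inv_mem ha)))

theorem CC.sup_conj_eq (hc : RootCommutatorCase S A B) {β : G} (hβ : β ∈ B) (hβ1 : β ≠ 1) :
    A ⊔ conjBy A β = A ⊔ ⁅A, B⁆ :=
  le_antisymm (sup_le le_sup_left (CC.conjBy_le hc hβ)) (sup_le le_sup_left (CC.le_sup_conj hc hβ hβ1))

/-- in the commutator case, `b A b⁻¹` is a line partner of `A` (if different from `A`) -/
theorem CC.conj_mem_linePartners (hS : IsRootSubgroupSet S) (hA : A ∈ S) (hE : E ∈ S)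
    (hAE : IsRankOnePair A E) (hc : RootCommutatorCase S A B) {β : G} (hβ : β ∈ B)
    (hne : conjBy A β ≠ A) : conjBy A β ∈ linePartners S A := by
  have hβ1 : β ≠ 1 := by
    rintro rfl
    exact hne (conjBy_one A)
  refine ⟨⟨hS.conj_mem A hA β, hne, ?_⟩, ?_⟩
  · apply Cm.commutator_eq_bot
    exact (Cm.sup_right (Cm.of_comm (hS.commutative A hA)) (CC.commute_left hc)).mono le_rfl
      (CC.conjBy_le hc hβ)
  · rw [CC.sup_conj_eq hc hβ hβ1]
    exact line_partition hS hA hE hAE hc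

theorem path_conj_of_mem (hS : IsRootSubgroupSet S) (hni : ∀ D ∈ S, ∃ E, FAdj S D E) (hD : D ∈ S)
    (hE : E ∈ S) {e : G} (he : e ∈ E) : Relation.ReflTransGen (FAdj S) D (conjBy D e) := by
  by_cases hne : conjBy D e = D
  · rw [hne]
  have hDe : conjBy D e ∈ S := hS.conj_mem D hD e
  rcases hS.pair D hD E hE with h1 | h1 | h1
  · exact absurd (conjBy_eq_self_of_commute
      (fun d hd => ((Cm.of_commutator_eq_bot h1) d hd e he).symm)) hne
  · have he1 : e ≠ 1 := by
      rintro rfl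
      exact hne (conjBy_one D)
    exact .single ⟨hD, hDe, R1.pair_conj (R1.symm h1) he he1⟩
  · obtain ⟨F, hF⟩ := hni D hD
    exact path_of_linePartner hS hD hDe (hni D hD) (hni _ hDe)
      (CC.conj_mem_linePartners hS hD hF.2.1 hF.2.2 h1 he hne)

theorem path_conj (hS : IsRootSubgroupSet S) (hni : ∀ D ∈ S, ∃ E, FAdj S D E) (g : G) :
    ∀ D ∈ S, Relation.ReflTransGen (FAdj S) D (conjBy D g) := by
  let P : Subgroup G :=
    { carrier := {g | ∀ D ∈ S, Relation.ReflTransGen (FAdj S) D (conjBy D g)}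
      one_mem' := by
        intro D _
        rw [conjBy_one]
      mul_mem' := by
        intro g h hg hh D hD
        rw [← conjBy_conjBy]
        exact (hh D hD).trans (hg _ (hS.conj_mem D hD h))
      inv_mem' := by
        intro g hg D hD
        have := hg _ (hS.conj_mem D hD g⁻¹)
        rw [conjBy_conjBy, mul_inv_cancel, conjBy_one] at this
        exact path_symm this }
  have hle : (⨆ A ∈ S, A) ≤ P := iSup₂_le fun E hE e he D hD => path_conj_of_mem hS hni hD hE he
  rw [hS.generates] at hle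
  exact hle (Subgroup.mem_top g)

theorem exists_conj_of_path (h : Relation.ReflTransGen (FAdj S) A B) : ∃ g : G, B = conjBy A g := by
  induction h with
  | refl => exact ⟨1, (conjBy_one A).symm⟩
  | tail _ hbc ih =>
    obtain ⟨g, rfl⟩ := ih
    obtain ⟨x, -, hx⟩ := R1.exists_conj hbc.2.2
    exact ⟨x * g, by rw [← hx, conjBy_conjBy]⟩

end Cfsg.Agent.Lib.Helper83
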