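import Mathlib
import Cfsg.Prelude.Def_RootSubgroups
import Cfsg.Agent.Lib.Helper83.Graph2

set_option autoImplicit false

namespace Cfsg.Agent.Lib.Helper83

open Cfsg
open scoped commutatorElement

variable {G : Type*} [Group G] {S : Set (Subgroup G)} {A B C D : Subgroup G}

theorem conjBy_inf (A B : Subgroup G) (g : G) : conjBy (A ⊓ B) g = conjBy A g ⊓ conjBy B g :=
  Subgroup.map_inf A B _ (MulAut.conj g).injective

theorem invariant_sup {T : Set (Subgroup G)} {H K : Subgroup G}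
    (hH : ∀ x ∈ H, ∀ E ∈ T, conjBy E x ∈ T) (hK : ∀ x ∈ K, ∀ E ∈ T, conjBy E x ∈ T) :
    ∀ x ∈ H ⊔ K, ∀ E ∈ T, conjBy E x ∈ T := by
  let P : Subgroup G :=
    { carrier := {x | (∀ E ∈ T, conjBy E x ∈ T) ∧ (∀ E ∈ T, conjBy E x⁻¹ ∈ T)}
      one_mem' := by
        constructor
        · intro E hE; rw [conjBy_one]; exact hE
        · intro E hE; rw [inv_one, conjBy_one]; exact hE
      mul_mem' := by
        rintro x y ⟨hx, hx'⟩ ⟨hy, hy'⟩
        constructor
        · intro E hE; rw [← conjBy_conjBy]; exact hx _ (hy E hE)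
        · intro E hE; rw [mul_inv_rev, ← conjBy_conjBy]; exact hy' _ (hx' E hE)
      inv_mem' := by
        rintro x ⟨hx, hx'⟩
        exact ⟨hx', by rw [inv_inv]; exact hx⟩ }
  have hle : H ⊔ K ≤ P :=
    sup_le (fun x hx => ⟨hH x hx, hH x⁻¹ (H.inv_mem hx)⟩) (fun x hx => ⟨hK x hx, hK x⁻¹ (K.inv_mem hx)⟩)
  exact fun x hx => (hle hx).1

/-- in the commutator case an element of `A` commuting with `B` is trivial -/
theorem CC.eq_one_of_commute (hS : IsRootSubgroupSet S) (hc : RootCommutatorCase S A B) {a : G}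
    (ha : a ∈ A) (hcm : ∀ b ∈ B, a * b = b * a) : a = 1 := by
  by_contra ha1
  apply hS.ne_bot _ hc.1
  rw [← hc.2.2.1 a ha ha1, Subgroup.closure_eq_bot_iff]
  rintro _ ⟨b, hb, rfl⟩
  simp only [Set.mem_singleton_iff]
  rw [hcm b hb]; simp

/-- the configuration `⁅A,B⁆ = C`, `⁅C,D⁆ = A` -/
structure NatMod (S : Set (Subgroup G)) (A B C D : Subgroup G) : Prop where
  hS : IsRootSubgroupSet S
  hA : A ∈ S
  hB : B ∈ S
  hC : C ∈ S
  hD : D ∈ S
  cAB : RootCommutatorCase S A B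
  cCD : RootCommutatorCase S C D
  eC : ⁅A, B⁆ = C
  eA : ⁅C, D⁆ = A

theorem NatMod.symm (h : NatMod S A B C D) : NatMod S C D A B :=
  ⟨h.hS, h.hC, h.hD, h.hA, h.hB, h.cCD, h.cAB, h.eA, h.eC⟩

theorem NatMod.AC (h : NatMod S A B C D) : Cm A C := by
  have := CC.commute_left h.cAB
  rwa [h.eC] at this

theorem NatMod.BC (h : NatMod S A B C D) : Cm B C := by
  intro b hb c hc
  rw [← h.eC] at hc
  exact (h.cAB.2.1 c hc b (Subgroup.mem_sup_right hb)).symm

theorem NatMod.DA (h : NatMod S A B C D) : Cm D A := h.symm.BC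

theorem NatMod.nzB (h : NatMod S A B C D) : Nz B (A ⊔ C) := by
  apply Nz.of_conj_le
  intro x hx
  rw [conjBy_sup, h.BC.nz x hx]
  refine sup_le ?_ le_sup_right
  have := CC.conjBy_le h.cAB hx
  rwa [h.eC] at this

theorem NatMod.nzD (h : NatMod S A B C D) : Nz D (A ⊔ C) := by
  have := h.symm.nzB
  rwa [sup_comm] at this

theorem NatMod.nz (h : NatMod S A B C D) : Nz (B ⊔ D) (A ⊔ C) := Nz.sup_left h.nzB h.nzD

theorem NatMod.cent_D (h : NatMod S A B C D) {x : G} (hx : x ∈ A ⊔ C)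
    (hcm : ∀ d ∈ D, x * d = d * x) : x ∈ A := by
  obtain ⟨a, ha, c, hc, rfl⟩ := (mem_sup_of_commute h.AC).mp hx
  have hc1 : c = 1 := by
    apply CC.eq_one_of_commute h.hS h.cCD hc
    intro d hd
    have h1 := hcm d hd
    have h2 := h.DA d hd a ha
    have : c * d * a = d * c * a := by
      calc c * d * a = c * (d * a) := by rw [mul_assoc]
        _ = c * (a * d) := by rw [h2]
        _ = c * a * d := by rw [mul_assoc]
        _ = d * (c * a) := h1
        _ = d * c * a := by rw [mul_assoc]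
    exact mul_right_cancel this
  rw [hc1, one_mul]; exact ha

theorem NatMod.inf_eq_bot (h : NatMod S A B C D) : A ⊓ C = ⊥ := by
  rw [eq_bot_iff]
  rintro x ⟨hxA, hxC⟩
  exact CC.eq_one_of_commute h.hS h.cCD hxC (fun d hd => (h.DA d hd x hxA).symm)

theorem NatMod.cent_conj (h : NatMod S A B C D) {g x : G} (hg : conjBy (A ⊔ C) g⁻¹ = A ⊔ C)
    (hx : x ∈ A ⊔ C) (hcm : ∀ d ∈ conjBy D g, x * d = d * x) : x ∈ conjBy A g := by
  rw [mem_conjBy]
  apply h.cent_D
  · rw [← hg]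
    have := conj_mem_conjBy (g := g⁻¹) hx
    rwa [inv_inv] at this
  · intro d hd
    have := hcm _ (conj_mem_conjBy (g := g) hd)
    have e := congrArg (fun t => g⁻¹ * t * g) this
    simpa [mul_assoc] using e

theorem NatMod.r1 (h : NatMod S A B C D) : IsRankOnePair B D := by
  rcases h.hS.pair B h.hB D h.hD with h1 | h1 | h1
  · exfalso
    apply h.hS.ne_bot A h.hA
    rw [← h.eA]
    apply Cm.commutator_eq_bot
    have h2 : Cm D (A ⊔ B) := Cm.sup_right h.DA (Cm.of_commutator_eq_bot h1).symm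
    have h3 : C ≤ A ⊔ B := by rw [← h.eC]; exact Subgroup.commutator_le_sup A B
    exact (h2.mono le_rfl h3).symm
  · exact h1
  · exfalso
    have hch : Chain S A B D := ⟨h.hS, h.hA, h.hB, h.hD, h.cAB, CC.symm h1, h.DA.symm⟩
    obtain ⟨n, hn⟩ := (Subgroup.isNilpotent_iff_lowerCentralSeries _).mp hch.nilpotent
    have hAR : A ≤ A ⊔ B ⊔ D := le_sup_left.trans le_sup_left
    have hBR : B ≤ A ⊔ B ⊔ D := le_sup_right.trans le_sup_left
    have hDR : D ≤ A ⊔ B ⊔ D := le_sup_right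
    have key : ∀ n, A ≤ (A ⊔ B ⊔ D).lowerCentralSeries n ∧ C ≤ (A ⊔ B ⊔ D).lowerCentralSeries n := by
      intro n
      induction n with
      | zero =>
        refine ⟨hAR, ?_⟩
        rw [← h.eC]
        exact (Subgroup.commutator_le_sup A B).trans le_sup_left
      | succ n ih =>
        constructor
        · calc A = ⁅C, D⁆ := h.eA.symm
            _ ≤ _ := Subgroup.commutator_mono ih.2 hDR
        · calc C = ⁅A, B⁆ := h.eC.symm
            _ ≤ _ := Subgroup.commutator_mono ih.1 hBR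
    apply h.hS.ne_bot A h.hA
    rw [eq_bot_iff, ← hn]
    exact (key n).1

theorem NatMod.conj_le (h : NatMod S A B C D) {b d : G} (hb : b ∈ B) (hd : d ∈ D)
    (e : conjBy B d = conjBy D b) : conjBy C d ≤ conjBy A b := by
  intro x hx
  apply h.cent_conj (h.nzB b⁻¹ (B.inv_mem hb))
  · rw [← h.nzD d hd]
    exact conjBy_mono le_sup_right d hx
  · rw [← e]
    exact fun y hy => ((h.BC.conj d) y hy x hx).symm

theorem NatMod.conj_eq (h : NatMod S A B C D) {b d : G} (hb : b ∈ B) (hd : d ∈ D)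
    (e : conjBy B d = conjBy D b) : conjBy C d = conjBy A b :=
  le_antisymm (h.conj_le hb hd e) (h.symm.conj_le hd hb e.symm)

/-- the points of the line -/
def NatMod.pts (A B C : Subgroup G) : Set (Subgroup G) :=
  (fun b : G => conjBy A b) '' (B : Set G) ∪ {C}

theorem NatMod.pts_subset (h : NatMod S A B C D) : NatMod.pts A B C ⊆ NatMod.pts C D A := by
  rintro E (⟨b, hb, rfl⟩ | rfl)
  · by_cases hb1 : b = 1
    · right; simp [hb1, conjBy_one]
    · obtain ⟨d, hd, -, e⟩ := R1.exists_partner h.r1 hb hb1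
      left
      exact ⟨d, hd, h.conj_eq hb hd e⟩
  · left
    exact ⟨1, D.one_mem, conjBy_one _⟩

theorem NatMod.pts_eq (h : NatMod S A B C D) : NatMod.pts A B C = NatMod.pts C D A :=
  Set.Subset.antisymm h.pts_subset h.symm.pts_subset

theorem NatMod.pts_conj_B (h : NatMod S A B C D) : ∀ x ∈ B, ∀ E ∈ NatMod.pts A B C,
    conjBy E x ∈ NatMod.pts A B C := by
  rintro x hx E (⟨b, hb, rfl⟩ | rfl)
  · left
    exact ⟨x * b, B.mul_mem hx hb, (conjBy_conjBy _ _ _).symm⟩
  · right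
    exact h.BC.nz x hx

theorem NatMod.pts_conj (h : NatMod S A B C D) : ∀ x ∈ B ⊔ D, ∀ E ∈ NatMod.pts A B C,
    conjBy E x ∈ NatMod.pts A B C := by
  apply invariant_sup h.pts_conj_B
  rw [h.pts_eq]
  exact h.symm.pts_conj_B

theorem NatMod.exists_conj (h : NatMod S A B C D) : ∃ g ∈ B ⊔ D, C = conjBy A g := by
  obtain ⟨b, hb, hb1⟩ := exists_ne_one_of_ne_bot (h.hS.ne_bot B h.hB)
  obtain ⟨d, hd, -, e⟩ := R1.exists_partner h.r1 hb hb1
  refine ⟨d⁻¹ * b, Subgroup.mul_mem _ (Subgroup.inv_mem _ (Subgroup.mem_sup_right hd))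
    (Subgroup.mem_sup_left hb), ?_⟩
  rw [← conjBy_conjBy, ← h.conj_eq hb hd e, conjBy_conjBy, inv_mul_cancel, conjBy_one]

theorem NatMod.orbit_eq (h : NatMod S A B C D) :
    {E | ∃ x ∈ B ⊔ D, E = conjBy A x} = NatMod.pts A B C := by
  ext E
  constructor
  · rintro ⟨x, hx, rfl⟩
    exact h.pts_conj x hx A (Or.inl ⟨1, B.one_mem, conjBy_one _⟩)
  · rintro (⟨b, hb, rfl⟩ | rfl)
    · exact ⟨b, Subgroup.mem_sup_left hb, rfl⟩
    · exact h.exists_conj

theorem NatMod.orbit_eq' (h : NatMod S A B C D) :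
    {E | ∃ x ∈ B ⊔ D, E = conjBy A x} = {E | ∃ x ∈ B ⊔ D, E = conjBy C x} := by
  have := h.symm.orbit_eq
  rw [sup_comm] at this
  rw [h.orbit_eq, this, h.pts_eq]

theorem NatMod.inf_pt (h : NatMod S A B C D) {E : Subgroup G} (hE : E ∈ NatMod.pts A B C)
    (hne : E ≠ A) : A ⊓ E = ⊥ := by
  rw [h.pts_eq] at hE
  rcases hE with ⟨d, hd, rfl⟩ | rfl
  · have : A ⊓ conjBy C d = conjBy (A ⊓ C) d := by
      rw [conjBy_inf, h.DA.nz d hd]
    simp only
    rw [this, h.inf_eq_bot, conjBy_bot]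
  · exact absurd rfl hne

theorem NatMod.partition (h : NatMod S A B C D) :
    IsSubgroupPartition (A ⊔ C) {E | ∃ x ∈ B ⊔ D, E = conjBy A x} := by
  refine ⟨?_, ?_, ?_⟩
  · rintro E ⟨x, hx, rfl⟩
    rw [← h.nz x hx]
    exact conjBy_mono le_sup_left x
  · intro x hx _
    rw [h.orbit_eq]
    by_cases hxC : x ∈ C
    · exact ⟨C, Or.inr rfl, hxC⟩
    · rw [← h.eC] at hx hxC
      obtain ⟨b, hb, hxb⟩ := CC.exists_conj h.cAB hx hxC
      exact ⟨_, Or.inl ⟨b, hb, rfl⟩, hxb⟩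
  · rintro E ⟨x, hx, rfl⟩ E' ⟨y, hy, rfl⟩ hne
    have h1 : conjBy A (x⁻¹ * y) ∈ NatMod.pts A B C := by
      rw [← h.orbit_eq]
      exact ⟨_, Subgroup.mul_mem _ (Subgroup.inv_mem _ hx) hy, rfl⟩
    have h2 : conjBy A (x⁻¹ * y) ≠ A := by
      intro e
      apply hne
      rw [eq_comm, conjBy_eq_conjBy_iff]
      exact e
    have h3 := h.inf_pt h1 h2
    have h4 : conjBy A x ⊓ conjBy A y = conjBy (A ⊓ conjBy A (x⁻¹ * y)) x := by
      rw [conjBy_inf, conjBy_conjBy, mul_inv_cancel_left]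
    rw [h4, h3, conjBy_bot]

theorem NatMod.central (h : NatMod S A B C D) :
    ∀ x ∈ (B ⊔ D) ⊓ Subgroup.centralizer ((A ⊔ C : Subgroup G) : Set G), ∀ y ∈ B ⊔ D,
      x * y = y * x := by
  apply R1.central_of_normalizes h.r1
  · apply Nz.of_conj_le
    intro x hx y hy
    rw [mem_conjBy, Subgroup.mem_inf] at hy
    obtain ⟨hy1, hy2⟩ := hy
    rw [Subgroup.mem_inf]
    constructor
    · have := Subgroup.mul_mem _ (Subgroup.mul_mem _ hx hy1) (Subgroup.inv_mem _ hx)
      simpa [mul_assoc] using this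
    · rw [Subgroup.mem_centralizer_iff] at hy2 ⊢
      intro m hm
      have hm' : x⁻¹ * m * x ∈ A ⊔ C := by
        have := h.nz.conj_mem (Subgroup.inv_mem _ hx) hm
        rwa [inv_inv] at this
      have := hy2 _ hm'
      have e := congrArg (fun t => x * t * x⁻¹) this
      simpa [mul_assoc] using e
  · intro n hn
    rw [Subgroup.mem_inf] at hn
    obtain ⟨hn1, hn2⟩ := hn
    rw [Subgroup.mem_centralizer_iff] at hn2
    have hmem : conjBy B n ∈ unipotentSubgroups B D := ⟨n, hn1, rfl⟩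
    rcases (R1.mem_unipotentSubgroups h.r1).mp hmem with h1 | ⟨b, hb, h1⟩
    · exact h1
    · exfalso
      have hCn : conjBy C n = C :=
        conjBy_eq_self_of_commute (fun c hc => (hn2 c (Subgroup.mem_sup_right hc)).symm)
      have h2 : Cm (conjBy B n) C := by
        have := h.BC.conj n
        rwa [hCn] at this
      rw [h1] at h2
      have h3 : C ≤ conjBy A b := by
        intro c hc
        exact h.cent_conj (h.nzB b⁻¹ (B.inv_mem hb)) (Subgroup.mem_sup_right hc)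
          (fun d hd => (h2 d hd c hc).symm)
      have h4 : C ≤ A := by
        have := conjBy_mono h3 b⁻¹
        rwa [conjBy_conjBy, inv_mul_cancel, conjBy_one, h.BC.nz b⁻¹ (B.inv_mem hb)] at this
      apply h.hS.ne_bot C h.hC
      rw [eq_bot_iff, ← h.inf_eq_bot]
      exact le_inf h4 le_rfl

end Cfsg.Agent.Lib.Helper83
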