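import Mathlib
import Cfsg.Prelude.Def_RootSubgroups
import Cfsg.Agent.Lib.Helper83.NatMod
import Cfsg.Agent.Lib.Helper83.ConjMod

set_option autoImplicit false

namespace Cfsg.Agent.Lib.Helper83

open Cfsg
open scoped commutatorElement

variable {G : Type*} [Group G] {S : Set (Subgroup G)} {A B C D E P Q : Subgroup G}

theorem CC.comm_conj_right (_hc : RootCommutatorCase S P Q) {q : G} (hq : q ∈ Q) :
    ⁅conjBy P q, Q⁆ = ⁅P, Q⁆ := by
  have e : ⁅conjBy P q, Q⁆ = conjBy ⁅P, Q⁆ q := by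
    rw [conjBy_commutator, conjBy_of_mem hq]
  rw [e, conjBy_commutator_of_mem_sup (Subgroup.mem_sup_right hq)]

theorem CC.conj_right (hS : IsRootSubgroupSet S) (hP : P ∈ S) (hQ : Q ∈ S)
    (hc : RootCommutatorCase S P Q) {q : G} (hq : q ∈ Q) : RootCommutatorCase S (conjBy P q) Q :=
  commutatorCase_of_mem hS (hS.conj_mem P hP q) hQ (by rw [CC.comm_conj_right hc hq]; exact hc.1)

/-- if `⁅P,Q⁆ = A` and `B ∈ Ω_A` then `B` does not commute with `P` -/
theorem not_cm_of_comm_eq (hS : IsRootSubgroupSet S) (hA : A ∈ S) (hB : B ∈ S)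
    (hAB : IsRankOnePair A B) (hP : P ∈ S) (hc : RootCommutatorCase S P Q) (hPQ : ⁅P, Q⁆ = A) :
    ¬ Cm B P := by
  intro hcm
  obtain ⟨p, hp, hp1⟩ := exists_ne_one_of_ne_bot (hS.ne_bot P hP)
  have hex : ∃ q ∈ Q, p * q ≠ q * p := by
    by_contra hcon
    push Not at hcon
    exact hp1 (CC.eq_one_of_commute hS hc hp hcon)
  obtain ⟨q, hq, hpq⟩ := hex
  have ha : ⁅q, p⁆ ∈ A := by
    rw [← hPQ, Subgroup.commutator_comm]
    exact Subgroup.commutator_mem_commutator hq hp
  have ha1 : ⁅q, p⁆ ≠ 1 := by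
    intro h0
    rw [commutatorElement_eq_one_iff_mul_comm] at h0
    exact hpq h0.symm
  have hPA : Cm P A := by
    have := CC.commute_left hc
    rwa [hPQ] at this
  have hz : ∀ y ∈ A ⊔ B, p * y = y * p := (Cm.sup_right hPA hcm.symm) p hp
  apply root_central_translate hS hA hB hAB hz hp1 ha ha1 (hS.conj_mem P hP q)
  rw [hPA p hp _ ha]
  have e : ⁅q, p⁆ * p = q * p * q⁻¹ := by rw [commutatorElement_def]; group
  rw [e]
  exact conj_mem_conjBy hp

/-- S5034, first part -/
theorem exists_line_comm (hS : IsRootSubgroupSet S) (hA : A ∈ S) (hB : B ∈ S)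
    (hAB : IsRankOnePair A B) (hP : P ∈ S) (hQ : Q ∈ S) (hE : E ∈ S) (hPE : IsRankOnePair P E)
    (hc : RootCommutatorCase S P Q) (hPQ : ⁅P, Q⁆ = A) :
    ∃ C ∈ linePartners S A, C ∈ commutatorPartners S B := by
  have hPA : Cm P A := by
    have := CC.commute_left hc
    rwa [hPQ] at this
  have hex : ∃ q ∈ Q, ¬ IsRankOnePair B (conjBy P q) := by
    by_cases hBP : IsRankOnePair B P
    · obtain ⟨b, hb, hb1⟩ := exists_ne_one_of_ne_bot (hS.ne_bot B hB)
      obtain ⟨a, ha, ha1, hab⟩ := R1.exists_partner (R1.symm hAB) hb hb1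
      obtain ⟨p, hp, hp1, hpb⟩ := R1.exists_partner hBP hb hb1
      have h1 : Cm (conjBy B a) (conjBy B p) := by
        rw [hab, hpb]; exact hPA.symm.conj b
      have h2 : Cm B (conjBy B (a⁻¹ * p)) := by
        have := h1.conj a⁻¹
        rwa [conjBy_conjBy, conjBy_conjBy, inv_mul_cancel, conjBy_one] at this
      have hinf : P ⊓ A = ⊥ := by
        rcases root_inf_eq_bot_or_eq hS hE hPE hA with h3 | h3
        · exact h3
        · exact absurd (h3.trans hPQ.symm) (CC.left_ne hS hc)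
      have hx : a⁻¹ * p ∈ P ⊔ ⁅P, Q⁆ := by
        rw [hPQ]
        exact Subgroup.mul_mem _ (Subgroup.inv_mem _ (Subgroup.mem_sup_right ha))
          (Subgroup.mem_sup_left hp)
      have hxA : a⁻¹ * p ∉ ⁅P, Q⁆ := by
        rw [hPQ]
        intro h3
        have h4 : p ∈ A := by
          have := A.mul_mem ha h3
          rwa [mul_inv_cancel_left] at this
        have h5 : p ∈ P ⊓ A := ⟨hp, h4⟩
        rw [hinf] at h5
        exact hp1 (Subgroup.mem_bot.mp h5)
      obtain ⟨q, hq, hxq⟩ := CC.exists_conj hc hx hxA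
      refine ⟨q, hq, fun hr => ?_⟩
      have hx1 : a⁻¹ * p ≠ 1 := by
        intro h0
        apply hxA
        rw [h0]; exact Subgroup.one_mem _
      have h6 := R1.pair_conj (R1.symm hr) hxq hx1
      obtain ⟨e, he, he1⟩ := R1.exists_left h6
      exact he1 (R1.eq_one_of_commute h6 he (h2 e he))
    · exact ⟨1, Q.one_mem, by rw [conjBy_one]; exact hBP⟩
  obtain ⟨q, hq, hnr⟩ := hex
  have hC : conjBy P q ∈ S := hS.conj_mem P hP q
  have cCQ := CC.conj_right hS hP hQ hc hq
  have eCQ : ⁅conjBy P q, Q⁆ = A := (CC.comm_conj_right hc hq).trans hPQ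
  refine ⟨conjBy P q, ?_, hC, ?_⟩
  · have := left_mem_linePartners hS hC (hS.conj_mem E hE q) (R1.conj hPE q) cCQ
    rwa [eCQ] at this
  · rcases hS.pair B hB _ hC with h1 | h1 | h1
    · exact absurd (Cm.of_commutator_eq_bot h1) (not_cm_of_comm_eq hS hA hB hAB hC cCQ eCQ)
    · exact absurd h1 hnr
    · exact h1.1

/-- if `b A b⁻¹ = a B a⁻¹` and `C` commutes with `A`, then `a⁻¹ b c b⁻¹ a` commutes with `B` -/
theorem commute_of_partner {a b c : G} (hab : conjBy A b = conjBy B a) (hAC : Cm A C) (hc : c ∈ C) :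
    ∀ b' ∈ B, (a⁻¹ * (b * c * b⁻¹) * a) * b' = b' * (a⁻¹ * (b * c * b⁻¹) * a) := by
  have h1 : conjBy A (a⁻¹ * b) = B := by
    rw [← conjBy_conjBy, hab, conjBy_conjBy, inv_mul_cancel, conjBy_one]
  have h2 := hAC.conj (a⁻¹ * b)
  rw [h1] at h2
  have h3 : a⁻¹ * (b * c * b⁻¹) * a ∈ conjBy C (a⁻¹ * b) := by
    have := conj_mem_conjBy (g := a⁻¹ * b) hc
    simpa [mul_assoc] using this
  exact fun b' hb' => (h2 b' hb' _ h3).symm

/-- the natural module attached to `C ∈ Σ_A ∩ Ψ_B`, `B ∈ Ω_A` -/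
theorem exists_natMod (hS : IsRootSubgroupSet S) (hA : A ∈ S) (hB : B ∈ S)
    (hAB : IsRankOnePair A B) (hC : C ∈ S) (hAC : Cm A C) (hCB : ⁅C, B⁆ ∈ S) :
    NatMod S ⁅A, ⁅C, B⁆⁆ B ⁅C, B⁆ A := by
  have cCB := commutatorCase_of_mem hS hC hB hCB
  obtain ⟨c, hc, hc1⟩ := exists_ne_one_of_ne_bot (hS.ne_bot C hC)
  obtain ⟨a, ha, ha1⟩ := exists_ne_one_of_ne_bot (hS.ne_bot A hA)
  obtain ⟨b, hb, hb1, hab⟩ := R1.exists_partner hAB ha ha1
  have hf := commute_of_partner hab hAC hc
  have hd : ⁅b, c⁆ ∈ ⁅C, B⁆ := by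
    rw [Subgroup.commutator_comm]; exact Subgroup.commutator_mem_commutator hb hc
  have hDB : Cm ⁅C, B⁆ B := fun x hx y hy => cCB.2.1 x hx y (Subgroup.mem_sup_right hy)
  have hDC : Cm ⁅C, B⁆ C := fun x hx y hy => cCB.2.1 x hx y (Subgroup.mem_sup_left hy)
  have hcB : ¬ ∀ b' ∈ B, c * b' = b' * c := fun h0 => hc1 (CC.eq_one_of_commute hS cCB hc h0)
  have e1 : b * c * b⁻¹ = ⁅b, c⁆ * c := by rw [commutatorElement_def]; group
  have hac : a⁻¹ * c * a = c := by
    rw [mul_assoc, ← hAC a ha c hc]; group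
  generalize hDdef : ⁅C, B⁆ = D at *
  generalize hddef : ⁅b, c⁆ = d at *
  have e2 : a⁻¹ * (b * c * b⁻¹) * a = ⁅a⁻¹, d⁆ * d * c := by
    rw [e1, commutatorElement_def]
    calc a⁻¹ * (d * c) * a = a⁻¹ * d * a * (a⁻¹ * c * a) := by group
      _ = a⁻¹ * d * a * c := by rw [hac]
      _ = _ := by group
  rw [e2] at hf
  have cAD : RootCommutatorCase S A D := by
    rcases hS.pair A hA D hCB with h1 | h1 | h1
    · exfalso
      apply hcB
      intro b' hb'
      have h2 : ⁅a⁻¹, d⁆ = 1 := by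
        rw [commutatorElement_eq_one_iff_mul_comm]
        exact (Cm.of_commutator_eq_bot h1) _ (A.inv_mem ha) d hd
      have h3 := hf b' hb'
      rw [h2, one_mul, mul_assoc, ← mul_assoc b', ← hDB d hd b' hb', mul_assoc] at h3
      exact mul_left_cancel h3
    · exact absurd hAC (not_cm_of_comm_eq hS hCB hA (R1.symm h1) hC cCB hDdef)
    · exact h1
  have hz : ⁅a⁻¹, d⁆ ∈ ⁅A, D⁆ := Subgroup.commutator_mem_commutator (A.inv_mem ha) hd
  have hC'D : Cm ⁅A, D⁆ D := fun x hx y hy => cAD.2.1 x hx y (Subgroup.mem_sup_right hy)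
  generalize hzdef : ⁅a⁻¹, d⁆ = z at *
  have hzc : ∀ b' ∈ B, (z * c) * b' = b' * (z * c) := by
    intro b' hb'
    have h3 := hf b' hb'
    rw [hC'D z hz d hd] at h3
    have h4 : d * (z * c * b') = d * (b' * (z * c)) := by
      calc d * (z * c * b') = d * z * c * b' := by group
        _ = b' * (d * z * c) := h3
        _ = (b' * d) * (z * c) := by group
        _ = (d * b') * (z * c) := by rw [hDB d hd b' hb']
        _ = _ := by group
    exact mul_left_cancel h4
  have key : ∀ b' ∈ B, ⁅z, b'⁆ = ⁅c, b'⁆⁻¹ := by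
    intro b' hb'
    have hδ : ⁅c, b'⁆ ∈ D := by
      rw [← hDdef]; exact Subgroup.commutator_mem_commutator hc hb'
    have h5 : ⁅c, b'⁆ = z⁻¹ * b' * z * b'⁻¹ := by
      rw [commutatorElement_def]
      have h6 : c * b' = z⁻¹ * b' * z * c := by
        have := congrArg (fun t => z⁻¹ * t) (hzc b' hb')
        simpa [mul_assoc] using this
      rw [h6]; group
    have h7 : ⁅c, b'⁆ = z * ⁅c, b'⁆ * z⁻¹ := by
      rw [hC'D z hz _ hδ]; group
    rw [h7, h5, commutatorElement_def]; group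
  have hz1 : z ≠ 1 := by
    rintro rfl
    apply hcB
    intro b' hb'
    have := key b' hb'
    rw [commutatorElement_one_left, eq_comm, inv_eq_one, commutatorElement_eq_one_iff_mul_comm] at this
    exact this
  have cC'B : RootCommutatorCase S ⁅A, D⁆ B := by
    rcases hS.pair _ cAD.1 B hB with h1 | h1 | h1
    · exfalso
      apply hcB
      intro b' hb'
      have h2 := key b' hb'
      have h3 : ⁅z, b'⁆ = 1 := by
        rw [commutatorElement_eq_one_iff_mul_comm]
        exact (Cm.of_commutator_eq_bot h1) z hz b' hb'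
      rw [h3, eq_comm, inv_eq_one, commutatorElement_eq_one_iff_mul_comm] at h2
      exact h2
    · exfalso
      obtain ⟨e, he, -, hze⟩ := R1.exists_partner h1 hz hz1
      have h2 : ⁅e, z⁆ ∈ D := by
        rw [← commutatorElement_inv, key e he, inv_inv, ← hDdef]
        exact Subgroup.commutator_mem_commutator hc he
      exact hz1 (R1.eq_one_of_commutator_central h1 (hS.commutative B hB) hz hze
        (hC'D z hz _ h2).symm (fun e' he' => hDB _ h2 e' he'))
    · exact h1
  have eD : ⁅⁅A, D⁆, B⁆ = D := by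
    apply le_antisymm
    · rw [← cC'B.2.2.1 z hz hz1, Subgroup.closure_le]
      rintro _ ⟨b', hb', rfl⟩
      have h2 : z * b' * z⁻¹ * b'⁻¹ = ⁅c, b'⁆⁻¹ := by
        rw [← key b' hb', commutatorElement_def]
      simp only [h2]
      rw [← hDdef]
      exact Subgroup.inv_mem _ (Subgroup.commutator_mem_commutator hc hb')
    · have h0 : D = Subgroup.closure ((fun b : G => c * b * c⁻¹ * b⁻¹) '' (B : Set G)) := by
        rw [← hDdef, ← cCB.2.2.1 c hc hc1]
      conv_lhs => rw [h0]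
      rw [Subgroup.closure_le]
      rintro _ ⟨b', hb', rfl⟩
      have h2 : c * b' * c⁻¹ * b'⁻¹ = ⁅z, b'⁆⁻¹ := by
        rw [key b' hb', inv_inv, commutatorElement_def]
      simp only [h2]
      exact Subgroup.inv_mem _ (Subgroup.commutator_mem_commutator hz hb')
  exact ⟨hS, cAD.1, hB, hCB, hA, cC'B, CC.symm cAD, eD, Subgroup.commutator_comm _ _⟩

/-- the rank one pair of a natural module configuration is special -/
theorem NatMod.special (h : NatMod S A B C D) : IsSpecialRankOnePair B D := by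
  apply special_of_conj_module (N := A ⊔ C) h.r1 (h.hS.commutative B h.hB)
  · exact Cm.sup_left (Cm.sup_right (Cm.of_comm (h.hS.commutative A h.hA)) h.AC)
      (Cm.sup_right h.AC.symm (Cm.of_comm (h.hS.commutative C h.hC)))
  · exact h.nz
  · intro b hb b' hb' n hn
    have h1 : ⁅B, A ⊔ C⁆ ≤ C := by
      apply comm_sup_right h.AC.nz (Nz.of_le le_rfl)
      · rw [Subgroup.commutator_comm, h.eC]
      · rw [h.BC.commutator_eq_bot]; exact bot_le
    exact h.BC b' hb' _ (h1 (Subgroup.commutator_mem_commutator hb hn))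
  · intro x hx hcm y hy
    apply h.central x _ y hy
    rw [Subgroup.mem_inf]
    refine ⟨hx, ?_⟩
    rw [Subgroup.mem_centralizer_iff]
    exact fun n hn => (hcm n hn).symm

end Cfsg.Agent.Lib.Helper83
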