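import Mathlib
import Cfsg.Prelude.Def_RootSubgroups
import Cfsg.Agent.Lib.Helper83.Nondeg

set_option autoImplicit false

namespace Cfsg.Agent.Lib.Helper83

open Cfsg
open scoped commutatorElement

variable {G : Type*} [Group G] {S : Set (Subgroup G)} {A B C D E F P Q N : Subgroup G}

/-- for `c ∈ C ∈ Σ_A ∩ Ψ_B`, `B ∈ Ω_A`, some `z ∈ ⁅A,⁅C,B⁆⁆` has `z c` centralizing `B` -/
theorem exists_zc (hA : A ∈ S) (hAB : IsRankOnePair A B) (hS : IsRootSubgroupSet S)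
    (hAC : Cm A C) (cCB : RootCommutatorCase S C B) (cAD : RootCommutatorCase S A ⁅C, B⁆) {c : G}
    (hc : c ∈ C) : ∃ z ∈ ⁅A, ⁅C, B⁆⁆, ∀ b' ∈ B, (z * c) * b' = b' * (z * c) := by
  obtain ⟨a, ha, ha1⟩ := exists_ne_one_of_ne_bot (hS.ne_bot A hA)
  obtain ⟨b, hb, hb1, hab⟩ := R1.exists_partner hAB ha ha1
  have hf := commute_of_partner hab hAC hc
  have hd : ⁅b, c⁆ ∈ ⁅C, B⁆ := by
    rw [Subgroup.commutator_comm]; exact Subgroup.commutator_mem_commutator hb hc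
  have hDB : Cm ⁅C, B⁆ B := fun x hx y hy => cCB.2.1 x hx y (Subgroup.mem_sup_right hy)
  have e1 : b * c * b⁻¹ = ⁅b, c⁆ * c := by rw [commutatorElement_def]; group
  have hac : a⁻¹ * c * a = c := by
    rw [mul_assoc, ← hAC a ha c hc]; group
  generalize ⁅C, B⁆ = D at *
  generalize ⁅b, c⁆ = d at *
  have e2 : a⁻¹ * (b * c * b⁻¹) * a = ⁅a⁻¹, d⁆ * d * c := by
    rw [e1, commutatorElement_def]
    calc a⁻¹ * (d * c) * a = a⁻¹ * d * a * (a⁻¹ * c * a) := by group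
      _ = a⁻¹ * d * a * c := by rw [hac]
      _ = _ := by group
  rw [e2] at hf
  have hz : ⁅a⁻¹, d⁆ ∈ ⁅A, D⁆ := Subgroup.commutator_mem_commutator (A.inv_mem ha) hd
  have hC'D : Cm ⁅A, D⁆ D := fun x hx y hy => cAD.2.1 x hx y (Subgroup.mem_sup_right hy)
  refine ⟨_, hz, ?_⟩
  generalize ⁅a⁻¹, d⁆ = z at *
  intro b' hb'
  have h3 := hf b' hb'
  rw [hC'D z hz d hd] at h3
  have h4 : d * (z * c * b') = d * (b' * (z * c)) := by
    calc d * (z * c * b') = d * z * c * b' := by group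
      _ = b' * (d * z * c) := h3
      _ = (b' * d) * (z * c) := by group
      _ = (d * b') * (z * c) := by rw [hDB d hd b' hb']
      _ = _ := by group
  exact mul_left_cancel h4

/-- Lemma U: `⁅A,⁅C,E⁆⁆ = C` if the products `c a` lie in members of `S` -/
theorem comm_comm_eq (hS : IsRootSubgroupSet S) (hA : A ∈ S) (hE : E ∈ S)
    (hAE : IsRankOnePair A E) (hC : C ∈ S) (hP : P ∈ S) (hCP : IsRankOnePair C P) (hAC : Cm A C)
    (hCE : ⁅C, E⁆ ∈ S)
    (hcov : ∀ c ∈ C, ∀ a ∈ A, c ≠ 1 → a ≠ 1 → ∃ D ∈ S, c * a ∈ D) : ⁅A, ⁅C, E⁆⁆ = C := by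
  have h := exists_natMod hS hA hE hAE hC hAC hCE
  have cCE := commutatorCase_of_mem hS hC hE hCE
  have cAF : RootCommutatorCase S A ⁅C, E⁆ := CC.symm h.cCD
  obtain ⟨c, hc, hc1⟩ := exists_ne_one_of_ne_bot (hS.ne_bot C hC)
  obtain ⟨z, hz, hzc⟩ := exists_zc hA hAE hS hAC cCE cAF hc
  have hFC : Cm ⁅C, E⁆ C := fun x hx y hy => cCE.2.1 x hx y (Subgroup.mem_sup_left hy)
  have hC'A : Cm ⁅A, ⁅C, E⁆⁆ A := fun x hx y hy => cAF.2.1 x hx y (Subgroup.mem_sup_left hy)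
  have hC'F : Cm ⁅A, ⁅C, E⁆⁆ ⁅C, E⁆ := fun x hx y hy => cAF.2.1 x hx y (Subgroup.mem_sup_right hy)
  have hC'C : Cm ⁅A, ⁅C, E⁆⁆ C :=
    (Cm.sup_left hAC hFC).mono (Subgroup.commutator_le_sup _ _) le_rfl
  have hC'S : ⁅A, ⁅C, E⁆⁆ ∈ S := cAF.1
  generalize hFdef : ⁅C, E⁆ = F at *
  generalize hC'def : ⁅A, F⁆ = C' at *
  have hy1 : z * c = 1 := by
    by_contra hy1
    obtain ⟨a', ha', ha'1⟩ := exists_ne_one_of_ne_bot (hS.ne_bot A hA)
    have hinf : A ⊓ C' = ⊥ := by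
      rcases root_inf_eq_bot_or_eq hS hE hAE hC'S with h3 | h3
      · exact h3
      · exact absurd (h3.trans hC'def.symm) (CC.left_ne hS cAF)
    have hw : z⁻¹ * a' ∈ A ⊔ ⁅A, F⁆ := by
      rw [hC'def]
      exact Subgroup.mul_mem _ (Subgroup.inv_mem _ (Subgroup.mem_sup_right hz))
        (Subgroup.mem_sup_left ha')
    have hwC : z⁻¹ * a' ∉ ⁅A, F⁆ := by
      rw [hC'def]
      intro h3
      have h4 : a' ∈ C' := by
        have := C'.mul_mem hz h3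
        rwa [mul_inv_cancel_left] at this
      have h5 : a' ∈ A ⊓ C' := ⟨ha', h4⟩
      rw [hinf] at h5
      exact ha'1 (Subgroup.mem_bot.mp h5)
    obtain ⟨f, hf, hwf⟩ := CC.exists_conj cAF hw hwC
    have hw1 : z⁻¹ * a' ≠ 1 := by
      intro h0
      apply hwC
      rw [h0]; exact Subgroup.one_mem _
    -- `y = z c` commutes with `A`, `E`, `f`
    have hyA : ∀ x ∈ A, (z * c) * x = x * (z * c) := by
      intro x hx
      rw [mul_assoc, ← hAC x hx c hc, ← mul_assoc, hC'A z hz x hx, mul_assoc]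
    have hyf : (z * c) * f = f * (z * c) := by
      rw [mul_assoc, ← hFC f hf c hc, ← mul_assoc, hC'F z hz f hf, mul_assoc]
    have hyAE : ∀ x ∈ A ⊔ E, (z * c) * x = x * (z * c) := commute_sup hyA hzc
    have hy : ∀ x ∈ conjBy A f ⊔ conjBy E f, (z * c) * x = x * (z * c) := by
      intro x hx
      rw [← conjBy_sup, mem_conjBy] at hx
      have h5 := hyAE _ hx
      have hyf' : (z * c) * f⁻¹ = f⁻¹ * (z * c) := by
        have := congrArg (fun t => f⁻¹ * t * f⁻¹) hyf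
        simpa [mul_assoc] using this.symm
      calc (z * c) * x = (z * c) * f * (f⁻¹ * x * f) * f⁻¹ := by group
        _ = f * ((z * c) * (f⁻¹ * x * f)) * f⁻¹ := by rw [hyf]; group
        _ = f * ((f⁻¹ * x * f) * (z * c)) * f⁻¹ := by rw [h5]
        _ = x * f * ((z * c) * f⁻¹) := by group
        _ = x * f * (f⁻¹ * (z * c)) := by rw [hyf']
        _ = _ := by group
    obtain ⟨D, hD, hcaD⟩ := hcov c hc a' ha' hc1 ha'1
    apply root_central_translate hS (hS.conj_mem A hA f) (hS.conj_mem E hE f) (R1.conj hAE f) hy hy1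
      hwf hw1 hD
    have e : z * c * (z⁻¹ * a') = c * a' := by
      rw [hC'C z hz c hc]; group
    rw [e]; exact hcaD
  have hcz : c ∈ C ⊓ C' := by
    refine ⟨hc, ?_⟩
    have : c = z⁻¹ := (inv_eq_of_mul_eq_one_right hy1).symm
    rw [this]; exact C'.inv_mem hz
  rcases root_inf_eq_bot_or_eq hS hP hCP hC'S with h3 | h3
  · rw [h3] at hcz
    exact absurd (Subgroup.mem_bot.mp hcz) hc1
  · exact h3.symm

/-- a member `C ≠ A` of a partitioned abelian `N ⊇ A` which is not a rank one partner of `E ∈ Ω_A` is a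
commutator partner of `E` -/
theorem commCase_of_partition (hS : IsRootSubgroupSet S) (hA : A ∈ S) (hE : E ∈ S)
    (hAE : IsRankOnePair A E) (hC : C ∈ S) (hAC : Cm A C)
    (hcov : ∀ c ∈ C, ∀ a ∈ A, c ≠ 1 → a ≠ 1 → ∃ D ∈ S, c * a ∈ D) (hnr : ¬ IsRankOnePair E C) :
    RootCommutatorCase S E C := by
  rcases hS.pair E hE C hC with h1 | h1 | h1
  · exfalso
    obtain ⟨c, hc, hc1⟩ := exists_ne_one_of_ne_bot (hS.ne_bot C hC)
    obtain ⟨a, ha, ha1⟩ := exists_ne_one_of_ne_bot (hS.ne_bot A hA)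
    obtain ⟨D, hD, hcaD⟩ := hcov c hc a ha hc1 ha1
    have hz : ∀ y ∈ A ⊔ E, c * y = y * c :=
      (Cm.sup_right hAC.symm (Cm.of_commutator_eq_bot h1).symm) c hc
    exact root_central_translate hS hA hE hAE hz hc1 ha ha1 hD hcaD
  · exact absurd h1 hnr
  · exact h1

/-- Lemma T: a line `AB` is of the form `A ⁅A,F⁆` -/
theorem exists_transvection (hS : IsRootSubgroupSet S) (hni : ∀ D ∈ S, ∃ E, FAdj S D E)
    (hA : A ∈ S) (hB : B ∈ linePartners S A) :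
    ∃ F ∈ S, RootCommutatorCase S A F ∧ A ⊔ ⁅A, F⁆ = A ⊔ B := by
  obtain ⟨⟨hBS, hBA, hcomm⟩, hpart⟩ := hB
  have hAB : Cm A B := Cm.of_commutator_eq_bot hcomm
  obtain ⟨E, -, hE, hAE⟩ := hni A hA
  have hAA : Cm A A := Cm.of_comm (hS.commutative A hA)
  have hAN : Cm A (A ⊔ B) := Cm.sup_right hAA hAB
  have hAm : A ∈ membersIn S (A ⊔ B) := ⟨hA, le_sup_left⟩
  have hBm : B ∈ membersIn S (A ⊔ B) := ⟨hBS, le_sup_right⟩
  -- the covering property
  have hcov : ∀ C ∈ membersIn S (A ⊔ B), C ≠ A →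
      ∀ c ∈ C, ∀ a ∈ A, c ≠ 1 → a ≠ 1 → ∃ D ∈ S, c * a ∈ D := by
    intro C hC hCA c hc a ha hc1 _
    have hinf := hpart.2.2 C hC A hAm hCA
    have hne : c * a ≠ 1 := by
      intro h0
      have e : c = a⁻¹ := eq_inv_of_mul_eq_one_left h0
      have hm : c ∈ C ⊓ A := ⟨hc, e ▸ A.inv_mem ha⟩
      rw [hinf] at hm
      exact hc1 (Subgroup.mem_bot.mp hm)
    obtain ⟨D, hD, hcaD⟩ := hpart.2.1 (c * a)
      (Subgroup.mul_mem _ (hC.2 hc) (Subgroup.mem_sup_left ha)) hne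
    exact ⟨D, hD.1, hcaD⟩
  -- step 1
  have step1 : ∃ C ∈ membersIn S (A ⊔ B), ¬ IsRankOnePair E C ∧ ∃ b ∈ B, b ≠ 1 ∧ b ∈ A ⊔ C := by
    by_cases hEB : IsRankOnePair E B
    · obtain ⟨e, he, he1⟩ := exists_ne_one_of_ne_bot (hS.ne_bot E hE)
      obtain ⟨a, ha, ha1, hae⟩ := R1.exists_partner (R1.symm hAE) he he1
      obtain ⟨b, hb, hb1, hbe⟩ := R1.exists_partner hEB he he1
      have h1 : Cm (conjBy E a) (conjBy E b) := by
        rw [hae, hbe]; exact hAB.conj e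
      have h2 : Cm E (conjBy E (a⁻¹ * b)) := by
        have := h1.conj a⁻¹
        rwa [conjBy_conjBy, conjBy_conjBy, inv_mul_cancel, conjBy_one] at this
      have hx1 : a⁻¹ * b ≠ 1 := by
        intro h0
        have e' : a = b := inv_mul_eq_one.mp h0
        have hm : a ∈ A ⊓ B := ⟨ha, e' ▸ hb⟩
        rw [hpart.2.2 A hAm B hBm (Ne.symm hBA)] at hm
        exact ha1 (Subgroup.mem_bot.mp hm)
      obtain ⟨C, hC, hxC⟩ := hpart.2.1 (a⁻¹ * b)
        (Subgroup.mul_mem _ (Subgroup.inv_mem _ (Subgroup.mem_sup_left ha))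
          (Subgroup.mem_sup_right hb)) hx1
      refine ⟨C, hC, fun hr => ?_, b, hb, hb1, ?_⟩
      · have h6 := R1.pair_conj (R1.symm hr) hxC hx1
        obtain ⟨e', he', he'1⟩ := R1.exists_left h6
        exact he'1 (R1.eq_one_of_commute h6 he' (h2 e' he'))
      · have : b = a * (a⁻¹ * b) := by group
        rw [this]
        exact Subgroup.mul_mem _ (Subgroup.mem_sup_left ha) (Subgroup.mem_sup_right hxC)
    · obtain ⟨b, hb, hb1⟩ := exists_ne_one_of_ne_bot (hS.ne_bot B hBS)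
      exact ⟨B, hBm, hEB, b, hb, hb1, Subgroup.mem_sup_right hb⟩
  obtain ⟨C, hC, hnr, b, hb, hb1, hbAC⟩ := step1
  have hCA : C ≠ A := by
    rintro rfl
    exact hnr (R1.symm hAE)
  have hAC : Cm A C := hAN.mono le_rfl hC.2
  have cEC := commCase_of_partition hS hA hE hAE hC.1 hAC (hcov C hC hCA) hnr
  have hCE : ⁅C, E⁆ ∈ S := by rw [Subgroup.commutator_comm]; exact cEC.1
  obtain ⟨P, -, hP, hCP⟩ := hni C hC.1
  have hU := comm_comm_eq hS hA hE hAE hC.1 hP hCP hAC hCE (hcov C hC hCA)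
  have cAF : RootCommutatorCase S A ⁅C, E⁆ :=
    commutatorCase_of_mem hS hA hCE (by rw [hU]; exact hC.1)
  refine ⟨⁅C, E⁆, hCE, cAF, ?_⟩
  rw [hU]
  apply le_antisymm (sup_le le_sup_left hC.2)
  refine sup_le le_sup_left ?_
  have hpart' := line_partition hS hA hE hAE cAF
  rw [hU] at hpart'
  obtain ⟨B', hB', hbB'⟩ := hpart'.2.1 b hbAC hb1
  obtain ⟨Q, -, hQ, hBQ⟩ := hni B hBS
  rcases root_inf_eq_bot_or_eq hS hQ hBQ hB'.1 with h3 | h3
  · have hm : b ∈ B ⊓ B' := ⟨hb, hbB'⟩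
    rw [h3] at hm
    exact absurd (Subgroup.mem_bot.mp hm) hb1
  · rw [h3]; exact hB'.2

end Cfsg.Agent.Lib.Helper83
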