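import Mathlib
import Cfsg.Prelude.Def_RootSubgroups
import Cfsg.Agent.Lib.Helper83.Line

set_option autoImplicit false

namespace Cfsg.Agent.Lib.Helper83

open Cfsg
open scoped commutatorElement

variable {G : Type*} [Group G] {S : Set (Subgroup G)} {A B C D E F P Q N : Subgroup G}

theorem CC.nz_line (hc : RootCommutatorCase S P F) : Nz F (P ⊔ ⁅P, F⁆) := by
  apply Nz.of_conj_le
  intro x hx
  rw [conjBy_sup, conjBy_commutator_of_mem_sup (Subgroup.mem_sup_right hx)]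
  exact sup_le (CC.conjBy_le hc hx) le_sup_right

theorem CC.line_trans (hS : IsRootSubgroupSet S) (hP : P ∈ S) (hE : E ∈ S)
    (hPE : IsRankOnePair P E) (hc : RootCommutatorCase S P F) {P₁ P₂ : Subgroup G}
    (h₁ : P₁ ∈ membersIn S (P ⊔ ⁅P, F⁆)) (h₂ : P₂ ∈ membersIn S (P ⊔ ⁅P, F⁆)) (n₁ : P₁ ≠ ⁅P, F⁆)
    (n₂ : P₂ ≠ ⁅P, F⁆) : ∃ f ∈ F, conjBy P₁ f = P₂ ∧ conjBy ⁅P, F⁆ f = ⁅P, F⁆ := by
  rw [line_members hS hP hE hPE hc] at h₁ h₂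
  rcases h₁ with ⟨f₁, hf₁, rfl⟩ | h₁
  · rcases h₂ with ⟨f₂, hf₂, rfl⟩ | h₂
    · refine ⟨f₂ * f₁⁻¹, F.mul_mem hf₂ (F.inv_mem hf₁), ?_, ?_⟩
      · simp only [conjBy_conjBy, inv_mul_cancel_right]
      · exact conjBy_commutator_of_mem_sup (Subgroup.mem_sup_right (F.mul_mem hf₂ (F.inv_mem hf₁)))
    · exact absurd h₂ n₂
  · exact absurd h₁ n₁

theorem CC.exists_conj_ne (hS : IsRootSubgroupSet S) (hE : E ∈ S)
    (hPE : IsRankOnePair P E) (hc : RootCommutatorCase S P F) : ∃ f ∈ F, conjBy P f ≠ P := by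
  by_contra hcon
  push Not at hcon
  have h1 : ⁅P, F⁆ ≤ P := Nz.commutator_le hcon
  rcases root_inf_eq_bot_or_eq hS hE hPE hc.1 with h3 | h3
  · apply hS.ne_bot _ hc.1
    rw [eq_bot_iff, ← h3]
    exact le_inf h1 le_rfl
  · exact CC.left_ne hS hc h3

/-- S5038 -/
theorem line_two_transitive (hS : IsRootSubgroupSet S) (hni : ∀ D ∈ S, ∃ E, FAdj S D E)
    (hA : A ∈ S) (hB : B ∈ linePartners S A) :
    ∀ U₁ ∈ membersIn S (A ⊔ B), ∀ U₂ ∈ membersIn S (A ⊔ B), ∀ V₁ ∈ membersIn S (A ⊔ B),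
      ∀ V₂ ∈ membersIn S (A ⊔ B), U₁ ≠ U₂ → V₁ ≠ V₂ →
        ∃ x ∈ ⨆ E ∈ normalizingMembers S (A ⊔ B), E, conjBy U₁ x = V₁ ∧ conjBy U₂ x = V₂ := by
  obtain ⟨F₀, hF₀, c₀, e₀⟩ := exists_transvection hS hni hA hB
  obtain ⟨E, -, hE, hAE⟩ := hni A hA
  have hAL := left_mem_linePartners hS hA hE hAE c₀
  obtain ⟨F₁, hF₁, c₁, e₁⟩ := exists_transvection hS hni c₀.1 hAL
  obtain ⟨E', -, hE', hCE'⟩ := hni _ c₀.1
  rw [sup_comm _ A, e₀] at e₁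
  have nz₀ := CC.nz_line c₀
  have nz₁ := CC.nz_line c₁
  have tr₀ := fun P₁ P₂ => CC.line_trans (P₁ := P₁) (P₂ := P₂) hS hA hE hAE c₀
  have mem₁ := line_members hS c₀.1 hE' hCE' c₁
  obtain ⟨f₀, hf₀, hne₀⟩ := CC.exists_conj_ne hS hE hAE c₀
  have hAC₀ : A ≠ ⁅A, F₀⁆ := CC.left_ne hS c₀
  have fix₀ : ∀ f ∈ F₀, conjBy ⁅A, F₀⁆ f = ⁅A, F₀⁆ :=
    fun f hf => conjBy_commutator_of_mem_sup (Subgroup.mem_sup_right hf)
  rw [e₀] at nz₀ tr₀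
  rw [e₁] at nz₁ mem₁
  generalize ⁅A, F₀⁆ = C₀ at *
  generalize ⁅C₀, F₁⁆ = C₁ at *
  generalize hNdef : A ⊔ B = N at *
  have hAN : A ∈ membersIn S N := ⟨hA, by rw [← e₀]; exact le_sup_left⟩
  have hF₀Γ : F₀ ≤ ⨆ E ∈ normalizingMembers S N, E :=
    le_iSup₂_of_le F₀ ⟨hF₀, nz₀.le_normalizer⟩ le_rfl
  have hF₁Γ : F₁ ≤ ⨆ E ∈ normalizingMembers S N, E :=
    le_iSup₂_of_le F₁ ⟨hF₁, nz₁.le_normalizer⟩ le_rfl
  have nzΓ : Nz (⨆ E ∈ normalizingMembers S N, E) N :=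
    Nz.of_le_normalizer (iSup₂_le fun E hE => hE.2)
  generalize (⨆ E ∈ normalizingMembers S N, E) = Γ at *
  have pres : ∀ x ∈ Γ, ∀ P ∈ membersIn S N, conjBy P x ∈ membersIn S N := by
    intro x hx P hP
    refine ⟨hS.conj_mem P hP.1 x, ?_⟩
    rw [← nzΓ x hx]
    exact conjBy_mono hP.2 x
  have T1 : ∀ P ∈ membersIn S N, ∃ x ∈ Γ, conjBy P x = C₀ := by
    have aux : ∀ P ∈ membersIn S N, P ≠ C₁ → ∃ x ∈ Γ, conjBy P x = C₀ := by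
      intro P hP hPC₁
      rw [mem₁] at hP
      rcases hP with ⟨f₁, hf₁, rfl⟩ | hP
      · refine ⟨f₁⁻¹, Γ.inv_mem (hF₁Γ hf₁), ?_⟩
        simp only [conjBy_conjBy, inv_mul_cancel, conjBy_one]
      · exact absurd hP hPC₁
    intro P hP
    by_cases hPC₁ : P = C₁
    · by_cases hPC₀ : P = C₀
      · exact ⟨1, Γ.one_mem, by rw [conjBy_one, hPC₀]⟩
      -- move `P` away from `C₁`
      have hex : ∃ P' ∈ membersIn S N, P' ≠ C₀ ∧ P' ≠ C₁ := by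
        by_cases hAC₁ : A = C₁
        · refine ⟨conjBy A f₀, pres f₀ (hF₀Γ hf₀) A hAN, ?_, ?_⟩
          · intro h0
            apply hAC₀
            rw [← fix₀ f₀ hf₀] at h0
            exact conjBy_inj.mp h0
          · rw [← hAC₁]; exact hne₀
        · exact ⟨A, hAN, hAC₀, hAC₁⟩
      obtain ⟨P', hP', hP'C₀, hP'C₁⟩ := hex
      obtain ⟨f, hf, hfP, -⟩ := tr₀ P P' hP hP' hPC₀ hP'C₀
      obtain ⟨x, hx, hxP⟩ := aux P' hP' hP'C₁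
      refine ⟨x * f, Γ.mul_mem hx (hF₀Γ hf), ?_⟩
      rw [← conjBy_conjBy, hfP, hxP]
    · exact aux P hP hPC₁
  intro U₁ hU₁ U₂ hU₂ V₁ hV₁ V₂ hV₂ hU hV
  obtain ⟨x₁, hx₁, hxU⟩ := T1 U₁ hU₁
  obtain ⟨y₁, hy₁, hyV⟩ := T1 V₁ hV₁
  have hP : conjBy U₂ x₁ ≠ C₀ := by
    rw [← hxU]
    exact fun h0 => hU (conjBy_inj.mp h0).symm
  have hP' : conjBy V₂ y₁ ≠ C₀ := by
    rw [← hyV]
    exact fun h0 => hV (conjBy_inj.mp h0).symm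
  obtain ⟨f, hf, hfP, hfC⟩ := tr₀ _ _ (pres x₁ hx₁ U₂ hU₂) (pres y₁ hy₁ V₂ hV₂) hP hP'
  refine ⟨y₁⁻¹ * f * x₁, Γ.mul_mem (Γ.mul_mem (Γ.inv_mem hy₁) (hF₀Γ hf)) hx₁, ?_, ?_⟩
  · rw [← conjBy_conjBy, ← conjBy_conjBy, hxU, hfC, ← hyV, conjBy_conjBy, inv_mul_cancel, conjBy_one]
  · rw [← conjBy_conjBy, ← conjBy_conjBy, hfP, conjBy_conjBy, inv_mul_cancel, conjBy_one]

end Cfsg.Agent.Lib.Helper83
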