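import Mathlib
import Cfsg.Prelude.Def_RootSubgroups
import Cfsg.Agent.Lib.Helper83.Line2

set_option autoImplicit false

namespace Cfsg.Agent.Lib.Helper83

open Cfsg
open scoped commutatorElement

variable {G : Type*} [Group G] {S : Set (Subgroup G)} {A B C D E F P Q N : Subgroup G}

/-- a non-degenerate class of abstract root subgroups, unpacked -/
structure ND (S : Set (Subgroup G)) : Prop where
  hS : IsRootSubgroupSet S
  hconj : ∀ A ∈ S, ∀ B ∈ S, ∃ g : G, B = conjBy A g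
  hni : ∀ D ∈ S, ∃ E, FAdj S D E
  hcomm : ∀ A ∈ S, ∃ P ∈ S, ∃ Q ∈ S, RootCommutatorCase S P Q ∧ ⁅P, Q⁆ = A

theorem ND.of (hS : IsRootSubgroupClass S) (hnd : IsNondegenerateRootSet S) : ND S := by
  obtain ⟨hS', -, hconj⟩ := hS
  obtain ⟨-, ⟨A₀, hA₀, B₀, hB₀, hAB₀⟩, P₀, hP₀, Q₀, hQ₀, c₀⟩ := hnd
  refine ⟨hS', hconj, ?_, ?_⟩
  · intro D hD
    obtain ⟨g, rfl⟩ := hconj A₀ hA₀ D hD
    exact ⟨conjBy B₀ g, hD, hS'.conj_mem B₀ hB₀ g, R1.conj hAB₀ g⟩
  · intro A hA
    obtain ⟨g, hg⟩ := hconj _ c₀.1 A hA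
    have hP : conjBy P₀ g ∈ S := hS'.conj_mem P₀ hP₀ g
    have hQ : conjBy Q₀ g ∈ S := hS'.conj_mem Q₀ hQ₀ g
    have hPQ : ⁅conjBy P₀ g, conjBy Q₀ g⁆ = A := by rw [← conjBy_commutator, ← hg]
    exact ⟨_, hP, _, hQ, commutatorCase_of_mem hS' hP hQ (by rw [hPQ]; exact hA), hPQ⟩

theorem ND.exists_line_comm (h : ND S) (hA : A ∈ S) (hB : B ∈ S) (hAB : IsRankOnePair A B) :
    ∃ C ∈ linePartners S A, C ∈ commutatorPartners S B := by
  obtain ⟨P, hP, Q, hQ, c, e⟩ := h.hcomm A hA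
  obtain ⟨E, -, hE, hPE⟩ := h.hni P hP
  exact Cfsg.Agent.Lib.Helper83.exists_line_comm h.hS hA hB hAB hP hQ hE hPE c e

theorem linePartners_symm (hA : A ∈ S) (h : B ∈ linePartners S A) : A ∈ linePartners S B := by
  obtain ⟨⟨-, hBA, hcomm⟩, hpart⟩ := h
  exact ⟨⟨hA, hBA.symm, by rw [Subgroup.commutator_comm]; exact hcomm⟩, by rw [sup_comm]; exact hpart⟩

theorem EAdj.symm' (h : EAdj S S A B) : EAdj S S B A := ⟨h.2.1, h.1, linePartners_symm h.1 h.2.2⟩

theorem path_conj_gen {r : Subgroup G → Subgroup G → Prop} (hS : IsRootSubgroupSet S)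
    (hsymm : ∀ A B, r A B → r B A)
    (hstep : ∀ D ∈ S, ∀ E ∈ S, ∀ e ∈ E, Relation.ReflTransGen r D (conjBy D e)) (g : G) :
    ∀ D ∈ S, Relation.ReflTransGen r D (conjBy D g) := by
  have hs : Std.Symm r := ⟨hsymm⟩
  let P : Subgroup G :=
    { carrier := {g | ∀ D ∈ S, Relation.ReflTransGen r D (conjBy D g)}
      one_mem' := by
        intro D _
        rw [conjBy_one]
      mul_mem' := by
        intro g h hg hh D hD
        rw [← conjBy_conjBy]
        exact (hh D hD).trans (hg _ (hS.conj_mem D hD h))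
      inv_mem' := by
        intro g hg D hD
        have := hg _ (hS.conj_mem D hD g⁻¹)
        rw [conjBy_conjBy, mul_inv_cancel, conjBy_one] at this
        exact Relation.ReflTransGen.stdSymm.symm _ _ this }
  have hle : (⨆ A ∈ S, A) ≤ P := iSup₂_le fun E hE e he D hD => hstep D hD E hE e he
  rw [hS.generates] at hle
  exact hle (Subgroup.mem_top g)

theorem ND.eadj_step (h : ND S) (hD : D ∈ S) (hE : E ∈ S) {e : G} (he : e ∈ E) :
    Relation.ReflTransGen (EAdj S S) D (conjBy D e) := by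
  by_cases hne : conjBy D e = D
  · rw [hne]
  have hDe : conjBy D e ∈ S := h.hS.conj_mem D hD e
  rcases h.hS.pair D hD E hE with h1 | h1 | h1
  · exact absurd (conjBy_eq_self_of_commute
      (fun d hd => ((Cm.of_commutator_eq_bot h1) d hd e he).symm)) hne
  · have he1 : e ≠ 1 := by
      rintro rfl
      exact hne (conjBy_one D)
    have hr := R1.pair_conj (R1.symm h1) he he1
    obtain ⟨C, hCL, hC, hF⟩ := h.exists_line_comm hD hDe hr
    have c1 := commutatorCase_of_mem h.hS hDe hC hF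
    obtain ⟨E₁, -, hE₁, hr₁⟩ := h.hni _ hDe
    obtain ⟨E₂, -, hE₂, hr₂⟩ := h.hni C hC
    have s1 : EAdj S S D C := ⟨hD, hC, hCL⟩
    have s3 : EAdj S S ⁅conjBy D e, C⁆ (conjBy D e) :=
      ⟨hF, hDe, left_mem_linePartners h.hS hDe hE₁ hr₁ c1⟩
    have s2 : EAdj S S ⁅conjBy D e, C⁆ C := by
      have := left_mem_linePartners h.hS hC hE₂ hr₂ (CC.symm c1)
      rw [Subgroup.commutator_comm] at this
      exact ⟨hF, hC, this⟩
    exact .tail (.tail (.single s1) (EAdj.symm' s2)) s3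
  · obtain ⟨F, -, hF, hDF⟩ := h.hni D hD
    exact .single ⟨hD, hDe, CC.conj_mem_linePartners h.hS hD hF hDF h1 he hne⟩

theorem ND.eadj_connected (h : ND S) : IsConnectedFamily (EAdj S S) S := by
  intro A hA B hB
  obtain ⟨g, rfl⟩ := h.hconj A hA B hB
  exact path_conj_gen h.hS (fun _ _ => EAdj.symm') (fun D hD E hE e he => h.eadj_step hD hE he) g A hA

theorem ND.dadj_connected (h : ND S) : IsConnectedFamily (DAdj S) S := by
  intro A hA B hB
  refine Relation.ReflTransGen.mono ?_ A B (h.eadj_connected A hA B hB)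
  intro P Q hPQ
  exact ⟨hPQ.1, hPQ.2.1, hPQ.2.2.1.2.1.symm, hPQ.2.2.1.2.2⟩

end Cfsg.Agent.Lib.Helper83
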