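import Mathlib
import Cfsg.Prelude.Def_RootSubgroups
import Cfsg.Agent.Lib.Helper83.ND

set_option autoImplicit false

namespace Cfsg.Agent.Lib.Helper83

open Cfsg
open scoped commutatorElement

variable {G : Type*} [Group G] {S : Set (Subgroup G)} {A B C D E F P Q N : Subgroup G}

theorem partition_conj (hS : IsRootSubgroupSet S) (h : IsSubgroupPartition N (membersIn S N)) (g : G) :
    IsSubgroupPartition (conjBy N g) (membersIn S (conjBy N g)) := by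
  refine ⟨fun C hC => hC.2, ?_, ?_⟩
  · intro x hx hx1
    rw [mem_conjBy] at hx
    have hx1' : g⁻¹ * x * g ≠ 1 := by
      intro h0
      apply hx1
      have := congrArg (fun t => g * t * g⁻¹) h0
      simpa [mul_assoc] using this
    obtain ⟨C, hC, hxC⟩ := h.2.1 _ hx hx1'
    exact ⟨conjBy C g, ⟨hS.conj_mem C hC.1 g, conjBy_mono hC.2 g⟩, mem_conjBy.mpr hxC⟩
  · intro C hC D hD hne
    have hC' : conjBy C g⁻¹ ∈ membersIn S N := by
      refine ⟨hS.conj_mem C hC.1 _, ?_⟩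
      have := conjBy_mono hC.2 g⁻¹
      rwa [conjBy_conjBy, inv_mul_cancel, conjBy_one] at this
    have hD' : conjBy D g⁻¹ ∈ membersIn S N := by
      refine ⟨hS.conj_mem D hD.1 _, ?_⟩
      have := conjBy_mono hD.2 g⁻¹
      rwa [conjBy_conjBy, inv_mul_cancel, conjBy_one] at this
    have := h.2.2 _ hC' _ hD' (fun e => hne (conjBy_inj.mp e))
    rw [← conjBy_inf, conjBy_eq_bot] at this
    exact this

theorem linePartners_conj (hS : IsRootSubgroupSet S) (h : B ∈ linePartners S A) (g : G) :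
    conjBy B g ∈ linePartners S (conjBy A g) := by
  obtain ⟨⟨hB, hBA, hcomm⟩, hpart⟩ := h
  refine ⟨⟨hS.conj_mem B hB g, fun e => hBA (conjBy_inj.mp e), ?_⟩, ?_⟩
  · rw [← conjBy_commutator, hcomm, conjBy_bot]
  · rw [← conjBy_sup]
    exact partition_conj hS hpart g

/-- every point `≠ A` of a line through `A` is a line partner of `A`, spanning the same line -/
theorem mem_linePartners_of_member (hS : IsRootSubgroupSet S) (hni : ∀ D ∈ S, ∃ E, FAdj S D E)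
    (hA : A ∈ S) (hB : B ∈ linePartners S A) (hD : D ∈ membersIn S (A ⊔ B)) (hDA : D ≠ A) :
    D ∈ linePartners S A ∧ A ⊔ D = A ⊔ B := by
  obtain ⟨F, hF, c, e⟩ := exists_transvection hS hni hA hB
  obtain ⟨E, -, hE, hAE⟩ := hni A hA
  have hAB : Cm A B := Cm.of_commutator_eq_bot hB.1.2.2
  have hAN : Cm A (A ⊔ B) := Cm.sup_right (Cm.of_comm (hS.commutative A hA)) hAB
  have hsup : A ⊔ D = A ⊔ B := by
    have hD' := hD
    rw [← e, line_members hS hA hE hAE c] at hD'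
    rcases hD' with ⟨f, hf, rfl⟩ | hD'
    · have hf1 : f ≠ 1 := by
        rintro rfl
        exact hDA (conjBy_one A)
      rw [← e]
      exact CC.sup_conj_eq c hf hf1
    · rw [← e, hD']
  refine ⟨⟨⟨hD.1, hDA, (hAN.mono le_rfl hD.2).commutator_eq_bot⟩, ?_⟩, hsup⟩
  rw [hsup]
  exact hB.2

/-- Lemma V: for collinear points `P`, `Q` there is `F ∈ S` with `⁅P,F⁆ = Q` -/
theorem exists_comm_eq (hS : IsRootSubgroupSet S) (hni : ∀ D ∈ S, ∃ E, FAdj S D E)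
    (hP : P ∈ S) (hQ : Q ∈ linePartners S P) : ∃ F ∈ S, ⁅P, F⁆ = Q := by
  obtain ⟨F, hF, c, e⟩ := exists_transvection hS hni hP hQ
  have hPm : P ∈ membersIn S (P ⊔ Q) := ⟨hP, le_sup_left⟩
  have hQm : Q ∈ membersIn S (P ⊔ Q) := ⟨hQ.1.1, le_sup_right⟩
  have hQ'm : ⁅P, F⁆ ∈ membersIn S (P ⊔ Q) := ⟨c.1, by rw [← e]; exact le_sup_right⟩
  obtain ⟨x, -, hx1, hx2⟩ := line_two_transitive hS hni hP hQ P hPm _ hQ'm P hPm Q hQm
    (CC.left_ne hS c) hQ.1.2.1.symm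
  refine ⟨conjBy F x, hS.conj_mem F hF x, ?_⟩
  calc ⁅P, conjBy F x⁆ = ⁅conjBy P x, conjBy F x⁆ := by rw [hx1]
    _ = conjBy ⁅P, F⁆ x := (conjBy_commutator _ _ _).symm
    _ = Q := hx2

/-- S5042 -/
theorem ND.generated (h : ND S) (hA : A ∈ S) (hB : B ∈ S) (hAB : IsRankOnePair A B) :
    (⨆ C ∈ linePartners S A, C) ⊔ B = ⊤ := by
  have hΛ : ∀ C ∈ linePartners S A, C ≤ (⨆ C ∈ linePartners S A, C) ⊔ B :=
    fun C hC => (le_iSup₂_of_le (f := fun (C : Subgroup G) (_ : C ∈ linePartners S A) => C) C hC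
      le_rfl).trans le_sup_left
  have hBG : B ≤ (⨆ C ∈ linePartners S A, C) ⊔ B := le_sup_right
  generalize (⨆ C ∈ linePartners S A, C) ⊔ B = G₀ at *
  -- products `a d`
  have hprod : ∀ D ∈ linePartners S A, ∀ a ∈ A, ∀ d ∈ D, a ≠ 1 → d ≠ 1 →
      ∃ D' ∈ linePartners S A, D' ≤ A ⊔ D ∧ a * d ∈ D' := by
    intro D hD a ha d hd ha1 hd1
    have hAm : A ∈ membersIn S (A ⊔ D) := ⟨hA, le_sup_left⟩
    have hDm : D ∈ membersIn S (A ⊔ D) := ⟨hD.1.1, le_sup_right⟩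
    have hinf : A ⊓ D = ⊥ := hD.2.2.2 A hAm D hDm hD.1.2.1.symm
    have hne : a * d ≠ 1 := by
      intro h0
      have e : a = d⁻¹ := eq_inv_of_mul_eq_one_left h0
      have hm : a ∈ A ⊓ D := ⟨ha, e ▸ D.inv_mem hd⟩
      rw [hinf] at hm
      exact ha1 (Subgroup.mem_bot.mp hm)
    obtain ⟨D', hD', hadD'⟩ := hD.2.2.1 (a * d)
      (Subgroup.mul_mem _ (Subgroup.mem_sup_left ha) (Subgroup.mem_sup_right hd)) hne
    have hD'A : D' ≠ A := by
      rintro rfl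
      have h1 : d ∈ D' := by
        have := D'.mul_mem (D'.inv_mem ha) hadD'
        rwa [inv_mul_cancel_left] at this
      have hm : d ∈ D' ⊓ D := ⟨h1, hd⟩
      rw [hinf] at hm
      exact hd1 (Subgroup.mem_bot.mp hm)
    exact ⟨D', (mem_linePartners_of_member h.hS h.hni hA hD hD' hD'A).1, hD'.2, hadD'⟩
  -- `A ≤ G₀`
  have hAG : A ≤ G₀ := by
    obtain ⟨D, hD, -⟩ := h.exists_line_comm hA hB hAB
    obtain ⟨d, hd, hd1⟩ := exists_ne_one_of_ne_bot (h.hS.ne_bot D hD.1.1)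
    intro a ha
    by_cases ha1 : a = 1
    · rw [ha1]; exact G₀.one_mem
    obtain ⟨D', hD', -, hadD'⟩ := hprod D hD a ha d hd ha1 hd1
    have := G₀.mul_mem (hΛ D' hD' hadD') (G₀.inv_mem (hΛ D hD hd))
    rwa [mul_inv_cancel_right] at this
  -- line partners in `Ω_B` are conjugate to `A`
  have L3a : ∀ D ∈ linePartners S A, IsRankOnePair B D → ∃ g ∈ G₀, D = conjBy A g := by
    intro D hD hBD
    obtain ⟨x₁, hx₁, e₁⟩ := R1.exists_conj hAB
    obtain ⟨x₂, hx₂, e₂⟩ := R1.exists_conj hBD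
    refine ⟨x₂ * x₁, G₀.mul_mem (sup_le hBG (hΛ D hD) hx₂) (sup_le hAG hBG hx₁), ?_⟩
    rw [← conjBy_conjBy, e₁, e₂]
  have L3 : ∀ D ∈ linePartners S A, ∃ g ∈ G₀, D = conjBy A g := by
    intro D hD
    by_cases hBD : IsRankOnePair B D
    · exact L3a D hD hBD
    obtain ⟨a, ha, ha1⟩ := exists_ne_one_of_ne_bot (h.hS.ne_bot A hA)
    obtain ⟨d, hd, hd1⟩ := exists_ne_one_of_ne_bot (h.hS.ne_bot D hD.1.1)
    obtain ⟨D', hD', hD'le, hadD'⟩ := hprod D hD a ha d hd ha1 hd1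
    have hBD' : IsRankOnePair B D' :=
      line_adj h.hS hA hD.1.1 hB hD'.1.1 hAB (Cm.of_commutator_eq_bot hD.1.2.2) ha ha1 hd hd1 hadD'
        hD'le hBD
    obtain ⟨g', hg', e'⟩ := L3a D' hD' hBD'
    obtain ⟨F₁, hF₁, eF⟩ := exists_comm_eq h.hS h.hni hD.1.1 (linePartners_symm hA hD)
    have c₁ : RootCommutatorCase S D F₁ :=
      commutatorCase_of_mem h.hS hD.1.1 hF₁ (by rw [eF]; exact hA)
    obtain ⟨E₁, -, hE₁, hr₁⟩ := h.hni F₁ hF₁
    have hF₁Λ : F₁ ∈ linePartners S A := by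
      have := left_mem_linePartners h.hS hF₁ hE₁ hr₁ (CC.symm c₁)
      rwa [Subgroup.commutator_comm, eF] at this
    obtain ⟨E₂, -, hE₂, hr₂⟩ := h.hni D hD.1.1
    have hmem : D' ∈ membersIn S (D ⊔ ⁅D, F₁⁆) := ⟨hD'.1.1, by rw [eF, sup_comm]; exact hD'le⟩
    rw [line_members h.hS hD.1.1 hE₂ hr₂ c₁] at hmem
    rcases hmem with ⟨f₁, hf₁, e₁⟩ | hmem
    · refine ⟨f₁⁻¹ * g', G₀.mul_mem (G₀.inv_mem (hΛ F₁ hF₁Λ hf₁)) hg', ?_⟩
      rw [← conjBy_conjBy, ← e', ← e₁]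
      simp only [conjBy_conjBy, inv_mul_cancel, conjBy_one]
    · exact absurd (hmem.trans eF) hD'.1.2.1
  -- induction along paths of the line graph
  have L4 : ∀ D, Relation.ReflTransGen (EAdj S S) A D → ∃ g ∈ G₀, D = conjBy A g := by
    intro D hp
    induction hp with
    | refl => exact ⟨1, G₀.one_mem, (conjBy_one A).symm⟩
    | tail _ hbc ih =>
      obtain ⟨g, hg, rfl⟩ := ih
      have := linePartners_conj h.hS hbc.2.2 g⁻¹
      rw [conjBy_conjBy, inv_mul_cancel, conjBy_one] at this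
      obtain ⟨g', hg', e'⟩ := L3 _ this
      refine ⟨g * g', G₀.mul_mem hg hg', ?_⟩
      rw [← conjBy_conjBy, ← e', conjBy_conjBy, mul_inv_cancel, conjBy_one]
  rw [eq_top_iff, ← h.hS.generates]
  refine iSup₂_le fun D hD => ?_
  obtain ⟨g, hg, rfl⟩ := L4 D (h.eadj_connected A hA D hD)
  exact conjBy_le_of_le hAG hg

end Cfsg.Agent.Lib.Helper83
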