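import Mathlib
import Cfsg.Agent.S5016

set_option autoImplicit false

/-! An abstract embedding of `SL₂(F)` into the units of an `F`-algebra attached to two elements `e`, `f` with
`e² = f² = 0`, `efe = e`, `fef = f`. -/

namespace Cfsg.Agent.Lib.Helper83.EF

open Matrix

variable {F : Type*} [Field F] {R : Type*} [Ring R] [Algebra F R]

/-- the relations of the matrix units `E₁₂`, `E₂₁`. -/
structure Rel (e f : R) : Prop where
  ee : e * e = 0
  ff : f * f = 0
  efe : e * f * e = e
  fef : f * e * f = f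

/-- the (non unital) embedding of `M₂(F)`. -/
def psi (e f : R) (M : Matrix (Fin 2) (Fin 2) F) : R :=
  M 0 0 • (e * f) + M 0 1 • e + M 1 0 • f + M 1 1 • (f * e)

variable {e f : R}

lemma psi_add (M M' : Matrix (Fin 2) (Fin 2) F) : psi e f (M + M') = psi e f M + psi e f M' := by
  simp only [psi, Matrix.add_apply, add_smul]
  abel

lemma psi_sub (M M' : Matrix (Fin 2) (Fin 2) F) : psi e f (M - M') = psi e f M - psi e f M' := by
  simp only [psi, Matrix.sub_apply, sub_smul]
  abel

lemma psi_zero : psi e f (0 : Matrix (Fin 2) (Fin 2) F) = 0 := by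
  simp [psi]

lemma psi_mul (h : Rel e f) (M M' : Matrix (Fin 2) (Fin 2) F) :
    psi e f (M * M') = psi e f M * psi e f M' := by
  have a1 : (e * f) * (e * f) = e * f := by rw [← mul_assoc, h.efe]
  have a2 : (e * f) * e = e := h.efe
  have a3 : (e * f) * f = 0 := by rw [mul_assoc, h.ff, mul_zero]
  have a4 : (e * f) * (f * e) = 0 := by rw [← mul_assoc, a3, zero_mul]
  have b1 : e * (e * f) = 0 := by rw [← mul_assoc, h.ee, zero_mul]
  have b2 : e * e = 0 := h.ee
  have b4 : e * (f * e) = e := by rw [← mul_assoc, h.efe]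
  have c1 : f * (e * f) = f := by rw [← mul_assoc, h.fef]
  have c3 : f * f = 0 := h.ff
  have c4 : f * (f * e) = 0 := by rw [← mul_assoc, h.ff, zero_mul]
  have d1 : (f * e) * (e * f) = 0 := by rw [mul_assoc, b1, mul_zero]
  have d2 : (f * e) * e = 0 := by rw [mul_assoc, h.ee, mul_zero]
  have d3 : (f * e) * f = f := h.fef
  have d4 : (f * e) * (f * e) = f * e := by rw [← mul_assoc, h.fef]
  simp only [psi, Matrix.mul_apply, Fin.sum_univ_two, add_mul, mul_add, smul_mul_smul_comm,
    a1, a2, a3, a4, b1, b2, b4, c1, c3, c4, d1, d2, d3, d4, smul_zero, add_zero, zero_add]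
  module

/-- the monoid homomorphism `M ↦ 1 + ψ(M - 1)`. -/
def rhoHom (h : Rel e f) : Matrix (Fin 2) (Fin 2) F →* R where
  toFun M := 1 + psi e f (M - 1)
  map_one' := by rw [sub_self, psi_zero, add_zero]
  map_mul' M M' := by
    have e1 : M * M' - 1 = (M - 1) + (M' - 1) + (M - 1) * (M' - 1) := by noncomm_ring
    rw [e1, psi_add, psi_add, psi_mul h]
    noncomm_ring

/-- the homomorphism from `SL₂(F)` to the units. -/
def rho (h : Rel e f) : SpecialLinearGroup (Fin 2) F →* Rˣ :=
  (Units.map (rhoHom (F := F) h)).comp SpecialLinearGroup.toGL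

lemma rho_val (h : Rel e f) (x : SpecialLinearGroup (Fin 2) F) :
    ((rho h x : Rˣ) : R) = 1 + psi e f ((x : Matrix (Fin 2) (Fin 2) F) - 1) := rfl

lemma rho_Up (h : Rel e f) (t : F) : ((rho h (Cfsg.Agent.S5016.Up t) : Rˣ) : R) = 1 + t • e := by
  rw [rho_val]
  simp [psi, Cfsg.Agent.S5016.Up]

lemma rho_Lo (h : Rel e f) (t : F) : ((rho h (Cfsg.Agent.S5016.Lo t) : Rˣ) : R) = 1 + t • f := by
  rw [rho_val]
  simp [psi, Cfsg.Agent.S5016.Lo]

lemma psi_eq_zero (h : Rel e f) (he : e ≠ 0) {M : Matrix (Fin 2) (Fin 2) F} (hM : psi e f M = 0) :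
    M = 0 := by
  have hf : f ≠ 0 := by
    rintro rfl
    apply he
    rw [← h.efe]; simp
  have b1 : e * (e * f) = 0 := by rw [← mul_assoc, h.ee, zero_mul]
  have b4 : e * (f * e) = e := by rw [← mul_assoc, h.efe]
  have c1 : f * (e * f) = f := by rw [← mul_assoc, h.fef]
  have c4 : f * (f * e) = 0 := by rw [← mul_assoc, h.ff, zero_mul]
  have d2 : (f * e) * e = 0 := by rw [mul_assoc, h.ee, mul_zero]
  have h10 : M 1 0 = 0 := by
    have := congrArg (fun x => e * x * e) hM
    simp only [psi, mul_add, add_mul, mul_smul_comm, smul_mul_assoc, b1, h.ee, b4, h.efe, zero_mul,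
      mul_zero, smul_zero, zero_add, add_zero] at this
    exact (smul_eq_zero.mp this).resolve_right he
  have h01 : M 0 1 = 0 := by
    have := congrArg (fun x => f * x * f) hM
    simp only [psi, mul_add, add_mul, mul_smul_comm, smul_mul_assoc, c1, h.ff, c4, h.fef, zero_mul,
      mul_zero, smul_zero, zero_add, add_zero] at this
    exact (smul_eq_zero.mp this).resolve_right hf
  have h00 : M 0 0 = 0 := by
    have := congrArg (fun x => x * e) hM
    simp only [psi, add_mul, smul_mul_assoc, h.efe, h.ee, d2, h10, zero_smul, zero_mul,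
      smul_zero, zero_add, add_zero] at this
    exact (smul_eq_zero.mp this).resolve_right he
  have h11 : M 1 1 = 0 := by
    have := congrArg (fun x => e * x) hM
    simp only [psi, mul_add, mul_smul_comm, b1, h.ee, b4, h10, zero_smul, mul_zero,
      smul_zero, zero_add, add_zero] at this
    exact (smul_eq_zero.mp this).resolve_right he
  ext i j
  fin_cases i <;> fin_cases j
  · exact h00
  · exact h01
  · exact h10
  · exact h11

lemma rho_injective (h : Rel e f) (he : e ≠ 0) : Function.Injective (rho (F := F) h) := by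
  intro x y hxy
  have h1 := congrArg (fun u : Rˣ => (u : R)) hxy
  simp only [rho_val] at h1
  have h2 := add_left_cancel h1
  have h3 : psi e f ((x : Matrix (Fin 2) (Fin 2) F) - (y : Matrix (Fin 2) (Fin 2) F)) = 0 := by
    have : (x : Matrix (Fin 2) (Fin 2) F) - (y : Matrix (Fin 2) (Fin 2) F) =
        ((x : Matrix (Fin 2) (Fin 2) F) - 1) - ((y : Matrix (Fin 2) (Fin 2) F) - 1) := by abel
    rw [this, psi_sub, h2, sub_self]
  exact Subtype.ext (sub_eq_zero.mp (psi_eq_zero h he h3))

end Cfsg.Agent.Lib.Helper83.EF
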