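import Mathlib
import Cfsg.Prelude.Def_Classical
import Cfsg.Prelude.Def_RootSubgroups
import Cfsg.Agent.Lib.Helper57.RootSLb

set_option autoImplicit false

/-! The hyperbolic quadratic form, its polar form, and the Siegel transvections `1 + c (p ∧ r)`. -/

namespace Cfsg.Agent.Lib.Helper83.Siegel

open Matrix Cfsg

variable {F : Type*} [Field F] {n : ℕ}

local notation "V" => (Fin n ⊕ Fin n → F)
local notation "Q" => Cfsg.quadFormPlus n F
local notation "MM" => Matrix (Fin n ⊕ Fin n) (Fin n ⊕ Fin n) F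
local notation "GO" => (Cfsg.isometryGroup F (Cfsg.quadFormPlus n F))

/-- the polar form of the hyperbolic quadratic form. -/
def pol (u v : V) : F := Q (u + v) - Q u - Q v

/-- exchanging the two halves of the coordinates. -/
def sw (v : V) : V := fun i => v i.swap

lemma sw_sw (v : V) : sw (sw v) = v := by
  funext i
  simp [sw]

lemma pol_eq (u v : V) : pol u v = u ⬝ᵥ sw v := by
  unfold pol quadFormPlus sw dotProduct
  rw [Fintype.sum_sum_type, ← Finset.sum_sub_distrib, ← Finset.sum_sub_distrib,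
    ← Finset.sum_add_distrib]
  apply Finset.sum_congr rfl
  intro i _
  simp only [Pi.add_apply, Sum.swap_inl, Sum.swap_inr]
  ring

lemma pol_comm (u v : V) : pol u v = pol v u := by
  unfold pol
  rw [add_comm u v]
  ring

lemma pol_add_left (u u' v : V) : pol (u + u') v = pol u v + pol u' v := by
  rw [pol_eq, pol_eq, pol_eq, add_dotProduct]

lemma pol_smul_left (c : F) (u v : V) : pol (c • u) v = c * pol u v := by
  rw [pol_eq, pol_eq, smul_dotProduct, smul_eq_mul]

lemma pol_add_right (u v v' : V) : pol u (v + v') = pol u v + pol u v' := by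
  rw [pol_comm, pol_add_left, pol_comm v, pol_comm v']

lemma pol_smul_right (c : F) (u v : V) : pol u (c • v) = c * pol u v := by
  rw [pol_comm, pol_smul_left, pol_comm v]

lemma pol_neg_left (u v : V) : pol (-u) v = - pol u v := by
  rw [← neg_one_smul F u, pol_smul_left]; ring

lemma pol_neg_right (u v : V) : pol u (-v) = - pol u v := by
  rw [← neg_one_smul F v, pol_smul_right]; ring

lemma pol_sub_left (u u' v : V) : pol (u - u') v = pol u v - pol u' v := by
  rw [sub_eq_add_neg, pol_add_left, pol_neg_left]; ring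

lemma pol_sub_right (u v v' : V) : pol u (v - v') = pol u v - pol u v' := by
  rw [sub_eq_add_neg, pol_add_right, pol_neg_right]; ring

lemma pol_zero_left (v : V) : pol 0 v = 0 := by
  rw [pol_eq, zero_dotProduct]

lemma pol_zero_right (v : V) : pol v 0 = 0 := by
  rw [pol_comm, pol_zero_left]

lemma Q_add (u v : V) : Q (u + v) = Q u + Q v + pol u v := by
  unfold pol; ring

lemma Q_smul (c : F) (u : V) : Q (c • u) = c ^ 2 * Q u := by
  unfold quadFormPlus
  rw [Finset.mul_sum]
  apply Finset.sum_congr rfl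
  intro i _
  simp only [Pi.smul_apply, smul_eq_mul]
  ring

lemma Q_zero : Q (0 : V) = 0 := by
  simp [quadFormPlus]

lemma Q_neg (u : V) : Q (-u) = Q u := by
  rw [← neg_one_smul F u, Q_smul]; ring

lemma pol_self (u : V) : pol u u = 2 * Q u := by
  have h : u + u = (2 : F) • u := by rw [two_smul]
  unfold pol
  rw [h, Q_smul]; ring

/-- basis vectors. -/
def bv (i : Fin n ⊕ Fin n) : V := Pi.single i 1

lemma sw_bv (i : Fin n ⊕ Fin n) : sw (bv i : V) = bv i.swap := by
  funext j
  simp only [sw, bv, Pi.single_apply]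
  by_cases h : j = i.swap
  · subst h; simp
  · have : j.swap ≠ i := by
      intro h2
      apply h
      rw [← h2, Sum.swap_swap]
    simp [h, this]

lemma pol_bv (v : V) (i : Fin n ⊕ Fin n) : pol v (bv i) = v i.swap := by
  rw [pol_eq, sw_bv]
  simp [bv]

lemma bv_apply (i j : Fin n ⊕ Fin n) : (bv i : V) j = if j = i then 1 else 0 := by
  simp [bv, Pi.single_apply]

lemma Q_bv (i : Fin n ⊕ Fin n) : Q (bv i : V) = 0 := by
  unfold quadFormPlus
  apply Finset.sum_eq_zero
  intro j _
  rcases i with i | i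
  · simp [bv_apply]
  · simp [bv_apply]

lemma pol_nondeg {u : V} (h : ∀ v, pol u v = 0) : u = 0 := by
  funext i
  have := h (bv i.swap)
  rwa [pol_bv, Sum.swap_swap] at this

/-- the action of an isometry on vectors. -/
def act (g : GO) (v : V) : V :=
  ((g : Matrix.GeneralLinearGroup (Fin n ⊕ Fin n) F) : MM) *ᵥ v

lemma act_mul (g h : GO) (v : V) : act (g * h) v = act g (act h v) := by
  unfold act
  rw [Matrix.mulVec_mulVec]
  rfl

lemma act_one (v : V) : act (1 : GO) v = v := by
  unfold act
  exact Matrix.one_mulVec v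

lemma act_inv_act (g : GO) (v : V) : act g⁻¹ (act g v) = v := by
  rw [← act_mul, inv_mul_cancel, act_one]

lemma act_act_inv (g : GO) (v : V) : act g (act g⁻¹ v) = v := by
  rw [← act_mul, mul_inv_cancel, act_one]

lemma act_add (g : GO) (u v : V) : act g (u + v) = act g u + act g v := Matrix.mulVec_add _ _ _

lemma act_smul (g : GO) (c : F) (v : V) : act g (c • v) = c • act g v := Matrix.mulVec_smul _ _ _

lemma act_sub (g : GO) (u v : V) : act g (u - v) = act g u - act g v := Matrix.mulVec_sub _ _ _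

lemma act_zero (g : GO) : act g (0 : V) = 0 := Matrix.mulVec_zero _

lemma Q_act (g : GO) (v : V) : Q (act g v) = Q v := g.2 v v

lemma pol_act (g : GO) (u v : V) : pol (act g u) (act g v) = pol u v := by
  unfold pol
  rw [← act_add, Q_act, Q_act, Q_act]

lemma pol_act_inv (g : GO) (u v : V) : pol (act g⁻¹ u) v = pol u (act g v) := by
  rw [← pol_act g, act_act_inv]

lemma mat_ext {A B : MM} (h : ∀ v, A *ᵥ v = B *ᵥ v) : A = B :=
  Matrix.toLin'.injective (LinearMap.ext h)

lemma go_ext {g h : GO} (H : ∀ v, act g v = act h v) : g = h :=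
  Subtype.ext (Units.ext (mat_ext H))

/-- build an isometry from a matrix and its inverse. -/
def mkGO (A A' : MM) (h1 : ∀ v, A *ᵥ (A' *ᵥ v) = v) (h2 : ∀ v, A' *ᵥ (A *ᵥ v) = v)
    (hQ : ∀ v, Q (A *ᵥ v) = Q v) : GO :=
  ⟨⟨A, A', mat_ext (fun v => by rw [← Matrix.mulVec_mulVec, h1, Matrix.one_mulVec]),
    mat_ext (fun v => by rw [← Matrix.mulVec_mulVec, h2, Matrix.one_mulVec])⟩, fun u _ => hQ u⟩

lemma act_mkGO (A A' : MM) (h1 : ∀ v, A *ᵥ (A' *ᵥ v) = v) (h2 : ∀ v, A' *ᵥ (A *ᵥ v) = v)
    (hQ : ∀ v, Q (A *ᵥ v) = Q v) (v : V) : act (mkGO A A' h1 h2 hQ) v = A *ᵥ v := rfl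

/-- `p`, `r` span a totally singular subspace. -/
structure Sing (p r : V) : Prop where
  p0 : Q p = 0
  r0 : Q r = 0
  pr : pol p r = 0

lemma Sing.rp {p r : V} (h : Sing p r) : pol r p = 0 := by rw [pol_comm, h.pr]

lemma Sing.pp {p r : V} (h : Sing p r) : pol p p = 0 := by rw [pol_self, h.p0, mul_zero]

lemma Sing.rr {p r : V} (h : Sing p r) : pol r r = 0 := by rw [pol_self, h.r0, mul_zero]

lemma Sing.symm {p r : V} (h : Sing p r) : Sing r p := ⟨h.r0, h.p0, h.rp⟩

/-- the nilpotent matrix `p ∧ r`. -/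
def Nm (p r : V) : MM := vecMulVec r (sw p) - vecMulVec p (sw r)

lemma Nm_mulVec (p r v : V) : Nm p r *ᵥ v = pol v p • r - pol v r • p := by
  unfold Nm
  rw [Matrix.sub_mulVec, vecMulVec_mulVec, vecMulVec_mulVec, pol_eq, pol_eq, dotProduct_comm v,
    dotProduct_comm v]
  ext i
  simp [mul_comm]

lemma one_add_mulVec (c : F) (p r v : V) :
    (1 + c • Nm p r) *ᵥ v = v + c • (pol v p • r - pol v r • p) := by
  rw [Matrix.add_mulVec, Matrix.one_mulVec, Matrix.smul_mulVec, Nm_mulVec]

lemma Q_line {p r : V} (h : Sing p r) (a b : F) : Q (a • r - b • p) = 0 := by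
  rw [sub_eq_add_neg, Q_add, Q_neg, Q_smul, Q_smul, pol_neg_right, pol_smul_left, pol_smul_right,
    h.p0, h.r0, h.rp]
  ring

open Classical in
/-- the Siegel transvection `v ↦ v + c (B(v,p) r - B(v,r) p)` (the identity if `⟨p, r⟩` is not singular). -/
noncomputable def sg (p r : V) (c : F) : GO :=
  if h : Sing p r then
    mkGO (1 + c • Nm p r) (1 + (-c) • Nm p r)
      (fun v => by
        rw [one_add_mulVec, one_add_mulVec]
        simp only [pol_add_left, pol_smul_left, pol_sub_left, h.pr, h.rp, h.pp, h.rr]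
        module)
      (fun v => by
        rw [one_add_mulVec, one_add_mulVec]
        simp only [pol_add_left, pol_smul_left, pol_sub_left, h.pr, h.rp, h.pp, h.rr]
        module)
      (fun v => by
        rw [one_add_mulVec, Q_add, Q_smul, Q_line h, pol_smul_right, pol_sub_right, pol_smul_right,
          pol_smul_right]
        ring)
  else 1

lemma act_sg {p r : V} (h : Sing p r) (c : F) (v : V) :
    act (sg p r c) v = v + c • (pol v p • r - pol v r • p) := by
  unfold sg
  rw [dif_pos h, act_mkGO, one_add_mulVec]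

lemma sg_val {p r : V} (h : Sing p r) (c : F) :
    (((sg p r c : GO) : Matrix.GeneralLinearGroup (Fin n ⊕ Fin n) F) : MM) = 1 + c • Nm p r := by
  unfold sg
  rw [dif_pos h]
  rfl

lemma sg_mul {p r : V} (h : Sing p r) (c d : F) : sg p r c * sg p r d = sg p r (c + d) := by
  apply go_ext
  intro v
  rw [act_mul, act_sg h, act_sg h, act_sg h]
  simp only [pol_add_left, pol_smul_left, pol_sub_left, h.pr, h.rp, h.pp, h.rr]
  module

lemma sg_zero (p r : V) : sg p r (0 : F) = 1 := by
  by_cases h : Sing p r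
  · apply go_ext
    intro v
    rw [act_sg h, act_one, zero_smul, add_zero]
  · unfold sg
    rw [dif_neg h]

lemma sg_inv {p r : V} (h : Sing p r) (c : F) : (sg p r c)⁻¹ = sg p r (-c) := by
  apply inv_eq_of_mul_eq_one_right
  rw [sg_mul h, add_neg_cancel, sg_zero]

/-- linear independence of two vectors, spelled out. -/
def LI (p r : V) : Prop := ∀ s t : F, s • p + t • r = 0 → s = 0 ∧ t = 0

lemma LI.symm {p r : V} (h : LI p r) : LI r p := by
  intro s t hst
  rw [add_comm] at hst
  exact (h t s hst).symm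

lemma LI_iff (p r : V) : LinearIndependent F ![p, r] ↔ LI p r := LinearIndependent.pair_iff

lemma LI.exists_dual {p r : V} (h : LI p r) : ∃ x : V, pol x p = 1 ∧ pol x r = 0 := by
  have h1 : ∀ c : F, p ≠ c • r := by
    intro c hc
    have := h 1 (-c) (by rw [hc]; module)
    exact one_ne_zero this.1
  obtain ⟨χ, h2, h3⟩ := Cfsg.Agent.Lib.Helper57.RootSL.exists_dot_sep h1
  refine ⟨sw χ, ?_, ?_⟩
  · rw [pol_comm, pol_eq, sw_sw, dotProduct_comm, h3]
  · rw [pol_comm, pol_eq, sw_sw, dotProduct_comm, h2]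

end Cfsg.Agent.Lib.Helper83.Siegel
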