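import Mathlib
import Cfsg.Agent.Lib.Helper83.SiegelA
import Cfsg.Agent.Lib.Helper83.Conj

set_option autoImplicit false

/-! The Siegel transvection groups `T(p, r)`. -/

namespace Cfsg.Agent.Lib.Helper83.Siegel

open Matrix Cfsg

variable {F : Type*} [Field F] {n : ℕ}

local notation "V" => (Fin n ⊕ Fin n → F)
local notation "Q" => Cfsg.quadFormPlus n F
local notation "MM" => Matrix (Fin n ⊕ Fin n) (Fin n ⊕ Fin n) F
local notation "GO" => (Cfsg.isometryGroup F (Cfsg.quadFormPlus n F))

/-- the Siegel transvection group of the line `⟨p, r⟩`: generated by the isometries fixing `⟨p, r⟩^⊥` pointwise. -/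
def T (p r : V) : Subgroup GO :=
  Subgroup.closure {σ : GO | ∀ v : V, pol v p = 0 → pol v r = 0 → act σ v = v}

variable {p r p' r' : Fin n ⊕ Fin n → F}

lemma sg_mem_T (h : Sing p r) (c : F) : sg p r c ∈ T p r := by
  apply Subgroup.subset_closure
  intro v h1 h2
  rw [act_sg h, h1, h2]
  simp

lemma eq_sg_of_fix (h : Sing p r) (hli : LI p r) {σ : GO}
    (hσ : ∀ v : V, pol v p = 0 → pol v r = 0 → act σ v = v) : ∃ c : F, σ = sg p r c := by
  obtain ⟨x, hxp, hxr⟩ := hli.exists_dual
  obtain ⟨y, hyr, hyp⟩ := hli.symm.exists_dual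
  have hdec : ∀ v : V, pol (v - pol v p • x - pol v r • y) p = 0 ∧
      pol (v - pol v p • x - pol v r • y) r = 0 := by
    intro v
    constructor <;> simp only [pol_sub_left, pol_smul_left, hxp, hxr, hyr, hyp] <;> ring
  have hdp : ∀ u : V, (∀ w : V, pol w p = 0 → pol w r = 0 → pol u w = 0) →
      u = pol u x • p + pol u y • r := by
    intro u hu
    rw [← sub_eq_zero]
    apply pol_nondeg
    intro v
    have := hu _ (hdec v).1 (hdec v).2
    simp only [pol_sub_right, pol_smul_right] at this
    simp only [pol_sub_left, pol_add_left, pol_smul_left]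
    rw [pol_comm p v, pol_comm r v]
    linear_combination this
  have hperp : ∀ z w : V, pol w p = 0 → pol w r = 0 → pol (act σ z - z) w = 0 := by
    intro z w h1 h2
    rw [pol_sub_left]
    have e : pol (act σ z) w = pol (act σ z) (act σ w) := by rw [hσ w h1 h2]
    rw [e, pol_act, sub_self]
  have hx := hdp _ (hperp x)
  have hy := hdp _ (hperp y)
  generalize pol (act σ x - x) x = α1 at hx
  generalize pol (act σ x - x) y = β1 at hx
  generalize pol (act σ y - y) x = α2 at hy
  generalize pol (act σ y - y) y = β2 at hy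
  have hσx : act σ x = x + (α1 • p + β1 • r) := by rw [← hx]; abel
  have hσy : act σ y = y + (α2 • p + β2 • r) := by rw [← hy]; abel
  have e1 : α1 = 0 := by
    have := Q_act σ x
    rw [hσx, Q_add, Q_add, Q_smul, Q_smul, h.p0, h.r0, pol_smul_left, pol_smul_right, h.pr,
      pol_add_right, pol_smul_right, pol_smul_right, hxp, hxr] at this
    linear_combination this
  have e2 : β2 = 0 := by
    have := Q_act σ y
    rw [hσy, Q_add, Q_add, Q_smul, Q_smul, h.p0, h.r0, pol_smul_left, pol_smul_right, h.pr,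
      pol_add_right, pol_smul_right, pol_smul_right, hyp, hyr] at this
    linear_combination this
  have e3 : α2 = -β1 := by
    have := pol_act σ x y
    rw [hσx, hσy] at this
    simp only [pol_add_left, pol_add_right, pol_smul_left, pol_smul_right, h.pr, h.rp, h.pp, h.rr,
      hxp, hxr, pol_comm p y, pol_comm r y, hyp, hyr] at this
    linear_combination this
  refine ⟨β1, go_ext ?_⟩
  intro v
  have hv : v = (v - pol v p • x - pol v r • y) + (pol v p • x + pol v r • y) := by abel
  rw [act_sg h]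
  conv_lhs => rw [hv]
  rw [act_add, act_add, act_smul, act_smul, hσ _ (hdec v).1 (hdec v).2, hσx, hσy, e1, e2, e3]
  module

lemma mem_T (h : Sing p r) (hli : LI p r) {σ : GO} : σ ∈ T p r ↔ ∃ c : F, σ = sg p r c := by
  constructor
  · intro hg
    induction hg using Subgroup.closure_induction with
    | mem x hx => exact eq_sg_of_fix h hli hx
    | one => exact ⟨0, (sg_zero p r).symm⟩
    | mul x y _ _ hx hy =>
      obtain ⟨c, rfl⟩ := hx
      obtain ⟨d, rfl⟩ := hy
      exact ⟨c + d, sg_mul h c d⟩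
    | inv x _ hx =>
      obtain ⟨c, rfl⟩ := hx
      exact ⟨-c, sg_inv h c⟩
  · rintro ⟨c, rfl⟩
    exact sg_mem_T h c

lemma LI.right_ne {p r : V} (hli : LI p r) : r ≠ 0 := by
  rintro rfl
  exact one_ne_zero (hli 0 1 (by simp)).2

lemma LI.left_ne {p r : V} (hli : LI p r) : p ≠ 0 := hli.symm.right_ne

lemma sg_ne_one (h : Sing p r) (hli : LI p r) {c : F} (hc : c ≠ 0) : sg p r c ≠ 1 := by
  intro h1
  obtain ⟨x, hxp, hxr⟩ := hli.exists_dual
  have h2 := act_sg h c x
  rw [h1, act_one, hxp, hxr, zero_smul, sub_zero, one_smul, left_eq_add, smul_eq_zero] at h2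
  exact h2.elim hc hli.right_ne

lemma ne_zero_of_sg_ne_one {c : F} (hc : sg p r c ≠ 1) : c ≠ 0 := by
  rintro rfl
  exact hc (sg_zero p r)

lemma T_comm (h : Sing p r) (hli : LI p r) : IsMulCommutative (T p r) := by
  refine ⟨⟨?_⟩⟩
  rintro ⟨a, ha⟩ ⟨b, hb⟩
  obtain ⟨c, rfl⟩ := (mem_T h hli).mp ha
  obtain ⟨d, rfl⟩ := (mem_T h hli).mp hb
  apply Subtype.ext
  change sg p r c * sg p r d = sg p r d * sg p r c
  rw [sg_mul h, sg_mul h, add_comm]

lemma T_ne_bot (h : Sing p r) (hli : LI p r) : T p r ≠ ⊥ := by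
  intro hb
  have h1 := sg_mem_T h (1 : F)
  rw [hb, Subgroup.mem_bot] at h1
  exact sg_ne_one h hli one_ne_zero h1

lemma Sing.act (h : Sing p r) (g : GO) : Sing (act g p) (act g r) :=
  ⟨by rw [Q_act, h.p0], by rw [Q_act, h.r0], by rw [pol_act, h.pr]⟩

lemma LI.act (h : LI p r) (g : GO) : LI (act g p) (act g r) := by
  intro s t hst
  apply h
  have := congrArg (Siegel.act g⁻¹) hst
  rwa [act_add, act_smul, act_smul, act_inv_act, act_inv_act, act_zero] at this

lemma conj_sg (h : Sing p r) (g : GO) (c : F) :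
    g * sg p r c * g⁻¹ = sg (act g p) (act g r) c := by
  apply go_ext
  intro v
  rw [act_mul, act_mul, act_sg h, act_sg (h.act g), act_add, act_act_inv, act_smul, act_sub,
    act_smul, act_smul, pol_act_inv, pol_act_inv]

lemma conjBy_T (h : Sing p r) (hli : LI p r) (g : GO) :
    conjBy (T p r) g = T (act g p) (act g r) := by
  ext x
  rw [mem_conjBy, mem_T h hli, mem_T (h.act g) (hli.act g)]
  constructor
  · rintro ⟨c, hc⟩
    refine ⟨c, ?_⟩
    rw [← conj_sg h, ← hc]; group
  · rintro ⟨c, hc⟩
    refine ⟨c, ?_⟩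
    rw [hc, ← conj_sg h]; group

lemma T_congr (h : ∀ v : V, (pol v p = 0 ∧ pol v r = 0) ↔ (pol v p' = 0 ∧ pol v r' = 0)) :
    T p r = T p' r' := by
  unfold T
  congr 1
  ext σ
  constructor
  · intro hσ v h1 h2
    obtain ⟨a, b⟩ := (h v).mpr ⟨h1, h2⟩
    exact hσ v a b
  · intro hσ v h1 h2
    obtain ⟨a, b⟩ := (h v).mp ⟨h1, h2⟩
    exact hσ v a b

lemma T_swap (p r : V) : T p r = T r p := T_congr (fun _ => and_comm)

lemma T_add_smul (p r : V) (c : F) : T (p + c • r) r = T p r := by
  apply T_congr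
  intro v
  rw [pol_add_right, pol_smul_right]
  constructor
  · rintro ⟨h1, h2⟩
    rw [h2, mul_zero, add_zero] at h1
    exact ⟨h1, h2⟩
  · rintro ⟨h1, h2⟩
    rw [h1, h2, mul_zero, add_zero]
    exact ⟨rfl, rfl⟩

lemma Sing.add_smul (h : Sing p r) (c : F) : Sing (p + c • r) r :=
  ⟨by rw [Q_add, Q_smul, h.p0, h.r0, pol_smul_right, h.pr]; ring, h.r0,
    by rw [pol_add_left, pol_smul_left, h.pr, h.rr]; ring⟩

lemma LI.add_smul (h : LI p r) (c : F) : LI (p + c • r) r := by
  intro s t hst
  have := h s (s * c + t) (by rw [← hst]; module)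
  obtain ⟨h1, h2⟩ := this
  rw [h1, zero_mul, zero_add] at h2
  exact ⟨h1, h2⟩

lemma sg_commute (h : Sing p r) (h' : Sing p' r') (h1 : pol p p' = 0) (h2 : pol p r' = 0)
    (h3 : pol r p' = 0) (h4 : pol r r' = 0) (c d : F) :
    sg p r c * sg p' r' d = sg p' r' d * sg p r c := by
  apply go_ext
  intro v
  rw [act_mul, act_mul, act_sg h, act_sg h', act_sg h, act_sg h']
  simp only [pol_add_left, pol_smul_left, pol_sub_left, h1, h2, h3, h4, pol_comm p' p, pol_comm p' r,
    pol_comm r' p, pol_comm r' r]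
  module

lemma sg_comm_formula' {a c b d : V} (h : Sing a c) (h' : Sing b d) (hab : pol a b = 0)
    (had : pol a d = 0) (hcb : pol c b = 0) (s t : F) :
    sg a c s * sg b d t = sg a b (s * t * pol c d) * (sg b d t * sg a c s) := by
  have h3 : Sing a b := ⟨h.p0, h'.p0, hab⟩
  apply go_ext
  intro v
  rw [act_mul, act_mul, act_mul, act_sg h, act_sg h', act_sg h3, act_sg h', act_sg h]
  simp only [pol_add_left, pol_smul_left, pol_sub_left, hab, had, hcb, pol_comm b a, pol_comm d a,
    pol_comm b c, pol_comm d c, h.pr, h.rp, h.pp, h.rr, h'.pr, h'.rp, h'.pp, h'.rr]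
  module

lemma sg_comm_formula {a c b d : V} (h : Sing a c) (h' : Sing b d) (hab : pol a b = 0)
    (had : pol a d = 0) (hcb : pol c b = 0) (s t : F) :
    sg a c s * sg b d t * (sg a c s)⁻¹ * (sg b d t)⁻¹ = sg a b (s * t * pol c d) := by
  rw [sg_comm_formula' h h' hab had hcb]
  group

lemma sg_eq_one_of_not_LI {a b : V} (hn : ¬ LI a b) (γ : F) : sg a b γ = 1 := by
  by_cases h : Sing a b
  · unfold LI at hn
    push Not at hn
    obtain ⟨s, t, hst, hne⟩ := hn
    apply go_ext
    intro v
    rw [act_sg h, act_one]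
    have h0 : s * pol v a + t * pol v b = 0 := by
      rw [← pol_smul_right, ← pol_smul_right, ← pol_add_right, hst, pol_zero_right]
    have hX : pol v a • b - pol v b • a = 0 := by
      by_cases hs : s = 0
      · have ht := hne hs
        have : t • (pol v a • b - pol v b • a) = 0 := by
          have e : t • (pol v a • b - pol v b • a) =
              pol v a • (s • a + t • b) - (s * pol v a + t * pol v b) • a := by module
          rw [e, hst, h0]; simp
        exact (smul_eq_zero.mp this).resolve_left ht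
      · have : s • (pol v a • b - pol v b • a) = 0 := by
          have e : s • (pol v a • b - pol v b • a) =
              (s * pol v a + t * pol v b) • b - pol v b • (s • a + t • b) := by module
          rw [e, hst, h0]; simp
        exact (smul_eq_zero.mp this).resolve_left hs
    rw [hX, smul_zero, add_zero]
  · unfold sg
    rw [dif_neg h]

end Cfsg.Agent.Lib.Helper83.Siegel
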