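import Mathlib
import Cfsg.Agent.Lib.Helper57.RootTransfer

set_option autoImplicit false

/-! Passing from a family of subgroups of `G` (three cases allowed) to the subgroup it generates. -/

namespace Cfsg.Agent.Lib.Helper83

open Cfsg
open Cfsg.Agent.Lib.Helper57.RootSL (inGen le_gen comm_subgroupOf ne_bot_subgroupOf exists_ne_one
  generates_inGen psl2_subgroupOf)

variable {G : Type*} [Group G]

theorem commutator_subgroupOf {A B U : Subgroup G} (hA : A ≤ U) (hB : B ≤ U) :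
    ⁅A.subgroupOf U, B.subgroupOf U⁆ = ⁅A, B⁆.subgroupOf U := by
  have hAB : ⁅A, B⁆ ≤ U := by
    rw [Subgroup.commutator_le]
    intro a ha b hb
    rw [commutatorElement_def]
    exact U.mul_mem (U.mul_mem (U.mul_mem (hA ha) (hB hb)) (U.inv_mem (hA ha))) (U.inv_mem (hB hb))
  apply Subgroup.map_injective (Subgroup.subtype_injective U)
  rw [Subgroup.map_commutator, Subgroup.map_subgroupOf_eq_of_le hA, Subgroup.map_subgroupOf_eq_of_le hB,
    Subgroup.map_subgroupOf_eq_of_le hAB]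

theorem closure_subgroupOf_aux {U K : Subgroup G} (X : Set U) (hK : K ≤ U)
    (h : Subgroup.closure ((fun x : U => (x : G)) '' X) = K) :
    Subgroup.closure X = K.subgroupOf U := by
  apply Subgroup.map_injective (Subgroup.subtype_injective U)
  rw [MonoidHom.map_closure, Subgroup.map_subgroupOf_eq_of_le hK]
  exact h

theorem CC.subgroupOf {S : Set (Subgroup G)} {A B : Subgroup G} (hA : A ∈ S) (hB : B ∈ S)
    (h : RootCommutatorCase S A B) :
    RootCommutatorCase (inGen S) (A.subgroupOf (⨆ B ∈ S, B)) (B.subgroupOf (⨆ B ∈ S, B)) := by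
  obtain ⟨h1, h2, h3, h4⟩ := h
  have hA' := le_gen hA
  have hB' := le_gen hB
  have hC' := le_gen h1
  rw [RootCommutatorCase, commutator_subgroupOf hA' hB']
  refine ⟨⟨_, h1, rfl⟩, ?_, ?_, ?_⟩
  · intro c hc x hx
    rw [← Subgroup.subgroupOf_sup hA' hB'] at hx
    exact Subtype.ext (h2 c hc x hx)
  · intro a ha ha1
    apply closure_subgroupOf_aux _ hC'
    rw [← h3 a ha (fun h => ha1 (Subtype.ext h))]
    congr 1
    ext y
    constructor
    · rintro ⟨_, ⟨b, hb, rfl⟩, rfl⟩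
      exact ⟨b, hb, rfl⟩
    · rintro ⟨b, hb, rfl⟩
      exact ⟨_, ⟨⟨b, hB' hb⟩, hb, rfl⟩, rfl⟩
  · intro b hb hb1
    apply closure_subgroupOf_aux _ hC'
    rw [← h4 b hb (fun h => hb1 (Subtype.ext h))]
    congr 1
    ext y
    constructor
    · rintro ⟨_, ⟨a, ha, rfl⟩, rfl⟩
      exact ⟨a, ha, rfl⟩
    · rintro ⟨a, ha, rfl⟩
      exact ⟨_, ⟨⟨a, hA' ha⟩, ha, rfl⟩, rfl⟩

section transfer

variable {L : Type*} [Field L] {S : Set (Subgroup G)}

variable (hcomm : ∀ A ∈ S, IsMulCommutative A) (hbot : ∀ A ∈ S, A ≠ ⊥)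
  (hconj : ∀ A ∈ S, ∀ g : G, conjBy A g ∈ S)
  (hpair : ∀ A ∈ S, ∀ B ∈ S, (∀ a ∈ A, ∀ b ∈ B, a * b = b * a) ∨
    (IsPSL2PairOver L A B ∧ IsRankOnePair A B) ∨ RootCommutatorCase S A B)

include hcomm hbot hconj hpair in
theorem isRootSubgroupSet_inGen3 : IsRootSubgroupSet (inGen S) where
  commutative := by
    rintro _ ⟨A, hA, rfl⟩
    have := hcomm A hA
    refine ⟨⟨?_⟩⟩
    rintro ⟨a, ha⟩ ⟨b, hb⟩
    apply Subtype.ext
    apply Subtype.ext
    exact comm_of_isMulCommutative this ha hb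
  ne_bot := by
    rintro _ ⟨A, hA, rfl⟩
    exact ne_bot_subgroupOf (le_gen hA) (hbot A hA)
  generates := generates_inGen
  conj_mem := by
    rintro _ ⟨A, hA, rfl⟩ g
    exact ⟨conjBy A g, hconj A hA g, (conjBy_subgroupOf A _ g).symm⟩
  pair := by
    rintro _ ⟨A, hA, rfl⟩ _ ⟨B, hB, rfl⟩
    rcases hpair A hA B hB with h | h | h
    · exact Or.inl (commutator_eq_bot_of_commute (comm_subgroupOf h))
    · exact Or.inr (Or.inl (R1.subgroupOf h.2 (le_gen hA) (le_gen hB)))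
    · exact Or.inr (Or.inr (CC.subgroupOf hA hB h))

include hcomm hbot hconj hpair in
theorem isKRoot_inGen3 : IsKRootSubgroupSet L (inGen S) := by
  have hroot := isRootSubgroupSet_inGen3 hcomm hbot hconj hpair
  refine ⟨hroot, ?_⟩
  rintro _ ⟨A, hA, rfl⟩ _ ⟨B, hB, rfl⟩ hro
  rcases hpair A hA B hB with h | h | h
  · obtain ⟨a, ha, ha1⟩ := exists_ne_one (hroot.ne_bot _ ⟨A, hA, rfl⟩)
    exact absurd (R1.eq_one_of_commute hro ha (comm_subgroupOf h a ha)) ha1
  · exact psl2_subgroupOf h.1 (le_gen hA) (le_gen hB)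
  · obtain ⟨a, ha, ha1⟩ := exists_ne_one (hroot.ne_bot _ ⟨A, hA, rfl⟩)
    exact absurd (R1.eq_one_of_commutatorCase hro (hroot.commutative _ ⟨B, hB, rfl⟩)
      (CC.subgroupOf hA hB h) (x := a) (z := 1) ha (by simp) (by simpa using ha)) ha1

end transfer

end Cfsg.Agent.Lib.Helper83
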