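import Mathlib
import Cfsg.Agent.Lib.Helper83.SiegelB
import Cfsg.Agent.Lib.Helper83.SL2Emb
import Cfsg.Agent.Lib.Helper83.Transfer3

set_option autoImplicit false

/-! Pairs of Siegel transvection groups: the trichotomy. -/

namespace Cfsg.Agent.Lib.Helper83.Siegel

open Matrix Cfsg

variable {F : Type*} [Field F] {n : ℕ}

local notation "V" => (Fin n ⊕ Fin n → F)
local notation "Q" => Cfsg.quadFormPlus n F
local notation "MM" => Matrix (Fin n ⊕ Fin n) (Fin n ⊕ Fin n) F
local notation "GO" => (Cfsg.isometryGroup F (Cfsg.quadFormPlus n F))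

variable {p r p' r' : Fin n ⊕ Fin n → F}

/-- the set of all Siegel transvection groups. -/
def Sig : Set (Subgroup GO) :=
  {A | ∃ p r : V, LinearIndependent F ![p, r] ∧ Q p = 0 ∧ Q r = 0 ∧ Q (p + r) = 0 ∧ A = T p r}

lemma T_mem_Sig (h : Sing p r) (hli : LI p r) : T p r ∈ (Sig : Set (Subgroup GO)) :=
  ⟨p, r, (LI_iff p r).mpr hli, h.p0, h.r0, by rw [Q_add, h.p0, h.r0, h.pr]; ring, rfl⟩

lemma exists_of_mem_Sig {A : Subgroup GO} (hA : A ∈ (Sig : Set (Subgroup GO))) :
    ∃ p r : V, Sing p r ∧ LI p r ∧ A = T p r := by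
  obtain ⟨p, r, h1, h2, h3, h4, h5⟩ := hA
  refine ⟨p, r, ⟨h2, h3, ?_⟩, (LI_iff p r).mp h1, h5⟩
  rw [Q_add, h2, h3] at h4
  linear_combination h4

theorem comm_pair (h : Sing p r) (hli : LI p r) (h' : Sing p' r') (hli' : LI p' r')
    (h1 : pol p p' = 0) (h2 : pol p r' = 0) (h3 : pol r p' = 0) (h4 : pol r r' = 0) :
    ∀ a ∈ T p r, ∀ b ∈ T p' r', a * b = b * a := by
  intro a ha b hb
  obtain ⟨c, rfl⟩ := (mem_T h hli).mp ha
  obtain ⟨d, rfl⟩ := (mem_T h' hli').mp hb
  exact sg_commute h h' h1 h2 h3 h4 c d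

section cc

variable {a c b d : Fin n ⊕ Fin n → F}

theorem comm_pair_of_not_LI (h : Sing a c) (hli : LI a c) (h' : Sing b d) (hli' : LI b d)
    (hab : pol a b = 0) (had : pol a d = 0) (hcb : pol c b = 0) (hn : ¬ LI a b) :
    ∀ x ∈ T a c, ∀ y ∈ T b d, x * y = y * x := by
  intro x hx y hy
  obtain ⟨s, rfl⟩ := (mem_T h hli).mp hx
  obtain ⟨t, rfl⟩ := (mem_T h' hli').mp hy
  rw [sg_comm_formula' h h' hab had hcb, sg_eq_one_of_not_LI hn, one_mul]

theorem commutator_T (h : Sing a c) (hli : LI a c) (h' : Sing b d) (hli' : LI b d)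
    (hab : pol a b = 0) (had : pol a d = 0) (hcb : pol c b = 0) (hcd : pol c d ≠ 0) (hl : LI a b) :
    ⁅T a c, T b d⁆ = T a b := by
  have h3 : Sing a b := ⟨h.p0, h'.p0, hab⟩
  apply le_antisymm
  · rw [Subgroup.commutator_le]
    intro x hx y hy
    obtain ⟨s, rfl⟩ := (mem_T h hli).mp hx
    obtain ⟨t, rfl⟩ := (mem_T h' hli').mp hy
    rw [commutatorElement_def, sg_comm_formula h h' hab had hcb]
    exact sg_mem_T h3 _
  · intro x hx
    obtain ⟨e, rfl⟩ := (mem_T h3 hl).mp hx
    have h1 := Subgroup.commutator_mem_commutator (sg_mem_T h (e * (pol c d)⁻¹)) (sg_mem_T h' 1)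
    rw [commutatorElement_def, sg_comm_formula h h' hab had hcb, mul_one, mul_assoc,
      inv_mul_cancel₀ hcd, mul_one] at h1
    exact h1

theorem cc_pair (h : Sing a c) (hli : LI a c) (h' : Sing b d) (hli' : LI b d)
    (hab : pol a b = 0) (had : pol a d = 0) (hcb : pol c b = 0) (hcd : pol c d ≠ 0) (hl : LI a b) :
    RootCommutatorCase Sig (T a c) (T b d) := by
  have h3 : Sing a b := ⟨h.p0, h'.p0, hab⟩
  rw [RootCommutatorCase, commutator_T h hli h' hli' hab had hcb hcd hl]
  refine ⟨T_mem_Sig h3 hl, ?_, ?_, ?_⟩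
  · have hle : T a c ⊔ T b d ≤ Subgroup.centralizer (T a b : Set GO) := by
      apply sup_le
      · intro x hx
        rw [Subgroup.mem_centralizer_iff]
        intro z hz
        exact comm_pair h3 hl h hli h.pp h.pr (by rw [pol_comm, hab]) (by rw [pol_comm, hcb]) z hz x hx
      · intro y hy
        rw [Subgroup.mem_centralizer_iff]
        intro z hz
        exact comm_pair h3 hl h' hli' hab had h'.pp h'.pr z hz y hy
    intro z hz x hx
    exact Subgroup.mem_centralizer_iff.mp (hle hx) z hz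
  · intro x hx hx1
    obtain ⟨s, rfl⟩ := (mem_T h hli).mp hx
    have hs := ne_zero_of_sg_ne_one hx1
    apply le_antisymm
    · rw [Subgroup.closure_le]
      rintro _ ⟨y, hy, rfl⟩
      obtain ⟨t, rfl⟩ := (mem_T h' hli').mp hy
      simp only [sg_comm_formula h h' hab had hcb]
      exact sg_mem_T h3 _
    · intro z hz
      obtain ⟨e, rfl⟩ := (mem_T h3 hl).mp hz
      apply Subgroup.subset_closure
      refine ⟨sg b d (s⁻¹ * e * (pol c d)⁻¹), sg_mem_T h' _, ?_⟩
      simp only [sg_comm_formula h h' hab had hcb]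
      congr 1
      field_simp
  · intro y hy hy1
    obtain ⟨t, rfl⟩ := (mem_T h' hli').mp hy
    have ht := ne_zero_of_sg_ne_one hy1
    apply le_antisymm
    · rw [Subgroup.closure_le]
      rintro _ ⟨x, hx, rfl⟩
      obtain ⟨s, rfl⟩ := (mem_T h hli).mp hx
      simp only [sg_comm_formula h h' hab had hcb]
      exact sg_mem_T h3 _
    · intro z hz
      obtain ⟨e, rfl⟩ := (mem_T h3 hl).mp hz
      apply Subgroup.subset_closure
      refine ⟨sg a c (t⁻¹ * e * (pol c d)⁻¹), sg_mem_T h _, ?_⟩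
      simp only [sg_comm_formula h h' hab had hcb]
      congr 1
      field_simp

end cc

/-- the determinant of the Gram matrix of two lines. -/
def dl (p r p' r' : V) : F := pol p p' * pol r r' - pol p r' * pol r p'

lemma dl_symm (p r p' r' : V) : dl p' r' p r = dl p r p' r' := by
  unfold dl
  rw [pol_comm p' p, pol_comm r' r, pol_comm p' r, pol_comm r' p]
  ring

lemma LI_of_dl (h : dl p r p' r' ≠ 0) : LI p r := by
  intro s t hst
  have h1 : s * pol p p' + t * pol r p' = 0 := by
    rw [← pol_smul_left, ← pol_smul_left, ← pol_add_left, hst, pol_zero_left]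
  have h2 : s * pol p r' + t * pol r r' = 0 := by
    rw [← pol_smul_left, ← pol_smul_left, ← pol_add_left, hst, pol_zero_left]
  constructor
  · have : s * dl p r p' r' = 0 := by unfold dl; linear_combination pol r r' * h1 - pol r p' * h2
    exact (mul_eq_zero.mp this).resolve_right h
  · have : t * dl p r p' r' = 0 := by unfold dl; linear_combination pol p p' * h2 - pol p r' * h1
    exact (mul_eq_zero.mp this).resolve_right h

lemma LI_of_dl' (h : dl p r p' r' ≠ 0) : LI p' r' := LI_of_dl (by rwa [dl_symm])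

lemma NN (h : Sing p r) : Nm p r * Nm p r = 0 := by
  apply mat_ext
  intro v
  rw [← Matrix.mulVec_mulVec, Nm_mulVec, Nm_mulVec, Matrix.zero_mulVec]
  simp only [pol_sub_left, pol_smul_left, h.pr, h.rp, h.pp, h.rr]
  module

lemma NNN (p r p' r' : V) : Nm p r * Nm p' r' * Nm p r = (-(dl p r p' r')) • Nm p r := by
  apply mat_ext
  intro v
  rw [← Matrix.mulVec_mulVec, ← Matrix.mulVec_mulVec, Matrix.smul_mulVec, Nm_mulVec, Nm_mulVec,
    Nm_mulVec]
  simp only [pol_sub_left, pol_smul_left, pol_comm p' p, pol_comm p' r, pol_comm r' p, pol_comm r' r,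
    dl]
  module

lemma Nm_ne_zero (hli : LI p r) : Nm p r ≠ 0 := by
  intro h0
  obtain ⟨x, hxp, hxr⟩ := hli.exists_dual
  have := Nm_mulVec p r x
  rw [h0, Matrix.zero_mulVec, hxp, hxr, one_smul, zero_smul, sub_zero] at this
  exact hli.right_ne this.symm

section opp

lemma rel (h : Sing p r) (h' : Sing p' r') (hd : dl p r p' r' ≠ 0) :
    EF.Rel (Nm p r) ((-(dl p r p' r')⁻¹) • Nm p' r') where
  ee := NN h
  ff := by rw [smul_mul_smul_comm, NN h', smul_zero]
  efe := by
    rw [mul_smul_comm, smul_mul_assoc, NNN, smul_smul]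
    have : -(dl p r p' r')⁻¹ * -dl p r p' r' = 1 := by field_simp
    rw [this, one_smul]
  fef := by
    rw [smul_mul_assoc, mul_smul_comm, smul_mul_assoc, NNN, dl_symm, smul_smul, smul_smul]
    congr 1
    field_simp

/-- the copy of `SL₂` inside `GL`. -/
noncomputable def rho0 (h : Sing p r) (h' : Sing p' r') (hd : dl p r p' r' ≠ 0) :
    SpecialLinearGroup (Fin 2) F →* Matrix.GeneralLinearGroup (Fin n ⊕ Fin n) F :=
  EF.rho (rel h h' hd)

lemma rho0_Up (h : Sing p r) (h' : Sing p' r') (hd : dl p r p' r' ≠ 0) (t : F) :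
    rho0 h h' hd (Cfsg.Agent.S5016.Up t) = (sg p r t : GO) := by
  apply Units.ext
  rw [sg_val h]
  exact EF.rho_Up _ t

lemma rho0_Lo (h : Sing p r) (h' : Sing p' r') (hd : dl p r p' r' ≠ 0) (t : F) :
    rho0 h h' hd (Cfsg.Agent.S5016.Lo t) = (sg p' r' (t * (-(dl p r p' r')⁻¹)) : GO) := by
  apply Units.ext
  rw [sg_val h', ← smul_smul]
  exact EF.rho_Lo _ t

lemma rho0_mem (h : Sing p r) (h' : Sing p' r') (hd : dl p r p' r' ≠ 0)
    (x : SpecialLinearGroup (Fin 2) F) : rho0 h h' hd x ∈ GO := by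
  have : (GO).comap (rho0 h h' hd) = ⊤ := by
    rw [eq_top_iff, ← Cfsg.Agent.S5016.gen]
    apply sup_le
    · intro x hx
      rw [Cfsg.Agent.S5016.mem_lower' hx, Subgroup.mem_comap, rho0_Lo]
      exact (sg p' r' _).2
    · intro x hx
      rw [Cfsg.Agent.S5016.mem_upper' hx, Subgroup.mem_comap, rho0_Up]
      exact (sg p r _).2
  have hx : x ∈ (GO).comap (rho0 h h' hd) := by rw [this]; trivial
  exact hx

/-- the copy of `SL₂` inside the isometry group. -/
noncomputable def rhoO (h : Sing p r) (h' : Sing p' r') (hd : dl p r p' r' ≠ 0) :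
    SpecialLinearGroup (Fin 2) F →* GO :=
  (rho0 h h' hd).codRestrict GO (rho0_mem h h' hd)

lemma rhoO_injective (h : Sing p r) (h' : Sing p' r') (hd : dl p r p' r' ≠ 0) :
    Function.Injective (rhoO h h' hd) := by
  intro x y hxy
  exact EF.rho_injective (rel h h' hd) (Nm_ne_zero (LI_of_dl hd)) (congrArg Subtype.val hxy)

lemma rhoO_Up (h : Sing p r) (h' : Sing p' r') (hd : dl p r p' r' ≠ 0) (t : F) :
    rhoO h h' hd (Cfsg.Agent.S5016.Up t) = sg p r t := Subtype.ext (rho0_Up h h' hd t)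

lemma rhoO_Lo (h : Sing p r) (h' : Sing p' r') (hd : dl p r p' r' ≠ 0) (t : F) :
    rhoO h h' hd (Cfsg.Agent.S5016.Lo t) = sg p' r' (t * (-(dl p r p' r')⁻¹)) :=
  Subtype.ext (rho0_Lo h h' hd t)

theorem opp_pair (h : Sing p r) (h' : Sing p' r') (hd : dl p r p' r' ≠ 0) :
    IsPSL2PairOver F (T p r) (T p' r') ∧ IsRankOnePair (T p r) (T p' r') := by
  have hli := LI_of_dl hd
  have hli' := LI_of_dl' hd
  apply Cfsg.Agent.Lib.Helper57.RootSL.pair_of_hom (rhoO h h' hd) (rhoO_injective h h' hd)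
  · ext x
    rw [Subgroup.mem_map, mem_T h hli]
    constructor
    · rintro ⟨y, hy, rfl⟩
      rw [Cfsg.Agent.S5016.mem_upper' hy, rhoO_Up]
      exact ⟨_, rfl⟩
    · rintro ⟨c, rfl⟩
      exact ⟨Cfsg.Agent.S5016.Up c, Cfsg.Agent.S5016.Up_mem _, rhoO_Up h h' hd c⟩
  · ext x
    rw [Subgroup.mem_map, mem_T h' hli']
    constructor
    · rintro ⟨y, hy, rfl⟩
      rw [Cfsg.Agent.S5016.mem_lower' hy, rhoO_Lo]
      exact ⟨_, rfl⟩
    · rintro ⟨c, rfl⟩
      refine ⟨Cfsg.Agent.S5016.Lo (c * (-(dl p r p' r'))), Cfsg.Agent.S5016.Lo_mem _, ?_⟩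
      rw [rhoO_Lo]
      congr 1
      field_simp

end opp

/-- the three cases, as a predicate on two subgroups. -/
def Tri (A B : Subgroup GO) : Prop :=
  (∀ a ∈ A, ∀ b ∈ B, a * b = b * a) ∨ (IsPSL2PairOver F A B ∧ IsRankOnePair A B) ∨
    RootCommutatorCase Sig A B

theorem rank1 (h : Sing p r) (hli : LI p r) (h' : Sing p' r') (hli' : LI p' r')
    (hd : dl p r p' r' = 0) (hne : pol r r' ≠ 0) : Tri (T p r) (T p' r') := by
  set lam : F := -(pol p r' / pol r r') with hlam
  set mu : F := -(pol r p' / pol r r') with hmu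
  rw [← T_add_smul p r lam, ← T_add_smul p' r' mu]
  have k := h.add_smul lam
  have k' := h'.add_smul mu
  have kl := hli.add_smul lam
  have kl' := hli'.add_smul mu
  unfold dl at hd
  have hab : pol (p + lam • r) (p' + mu • r') = 0 := by
    simp only [pol_add_left, pol_add_right, pol_smul_left, pol_smul_right, hlam, hmu]
    field_simp
    linear_combination hd
  have had : pol (p + lam • r) r' = 0 := by
    simp only [pol_add_left, pol_smul_left, hlam]
    field_simp
    ring
  have hcb : pol r (p' + mu • r') = 0 := by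
    simp only [pol_add_right, pol_smul_right, hmu]
    field_simp
    ring
  by_cases hl : LI (p + lam • r) (p' + mu • r')
  · exact Or.inr (Or.inr (cc_pair k kl k' kl' hab had hcb hne hl))
  · exact Or.inl (comm_pair_of_not_LI k kl k' kl' hab had hcb hl)

theorem pair_T (h : Sing p r) (hli : LI p r) (h' : Sing p' r') (hli' : LI p' r') :
    Tri (T p r) (T p' r') := by
  by_cases hd : dl p r p' r' = 0
  · by_cases h4 : pol r r' = 0
    · by_cases h3 : pol r p' = 0
      · by_cases h2 : pol p r' = 0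
        · by_cases h1 : pol p p' = 0
          · exact Or.inl (comm_pair h hli h' hli' h1 h2 h3 h4)
          · rw [T_swap p r, T_swap p' r']
            exact rank1 h.symm hli.symm h'.symm hli'.symm (by unfold dl at hd ⊢; linear_combination hd) h1
        · rw [T_swap p r]
          exact rank1 h.symm hli.symm h' hli' (by unfold dl at hd ⊢; linear_combination -hd) h2
      · rw [T_swap p' r']
        exact rank1 h hli h'.symm hli'.symm (by unfold dl at hd ⊢; linear_combination -hd) h3
    · exact rank1 h hli h' hli' hd h4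
  · exact Or.inr (Or.inl (opp_pair h h' hd))

end Cfsg.Agent.Lib.Helper83.Siegel
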