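import Mathlib
import Cfsg.Agent.Lib.Helper83.SiegelC
import Cfsg.Agent.Lib.Helper83.Graph

set_option autoImplicit false

/-! Connectivity of the graph of opposite singular lines, and the final statement. -/

namespace Cfsg.Agent.Lib.Helper83.Siegel

open Matrix Cfsg

variable {F : Type*} [Field F] {n : ℕ}

local notation "V" => (Fin n ⊕ Fin n → F)
local notation "Q" => Cfsg.quadFormPlus n F
local notation "MM" => Matrix (Fin n ⊕ Fin n) (Fin n ⊕ Fin n) F
local notation "GO" => (Cfsg.isometryGroup F (Cfsg.quadFormPlus n F))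

variable {p r p' r' : Fin n ⊕ Fin n → F}

lemma adj (h : Sing p r) (h' : Sing p' r') (hd : dl p r p' r' ≠ 0) :
    FAdj Sig (T p r) (T p' r') :=
  ⟨T_mem_Sig h (LI_of_dl hd), T_mem_Sig h' (LI_of_dl' hd), (opp_pair h h' hd).2⟩

lemma pol_bv_bv (i j : Fin n ⊕ Fin n) : pol (bv i : V) (bv j) = if j.swap = i then 1 else 0 := by
  rw [pol_bv, bv_apply]

lemma swap_ne_swap {i j : Fin n ⊕ Fin n} (h : i ≠ j) : i.swap ≠ j.swap := by
  intro h2
  apply h
  rw [← Sum.swap_swap i, h2, Sum.swap_swap]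

lemma swap_ne_of_ne_swap {i j : Fin n ⊕ Fin n} (h : i ≠ j.swap) : i.swap ≠ j := by
  intro h2
  apply h
  rw [← h2, Sum.swap_swap]

lemma Sing_bv {i j : Fin n ⊕ Fin n} (hij : j ≠ i.swap) : Sing (bv i : V) (bv j) :=
  ⟨Q_bv i, Q_bv j, by rw [pol_bv_bv, if_neg (swap_ne_of_ne_swap hij)]⟩

lemma exists_minor (h : Sing p r) (hli : LI p r) :
    ∃ i j : Fin n ⊕ Fin n, j ≠ i.swap ∧ p i * r j - p j * r i ≠ 0 := by
  obtain ⟨i, hi⟩ := Function.ne_iff.mp hli.left_ne
  have hi' : p i ≠ 0 := hi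
  by_contra hcon
  push Not at hcon
  have H := hcon i
  set c : F := r i / p i with hc
  have h1 : ∀ j, j ≠ i.swap → (r - c • p) j = 0 := by
    intro j hj
    have := H j hj
    simp only [Pi.sub_apply, Pi.smul_apply, smul_eq_mul, hc]
    field_simp
    linear_combination this
  have h2 : r - c • p = ((r - c • p) i.swap) • bv i.swap := by
    funext j
    by_cases hj : j = i.swap
    · subst hj
      simp [bv_apply]
    · rw [h1 j hj]
      simp [bv_apply, hj]
  have h3 : pol p (r - c • p) = 0 := by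
    rw [pol_sub_right, pol_smul_right, h.pr, h.pp]; ring
  rw [h2, pol_smul_right, pol_bv, Sum.swap_swap] at h3
  have h4 : (r - c • p) i.swap = 0 := (mul_eq_zero.mp h3).resolve_right hi'
  rw [h4, zero_smul] at h2
  have := hli (-c) 1 (by rw [← h2]; module)
  exact one_ne_zero this.2

/-- the coordinate lines. -/
def L (i j : Fin n ⊕ Fin n) : Subgroup GO := T (bv i) (bv j)

lemma L_swap (i j : Fin n ⊕ Fin n) : (L i j : Subgroup GO) = L j i := T_swap _ _

/-- being joined by a path of opposite lines. -/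
def Conn (A B : Subgroup GO) : Prop := Relation.ReflTransGen (FAdj Sig) A B

lemma Conn.trans {A B C : Subgroup GO} (h : Conn A B) (h' : Conn B C) : Conn A C :=
  Relation.ReflTransGen.trans h h'

lemma Conn.symm {A B : Subgroup GO} (h : Conn A B) : Conn B A := path_symm h

lemma exists_coord (h : Sing p r) (hli : LI p r) :
    ∃ i j : Fin n ⊕ Fin n, j ≠ i ∧ j ≠ i.swap ∧ Conn (T p r) (L i j) := by
  obtain ⟨i, j, hij, hm⟩ := exists_minor h hli
  have hji : j ≠ i := by
    rintro rfl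
    apply hm
    ring
  refine ⟨i.swap, j.swap, swap_ne_swap hji, ?_, Relation.ReflTransGen.single (adj h (Sing_bv ?_) ?_)⟩
  · rw [Sum.swap_swap]
    exact swap_ne_of_ne_swap hij
  · rw [Sum.swap_swap]
    exact swap_ne_of_ne_swap hij
  · unfold dl
    rw [pol_bv, pol_bv, pol_bv, pol_bv, Sum.swap_swap, Sum.swap_swap]
    exact hm

lemma step1 {i j k : Fin n ⊕ Fin n} (hj : j ≠ i) (hj' : j ≠ i.swap) (hk : k ≠ i) (hk' : k ≠ i.swap)
    (hkj : k ≠ j) (hkj' : k ≠ j.swap) : Conn (L i j : Subgroup GO) (L i k) := by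
  have hs : Sing (bv i.swap : V) (bv j.swap + bv k.swap) := by
    refine ⟨Q_bv _, ?_, ?_⟩
    · rw [Q_add, Q_bv, Q_bv, pol_bv_bv, Sum.swap_swap, if_neg hkj']; ring
    · rw [pol_add_right, pol_bv_bv, pol_bv_bv, Sum.swap_swap, Sum.swap_swap, if_neg hj', if_neg hk']
      ring
  have d1 : dl (bv i : V) (bv j) (bv i.swap) (bv j.swap + bv k.swap) ≠ 0 := by
    unfold dl
    simp only [pol_add_right, pol_bv_bv, Sum.swap_swap, if_neg hj, if_neg hk, if_neg hkj, if_true]
    simp
  have d2 : dl (bv i : V) (bv k) (bv i.swap) (bv j.swap + bv k.swap) ≠ 0 := by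
    unfold dl
    simp only [pol_add_right, pol_bv_bv, Sum.swap_swap, if_neg hj, if_neg hk, if_neg hkj.symm, if_true]
    simp
  exact Relation.ReflTransGen.head (adj (Sing_bv hj') hs d1)
    (Relation.ReflTransGen.single (FAdj.symm' (adj (Sing_bv hk') hs d2)))

lemma exists_avoid (hn : 3 ≤ n) (s : Finset (Fin n ⊕ Fin n)) (hs : s.card ≤ 4) : ∃ t, t ∉ s := by
  by_contra h
  push Not at h
  have : s = Finset.univ := Finset.eq_univ_iff_forall.mpr h
  rw [this, Finset.card_univ, Fintype.card_sum, Fintype.card_fin] at hs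
  omega

lemma conn_i (hn : 3 ≤ n) {i j l : Fin n ⊕ Fin n} (hj : j ≠ i) (hj' : j ≠ i.swap) (hl : l ≠ i)
    (hl' : l ≠ i.swap) : Conn (L i j : Subgroup GO) (L i l) := by
  by_cases h1 : l = j
  · subst h1
    exact Relation.ReflTransGen.refl
  by_cases h2 : l = j.swap
  · obtain ⟨t, ht⟩ := exists_avoid hn {i, i.swap, j, j.swap} Finset.card_le_four
    simp only [Finset.mem_insert, Finset.mem_singleton, not_or] at ht
    obtain ⟨t1, t2, t3, t4⟩ := ht
    subst h2
    exact (step1 hj hj' t1 t2 t3 t4).trans (step1 t1 t2 hl hl' (Ne.symm t4) (swap_ne_swap (Ne.symm t3)))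
  · exact step1 hj hj' hl hl' h1 h2

lemma conn_all (hn : 3 ≤ n) {i j k l : Fin n ⊕ Fin n} (hj : j ≠ i) (hj' : j ≠ i.swap) (hl : l ≠ k)
    (hl' : l ≠ k.swap) : Conn (L i j : Subgroup GO) (L k l) := by
  by_cases h1 : k = i
  · subst h1
    exact conn_i hn hj hj' hl hl'
  by_cases h2 : k = i.swap
  · obtain ⟨t, ht⟩ := exists_avoid hn {i, i.swap} (Finset.card_le_two.trans (by norm_num))
    simp only [Finset.mem_insert, Finset.mem_singleton, not_or] at ht
    obtain ⟨t1, t2⟩ := ht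
    subst h2
    have a : Conn (L i j : Subgroup GO) (L i t) := conn_i hn hj hj' t1 t2
    have b : Conn (L t i : Subgroup GO) (L t i.swap) :=
      conn_i hn (Ne.symm t1) (fun h => t2 (by rw [h, Sum.swap_swap])) (Ne.symm t2) (swap_ne_swap (Ne.symm t1))
    have c : Conn (L i.swap t : Subgroup GO) (L i.swap l) :=
      conn_i hn t2 (by rw [Sum.swap_swap]; exact t1) hl hl'
    rw [L_swap t i, L_swap t i.swap] at b
    exact (a.trans b).trans c
  · have a : Conn (L i j : Subgroup GO) (L i k) := conn_i hn hj hj' h1 h2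
    have b : Conn (L k i : Subgroup GO) (L k l) :=
      conn_i hn (Ne.symm h1) (fun h => h2 (by rw [h, Sum.swap_swap])) hl hl'
    rw [L_swap k i] at b
    exact a.trans b

theorem connected_Sig (hn : 3 ≤ n) :
    IsConnectedFamily (FAdj (Sig : Set (Subgroup GO))) Sig := by
  intro A hA B hB
  obtain ⟨p, r, h, hli, rfl⟩ := exists_of_mem_Sig hA
  obtain ⟨p', r', h', hli', rfl⟩ := exists_of_mem_Sig hB
  obtain ⟨i, j, hj, hj', c1⟩ := exists_coord h hli
  obtain ⟨k, l, hl, hl', c2⟩ := exists_coord h' hli'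
  exact (c1.trans (conn_all hn hj hj' hl hl')).trans c2.symm

theorem isKRoot_Sig :
    IsKRootSubgroupSet F (Cfsg.Agent.Lib.Helper57.RootSL.inGen (Sig : Set (Subgroup GO))) := by
  apply isKRoot_inGen3
  · intro A hA
    obtain ⟨p, r, h, hli, rfl⟩ := exists_of_mem_Sig hA
    exact T_comm h hli
  · intro A hA
    obtain ⟨p, r, h, hli, rfl⟩ := exists_of_mem_Sig hA
    exact T_ne_bot h hli
  · intro A hA g
    obtain ⟨p, r, h, hli, rfl⟩ := exists_of_mem_Sig hA
    rw [conjBy_T h hli]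
    exact T_mem_Sig (h.act g) (hli.act g)
  · intro A hA B hB
    obtain ⟨p, r, h, hli, rfl⟩ := exists_of_mem_Sig hA
    obtain ⟨p', r', h', hli', rfl⟩ := exists_of_mem_Sig hB
    exact pair_T h hli h' hli'

end Cfsg.Agent.Lib.Helper83.Siegel
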