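import Mathlib
import Cfsg.Prelude.Def_RootSubgroups
import Cfsg.Agent.Lib.Helper83.RankOne3

set_option autoImplicit false

namespace Cfsg.Agent.Lib.Helper83

open Cfsg

variable {X : Type*} [Group X] {A B : Subgroup X}

/-- `a ∈ A#` and `b ∈ B` are partners: `b A b⁻¹ = a B a⁻¹`. -/
def Rel (A B : Subgroup X) (a b : X) : Prop := a ∈ A ∧ b ∈ B ∧ a ≠ 1 ∧ conjBy A b = conjBy B a

theorem Rel.ne_one_right (h : IsRankOnePair A B) {a b : X} (hr : Rel A B a b) : b ≠ 1 := by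
  rintro rfl
  have := hr.2.2.2
  rw [conjBy_one] at this
  exact R1.conjBy_right_ne_left h hr.1 this.symm

theorem Rel.symm (h : IsRankOnePair A B) {a b : X} (hr : Rel A B a b) : Rel B A b a :=
  ⟨hr.2.1, hr.1, hr.ne_one_right h, hr.2.2.2.symm⟩

theorem Rel.unique_right (h : IsRankOnePair A B) {a b b' : X} (hr : Rel A B a b)
    (hr' : Rel A B a b') : b = b' :=
  R1.eq_of_conjBy_eq (R1.symm h) hr.2.1 hr'.2.1 (hr.2.2.2.trans hr'.2.2.2.symm)

theorem Rel.unique_left (h : IsRankOnePair A B) {a a' b : X} (hr : Rel A B a b)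
    (hr' : Rel A B a' b) : a = a' :=
  R1.eq_of_conjBy_eq h hr.1 hr'.1 (hr.2.2.2.symm.trans hr'.2.2.2)

theorem exists_rel (h : IsRankOnePair A B) {a : X} (ha : a ∈ A) (ha1 : a ≠ 1) :
    ∃ b, Rel A B a b := by
  obtain ⟨b, hb, -, hab⟩ := R1.exists_partner h ha ha1
  exact ⟨b, ha, hb, ha1, hab⟩

/-- conjugating a pair of partners by an element interchanging `A` and `B` -/
theorem Rel.conj_swap (h : IsRankOnePair A B) {a b g : X} (hr : Rel A B a b)
    (hgA : conjBy A g = B) (hgB : conjBy B g = A) : Rel A B (g * b * g⁻¹) (g * a * g⁻¹) := by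
  refine ⟨?_, ?_, ?_, ?_⟩
  · rw [← hgB]; exact conj_mem_conjBy hr.2.1
  · rw [← hgA]; exact conj_mem_conjBy hr.1
  · intro h1
    apply hr.ne_one_right h
    have : g⁻¹ * (g * b * g⁻¹) * g = g⁻¹ * 1 * g := by rw [h1]
    simpa [mul_assoc] using this
  · have := congrArg (fun C => conjBy C g) hr.2.2.2
    simp only [conjBy_conjBy] at this
    have e1 : g * a * g⁻¹ * g = g * a := by simp
    have e2 : g * b * g⁻¹ * g = g * b := by simp
    conv_lhs => rw [← hgB]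
    conv_rhs => rw [← hgA]
    rw [conjBy_conjBy, conjBy_conjBy, e1, e2, this]

/-- special rank one pair with abelian unipotent subgroups, in a convenient form -/
structure SP (A B : Subgroup X) : Prop where
  pair : IsRankOnePair A B
  commA : IsMulCommutative A
  commB : IsMulCommutative B
  sp : ∀ a b, Rel A B a b → b * a * b⁻¹ = a * b⁻¹ * a⁻¹

theorem SP.of (hs : IsSpecialRankOnePair A B) (hab : HasAbelianUnipotents A B) : SP A B where
  pair := hs.1
  commA := hab.1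
  commB := hab.2
  sp := by
    intro a b hr
    have h1 := hs.2 a⁻¹ (A.inv_mem hr.1) (by simpa using hr.2.2.1) b⁻¹ (B.inv_mem hr.2.1)
      (by simpa using hr.ne_one_right hs.1) (by simpa using hr.2.2.2)
    simp only [inv_inv] at h1
    have := congrArg (fun t => t⁻¹) h1
    simpa [mul_assoc] using this

theorem SP.symm (h : SP A B) : SP B A where
  pair := R1.symm h.pair
  commA := h.commB
  commB := h.commA
  sp := by
    intro b a hr
    have h1 := h.sp a b (hr.symm (R1.symm h.pair))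
    have := congrArg (fun t => t⁻¹) h1
    simp only [mul_inv_rev, inv_inv] at this
    simpa [mul_assoc] using this.symm

theorem SP.braid (h : SP A B) {a b : X} (hr : Rel A B a b) :
    a * b⁻¹ * a = b⁻¹ * a * b⁻¹ := by
  have := congrArg (fun t => b⁻¹ * t * a) (h.sp a b hr)
  simpa [mul_assoc] using this

theorem SP.swap_left (h : SP A B) {a b : X} (hr : Rel A B a b) :
    conjBy A (a * b⁻¹ * a) = B := by
  have hA : conjBy A (a * b⁻¹ * a) = conjBy A (a * b⁻¹) := by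
    rw [← conjBy_conjBy, conjBy_of_mem hr.1]
  rw [hA]
  by_contra hne
  have hmem : conjBy A (a * b⁻¹) ∈ unipotentSubgroups A B :=
    ⟨a * b⁻¹, Subgroup.mul_mem _ (Subgroup.mem_sup_left hr.1)
      (Subgroup.inv_mem _ (Subgroup.mem_sup_right hr.2.1)), rfl⟩
  have h3 := (R1.pair_of_mem h.pair (R1.right_mem_unipotentSubgroups h.pair) hmem
    (fun h => hne h.symm)).1
  have h4 : b⁻¹ = 1 := by
    apply R1.eq_one_of_normalizes h3 (B.inv_mem hr.2.1)
    rw [conjBy_conjBy, ← mul_assoc, ← h.braid hr, hA]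
  exact hr.ne_one_right h.pair (inv_eq_one.mp h4)

theorem SP.rel_inv (h : SP A B) {a b : X} (hr : Rel A B a b) : Rel A B a⁻¹ b⁻¹ := by
  refine ⟨A.inv_mem hr.1, B.inv_mem hr.2.1, by simpa using hr.2.2.1, ?_⟩
  rw [conjBy_eq_conjBy_iff, inv_inv]
  have := h.swap_left hr
  rwa [← conjBy_conjBy, conjBy_of_mem hr.1] at this

theorem SP.swap_right (h : SP A B) {a b : X} (hr : Rel A B a b) :
    conjBy B (a * b⁻¹ * a) = A := by
  rw [h.braid hr, ← conjBy_conjBy, conjBy_of_mem (B.inv_mem hr.2.1), ← conjBy_conjBy,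
    ← hr.2.2.2, conjBy_conjBy, inv_mul_cancel, conjBy_one]

theorem SP.n_conj_a (h : SP A B) {a b : X} (hr : Rel A B a b) :
    (a * b⁻¹ * a) * a * (a * b⁻¹ * a)⁻¹ = b⁻¹ := by
  have hb := h.braid hr
  calc (a * b⁻¹ * a) * a * (a * b⁻¹ * a)⁻¹ = (a * b⁻¹ * a) * b * a⁻¹ := by
        simp [mul_assoc]
    _ = (b⁻¹ * a * b⁻¹) * b * a⁻¹ := by rw [hb]
    _ = b⁻¹ := by simp [mul_assoc]

theorem SP.n_conj_b (h : SP A B) {a b : X} (hr : Rel A B a b) :
    (a * b⁻¹ * a) * b⁻¹ * (a * b⁻¹ * a)⁻¹ = a := by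
  have hb := h.braid hr
  calc (a * b⁻¹ * a) * b⁻¹ * (a * b⁻¹ * a)⁻¹ = (b⁻¹ * a * b⁻¹) * b⁻¹ * (b⁻¹ * a * b⁻¹)⁻¹ := by rw [hb]
    _ = (b⁻¹ * a * b⁻¹) * a⁻¹ * b := by simp [mul_assoc]
    _ = (a * b⁻¹ * a) * a⁻¹ * b := by rw [hb]
    _ = a := by simp [mul_assoc]

theorem conj_inv_of_conj {n x y : X} (h : n * y * n⁻¹ = x) : n⁻¹ * x * n = y := by
  rw [← h]; simp [mul_assoc]

theorem SP.ninv_conj_a (h : SP A B) {a b : X} (hr : Rel A B a b) :
    (a * b⁻¹ * a)⁻¹ * a * (a * b⁻¹ * a) = b⁻¹ := by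
  exact conj_inv_of_conj (h.n_conj_b hr)

theorem SP.ninv_conj_b (h : SP A B) {a b : X} (hr : Rel A B a b) :
    (a * b⁻¹ * a)⁻¹ * b⁻¹ * (a * b⁻¹ * a) = a := by
  exact conj_inv_of_conj (h.n_conj_a hr)

end Cfsg.Agent.Lib.Helper83
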