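import Mathlib
import Cfsg.Prelude.Def_RootSubgroups
import Cfsg.Agent.Lib.Helper83.Special

set_option autoImplicit false

namespace Cfsg.Agent.Lib.Helper83

open Cfsg

variable {X : Type*} [Group X] {A B : Subgroup X}

theorem SP.swap_left_inv (h : SP A B) {a b : X} (hr : Rel A B a b) :
    conjBy A (a * b⁻¹ * a)⁻¹ = B := by
  rw [conjBy_eq_iff, inv_inv, h.swap_right hr]

theorem SP.swap_right_inv (h : SP A B) {a b : X} (hr : Rel A B a b) :
    conjBy B (a * b⁻¹ * a)⁻¹ = A := by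
  rw [conjBy_eq_iff, inv_inv, h.swap_left hr]

/-- the addition formula -/
theorem SP.rel_mul (h : SP A B) {a₁ a₂ b₁ b₂ α : X} (h1 : Rel A B a₁ b₁) (h2 : Rel A B a₂ b₂)
    (hα : Rel A B α (b₁ * b₂)) :
    Rel A B (a₁ * a₂) (b₁ * ((a₁ * b₁⁻¹ * a₁) * α * (a₁ * b₁⁻¹ * a₁)⁻¹)) := by
  have hne : a₁ * a₂ ≠ 1 := by
    intro h0
    have e : a₂ = a₁⁻¹ := (inv_eq_of_mul_eq_one_right h0).symm
    have h3 := h.rel_inv h1
    rw [← e] at h3
    have := h2.unique_right h.pair h3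
    apply hα.ne_one_right h.pair
    rw [this, mul_inv_cancel]
  set n₁ := a₁ * b₁⁻¹ * a₁ with hn₁
  set n₂ := a₂ * b₂⁻¹ * a₂ with hn₂
  set nα := α * (b₁ * b₂)⁻¹ * α with hnα
  have hu : n₁ * α * n₁⁻¹ ∈ B := by
    have := h.swap_left h1
    rw [← this]
    exact conj_mem_conjBy hα.1
  have hv : n₂⁻¹ * α * n₂ ∈ B := by
    have := h.swap_left_inv h2
    rw [← this]
    have h5 := conj_mem_conjBy (g := n₂⁻¹) hα.1
    rwa [inv_inv] at h5
  refine ⟨A.mul_mem h1.1 h2.1, B.mul_mem h1.2.1 hu, hne, ?_⟩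
  have e1 : b₁ * n₁ * b₁ = a₁ := by
    rw [hn₁, h.braid h1]; simp [mul_assoc]
  have e2 : b₂ * n₂ * b₂ = a₂ := by
    rw [hn₂, h.braid h2]; simp [mul_assoc]
  have e3 : α * nα⁻¹ * α = b₁ * b₂ := by
    rw [hnα]; simp [mul_assoc]
  have key : a₁ * a₂ = (b₁ * (n₁ * α * n₁⁻¹)) * (n₁ * nα⁻¹ * n₂) * ((n₂⁻¹ * α * n₂) * b₂) := by
    calc a₁ * a₂ = (b₁ * n₁ * b₁) * (b₂ * n₂ * b₂) := by rw [e1, e2]
      _ = b₁ * n₁ * (b₁ * b₂) * n₂ * b₂ := by simp only [mul_assoc]
      _ = b₁ * n₁ * (α * nα⁻¹ * α) * n₂ * b₂ := by rw [e3]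
      _ = _ := by simp [mul_assoc]
  have hN : conjBy B (n₁ * nα⁻¹ * n₂) = A := by
    rw [← conjBy_conjBy, ← conjBy_conjBy, h.swap_right h2, h.swap_left_inv hα, h.swap_right h1]
  rw [key, ← conjBy_conjBy B (n₂⁻¹ * α * n₂ * b₂), conjBy_of_mem (B.mul_mem hv h2.2.1),
    ← conjBy_conjBy B (n₁ * nα⁻¹ * n₂), hN]

theorem SP.pow_eq_one_right (h : SP A B) {a b : X} (hr : Rel A B a b) {k : ℕ} (hk : a ^ k = 1) :
    b ^ k = 1 := by
  have h1 := h.n_conj_a hr
  have h2 : (b⁻¹) ^ k = 1 := by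
    rw [← h1, conj_pow, hk]; simp
  rwa [inv_pow, inv_eq_one] at h2

theorem SP.pow_rel (k : ℕ) (hk : 1 ≤ k) : ∀ {A B : Subgroup X}, SP A B → ∀ {a b w : X},
    Rel A B a b → Rel A B (a ^ k) w → w ^ k = b := by
  induction k, hk using Nat.le_induction with
  | base =>
    intro A B h a b w hr hw
    rw [pow_one] at hw ⊢
    exact hw.unique_right h.pair hr
  | succ k hk ih =>
    intro A B h a b w hr hw
    by_cases hak : a ^ k = 1
    · rw [pow_succ, hak, one_mul] at hw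
      rw [hw.unique_right h.pair hr, pow_succ, h.pow_eq_one_right hr hak, one_mul]
    · obtain ⟨f, hf⟩ := exists_rel h.pair (A.pow_mem hr.1 k) hak
      have hfk : f ^ k = b := ih h hr hf
      have hy1 : b * f ≠ 1 := by
        intro h0
        have e : f = b⁻¹ := (inv_eq_of_mul_eq_one_right h0).symm
        rw [e] at hf
        have := hf.unique_left h.pair (h.rel_inv hr)
        apply hw.2.2.1
        rw [pow_succ, this, inv_mul_cancel]
      obtain ⟨α, hα⟩ := exists_rel (R1.symm h.pair) (B.mul_mem hr.2.1 hf.2.1) hy1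
      have hα' : Rel A B α (b * f) := hα.symm (R1.symm h.pair)
      set n := a * b⁻¹ * a with hn
      have hw2 : w = b * (n * α * n⁻¹) := by
        have := h.rel_mul hr hf hα'
        rw [← pow_succ'] at this
        exact hw.unique_right h.pair this
      have h3 := hw.conj_swap h.pair (h.swap_left_inv hr) (h.swap_right_inv hr)
      rw [← hn, inv_inv] at h3
      have e1 : n⁻¹ * a ^ (k + 1) * n = (b ^ (k + 1))⁻¹ := by
        have := h.ninv_conj_a hr
        rw [← hn] at this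
        rw [← inv_pow, ← this]
        have h5 := conj_pow (a := n⁻¹) (b := a) (i := k + 1)
        rw [inv_inv] at h5
        exact h5.symm
      rw [e1] at h3
      have h4 := h.rel_inv h3
      rw [inv_inv] at h4
      have e2 : (b * f) ^ k = b ^ (k + 1) := by
        rw [← hfk, ← pow_succ, ← pow_mul, ← pow_mul, mul_comm]
      have h5 : Rel B A ((b * f) ^ k) (n⁻¹ * w * n)⁻¹ := by
        rw [e2]; exact h4.symm h.pair
      have h6 : ((n⁻¹ * w * n)⁻¹) ^ k = α := ih h.symm hα h5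
      have e3 : n * α * n⁻¹ = (w ^ k)⁻¹ := by
        rw [← h6, inv_pow]
        have h7 := conj_pow (a := n⁻¹) (b := w) (i := k)
        rw [inv_inv] at h7
        rw [h7]
        simp [mul_assoc]
      rw [e3] at hw2
      rw [pow_succ']
      nth_rewrite 1 [hw2]
      simp

end Cfsg.Agent.Lib.Helper83
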