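import Mathlib
import Cfsg.Prelude.Def_RootSubgroups
import Cfsg.Agent.Lib.Helper83.Special2
import Cfsg.Agent.Lib.Helper83.Comm

set_option autoImplicit false

namespace Cfsg.Agent.Lib.Helper83

open Cfsg
open scoped commutatorElement

variable {X : Type*} [Group X] {A B : Subgroup X}

theorem SP.n_mem (_h : SP A B) {a b : X} (hr : Rel A B a b) : a * b⁻¹ * a ∈ A ⊔ B :=
  Subgroup.mul_mem _ (Subgroup.mul_mem _ (Subgroup.mem_sup_left hr.1)
    (Subgroup.inv_mem _ (Subgroup.mem_sup_right hr.2.1))) (Subgroup.mem_sup_left hr.1)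

/-- `n(a₁) n(a₂)⁻¹` lies in the diagonal subgroup -/
theorem SP.nn_mem_diag (h : SP A B) {a₁ a₂ b₁ b₂ : X} (h1 : Rel A B a₁ b₁) (h2 : Rel A B a₂ b₂) :
    (a₁ * b₁⁻¹ * a₁) * (a₂ * b₂⁻¹ * a₂)⁻¹ ∈ rankOneDiagonal A B := by
  refine ⟨⟨Subgroup.mul_mem _ (h.n_mem h1) (Subgroup.inv_mem _ (h.n_mem h2)), ?_⟩, ?_⟩
  · apply mem_normalizer_iff_conjBy.mpr
    rw [← conjBy_conjBy, h.swap_left_inv h2, h.swap_right h1]
  · apply mem_normalizer_iff_conjBy.mpr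
    rw [← conjBy_conjBy, h.swap_right_inv h2, h.swap_left h1]

theorem exists_rel_right (h : IsRankOnePair A B) {b : X} (hb : b ∈ B) (hb1 : b ≠ 1) :
    ∃ a, Rel A B a b := by
  obtain ⟨a, ha⟩ := exists_rel (R1.symm h) hb hb1
  exact ⟨a, ha.symm (R1.symm h)⟩

/-- the difference of two elements of `B` as a commutator with the diagonal subgroup -/
theorem SP.diff_eq (h : SP A B) {a₁ a₂ b₁ b₂ α : X} (h1 : Rel A B a₁ b₁) (h2 : Rel A B a₂ b₂)
    (hα : Rel A B α (b₁ * b₂)) :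
    b₂⁻¹ * b₁ = ⁅(a₂ * b₂⁻¹ * a₂) * α * (a₂ * b₂⁻¹ * a₂)⁻¹,
      (a₁ * b₁⁻¹ * a₁) * (a₂ * b₂⁻¹ * a₂)⁻¹⁆ := by
  have r1 := h.rel_mul h1 h2 hα
  have hα' : Rel A B α (b₂ * b₁) := by
    rw [comm_of_isMulCommutative h.commB h2.2.1 h1.2.1]; exact hα
  have r2 := h.rel_mul h2 h1 hα'
  rw [comm_of_isMulCommutative h.commA h2.1 h1.1] at r2
  have e := r1.unique_right h.pair r2
  generalize a₁ * b₁⁻¹ * a₁ = n₁ at *
  generalize a₂ * b₂⁻¹ * a₂ = n₂ at *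
  have e2 : b₂⁻¹ * b₁ = (n₂ * α * n₂⁻¹) * (n₁ * α * n₁⁻¹)⁻¹ := by
    have := congrArg (fun t => b₂⁻¹ * t * (n₁ * α * n₁⁻¹)⁻¹) e
    simpa [mul_assoc] using this
  rw [e2, commutatorElement_def]
  simp [mul_assoc]

theorem SP.diff_mem (h : SP A B) {b₁ b₂ : X} (hb₁ : b₁ ∈ B) (hb₂ : b₂ ∈ B) (h1 : b₁ ≠ 1)
    (h2 : b₂ ≠ 1) (h12 : b₁ * b₂ ≠ 1) : b₂⁻¹ * b₁ ∈ ⁅B, rankOneDiagonal A B⁆ := by
  obtain ⟨a₁, r1⟩ := exists_rel_right h.pair hb₁ h1
  obtain ⟨a₂, r2⟩ := exists_rel_right h.pair hb₂ h2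
  obtain ⟨α, rα⟩ := exists_rel_right h.pair (B.mul_mem hb₁ hb₂) h12
  rw [h.diff_eq r1 r2 rα]
  apply Subgroup.commutator_mem_commutator _ (h.nn_mem_diag r1 r2)
  have := h.swap_left r2
  rw [← this]
  exact conj_mem_conjBy rα.1

theorem exists_not_mem_of_card {B : Subgroup X} (hcard : 3 < ENat.card B) (x y z : X) :
    ∃ b ∈ B, b ≠ x ∧ b ≠ y ∧ b ≠ z := by
  by_contra hcon
  push Not at hcon
  have hsub : (B : Set X) ⊆ {x, y, z} := by
    intro b hb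
    by_cases h1 : b = x
    · simp [h1]
    by_cases h2 : b = y
    · simp [h2]
    · simp [hcon b hb h1 h2]
  have h3 : ({x, y, z} : Set X).encard ≤ 3 := by
    calc ({x, y, z} : Set X).encard ≤ ({y, z} : Set X).encard + 1 := Set.encard_insert_le _ _
      _ ≤ (({z} : Set X).encard + 1) + 1 := by gcongr; exact Set.encard_insert_le _ _
      _ = 3 := by rw [Set.encard_singleton]; norm_num
  have h1 : (B : Set X).encard ≤ 3 := (Set.encard_le_encard hsub).trans h3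
  have h2 : ENat.card B = (B : Set X).encard := rfl
  rw [h2] at hcard
  exact absurd hcard (not_lt.mpr h1)

theorem le_of_diff_mem {B B₀ : Subgroup X} (hcard : 3 < ENat.card B)
    (hd : ∀ b₁ ∈ B, ∀ b₂ ∈ B, b₁ ≠ 1 → b₂ ≠ 1 → b₁ * b₂ ≠ 1 → b₂⁻¹ * b₁ ∈ B₀) : B ≤ B₀ := by
  intro b hb
  by_contra hb0
  have hb1 : b ≠ 1 := by
    rintro rfl; exact hb0 B₀.one_mem
  obtain ⟨x, hx, hx1, hxb, hxb'⟩ := exists_not_mem_of_card hcard 1 b b⁻¹
  have key : ∀ y ∈ B, y ≠ 1 → y ≠ b⁻¹ → y⁻¹ * b ∈ B₀ := by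
    intro y hy hy1 hyb
    apply hd b hb y hy hb1 hy1
    intro h0
    exact hyb (eq_inv_of_mul_eq_one_right h0)
  have hy := key x hx hx1 hxb'
  have hyB : x⁻¹ * b ∈ B := B.mul_mem (B.inv_mem hx) hb
  by_cases hyb : x⁻¹ * b = b⁻¹
  · rw [hyb] at hy
    exact hb0 (by simpa using B₀.inv_mem hy)
  · have hy1 : x⁻¹ * b ≠ 1 := by
      intro h0
      exact hxb (inv_mul_eq_one.mp h0)
    have := key _ hyB hy1 hyb
    have h3 := B₀.mul_mem hy this
    simp only [mul_inv_cancel_left] at h3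
    exact hb0 h3

/-- `B = [B, H]` in a special rank one group with abelian unipotent subgroups of order `> 3` -/
theorem SP.le_comm_diag (h : SP A B) (hcard : 3 < ENat.card B) :
    B ≤ ⁅B, rankOneDiagonal A B⁆ :=
  le_of_diff_mem hcard (fun _ hb₁ _ hb₂ h1 h2 h12 => h.diff_mem hb₁ hb₂ h1 h2 h12)

theorem rankOneDiagonal_comm (A B : Subgroup X) : rankOneDiagonal B A = rankOneDiagonal A B := by
  unfold rankOneDiagonal
  rw [sup_comm, inf_assoc, inf_assoc, inf_comm (Subgroup.normalizer (B : Set X))]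

theorem SP.le_comm_diag' (h : SP A B) (hcard : 3 < ENat.card A) :
    A ≤ ⁅A, rankOneDiagonal A B⁆ := by
  rw [← rankOneDiagonal_comm]
  exact h.symm.le_comm_diag hcard

theorem rankOneDiagonal_le (A B : Subgroup X) : rankOneDiagonal A B ≤ A ⊔ B :=
  inf_le_left.trans inf_le_left

/-- a special rank one group with abelian unipotent subgroups of order `> 3` is perfect -/
theorem SP.perfect (h : SP A B) (hcard : 3 < ENat.card A) : ⁅A ⊔ B, A ⊔ B⁆ = A ⊔ B := by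
  apply le_antisymm
  · exact (Subgroup.commutator_le_sup _ _).trans (sup_le le_rfl le_rfl)
  have hA : A ≤ ⁅A ⊔ B, A ⊔ B⁆ :=
    (h.le_comm_diag' hcard).trans (Subgroup.commutator_mono le_sup_left (rankOneDiagonal_le A B))
  refine sup_le hA ?_
  obtain ⟨x, hx, hxB⟩ := R1.exists_conj h.pair
  have hn : Nz (A ⊔ B) ⁅A ⊔ B, A ⊔ B⁆ := (Nz.of_le le_rfl).commutator (Nz.of_le le_rfl)
  rw [← hn x hx]
  calc B = conjBy A x := hxB.symm
    _ ≤ _ := conjBy_mono hA x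

end Cfsg.Agent.Lib.Helper83
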