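import Mathlib
import Cfsg.Prelude.Def_RootSubgroups
import Cfsg.Prelude.Def_CaseTheorems
import Cfsg.Agent.Lib.Helper83.Nondeg
import Cfsg.Agent.Lib.Helper83.Special3

set_option autoImplicit false

namespace Cfsg.Agent.Lib.Helper83

open Cfsg
open scoped commutatorElement

section general

variable {G : Type*} [Group G]

theorem map_center_equiv {G H : Type*} [Group G] [Group H] (e : G ≃* H) :
    (Subgroup.center G).map e.toMonoidHom = Subgroup.center H := by
  ext x
  simp only [Subgroup.mem_map, Subgroup.mem_center_iff]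
  constructor
  · rintro ⟨a, ha, rfl⟩ g
    obtain ⟨g', rfl⟩ := e.surjective g
    have := ha g'
    simpa using congrArg e this
  · intro hx
    refine ⟨e.symm x, fun g => ?_, by simp⟩
    apply e.injective
    simpa using hx (e g)

theorem isQuasisimple_of_equiv {G H : Type*} [Group G] [Group H] (e : G ≃* H)
    (h : IsQuasisimple G) : IsQuasisimple H := by
  obtain ⟨hp, hs⟩ := h
  refine ⟨Group.IsPerfect.ofSurjective (f := e.toMonoidHom) e.surjective, ?_⟩
  let e' : G ⧸ Subgroup.center G ≃* H ⧸ Subgroup.center H :=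
    QuotientGroup.congr _ _ e (map_center_equiv e)
  exact e'.symm.isSimpleGroup

theorem isQuasisimple_of_normal (hperf : commutator G = ⊤) (hne : Subgroup.center G ≠ ⊤)
    (hN : ∀ N : Subgroup G, N.Normal → N ≤ Subgroup.center G ∨ N = ⊤) : IsQuasisimple G := by
  refine ⟨⟨hperf⟩, ?_⟩
  have : Nontrivial (G ⧸ Subgroup.center G) := QuotientGroup.nontrivial_iff.mpr hne
  refine ⟨fun H hH => ?_⟩
  have hsurj : Function.Surjective (QuotientGroup.mk' (Subgroup.center G)) :=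
    QuotientGroup.mk'_surjective _
  rcases hN (H.comap (QuotientGroup.mk' (Subgroup.center G))) (hH.comap _) with h1 | h1
  · left
    rw [eq_bot_iff]
    intro x hx
    obtain ⟨g, rfl⟩ := hsurj x
    have : g ∈ Subgroup.center G := h1 hx
    rw [Subgroup.mem_bot]
    exact (QuotientGroup.eq_one_iff g).mpr this
  · right
    rw [eq_top_iff]
    intro x _
    obtain ⟨g, rfl⟩ := hsurj x
    have : g ∈ H.comap (QuotientGroup.mk' (Subgroup.center G)) := by rw [h1]; trivial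
    exact this

theorem isQuasisimple_top (h : IsQuasisimple G) {K : Subgroup G} (hK : K = ⊤) : IsQuasisimple ↥K := by
  subst hK
  exact isQuasisimple_of_equiv Subgroup.topEquiv.symm h

end general

variable {G : Type*} [Group G] {S : Set (Subgroup G)} {A B C D E N : Subgroup G}

theorem Nz.of_normal (hN : N.Normal) (H : Subgroup G) : Nz H N := fun x _ => conjBy_of_normal hN x

/-- a normal subgroup containing a member of a class of root subgroups is everything -/
theorem eq_top_of_member_le (hS : IsRootSubgroupSet S) (hconj : ∀ A ∈ S, ∀ B ∈ S, ∃ g : G, B = conjBy A g)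
    (hN : N.Normal) (hE : E ∈ S) (hEN : E ≤ N) : N = ⊤ := by
  rw [eq_top_iff, ← hS.generates]
  refine iSup₂_le fun A hA => ?_
  obtain ⟨g, rfl⟩ := hconj E hE A hA
  rw [← conjBy_of_normal hN g]
  exact conjBy_mono hEN g

theorem comm_conj_le_normal (hN : N.Normal) (hCA : Cm C A) {n : G} (hn : n ∈ N) :
    ⁅C, conjBy A n⁆ ≤ N := by
  rw [Subgroup.commutator_le]
  intro c hc x hx
  rw [mem_conjBy] at hx
  set a := n⁻¹ * x * n with ha
  have hx' : x = n * a * n⁻¹ := by rw [ha]; group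
  have hm : ⁅n, a⁆ ∈ N := by
    rw [commutatorElement_def, mul_assoc, mul_assoc]
    refine N.mul_mem hn ?_
    have := hN.conj_mem _ (N.inv_mem hn) a
    simpa [mul_assoc] using this
  have hca : c⁻¹ = a⁻¹ * c⁻¹ * a := by
    have := hCA c⁻¹ (C.inv_mem hc) a hx
    rw [mul_assoc, this]; group
  have e : ⁅c, x⁆ = (c * ⁅n, a⁆ * c⁻¹) * ⁅n, a⁆⁻¹ := by
    have e1 : ⁅c, x⁆ = c * n * a * n⁻¹ * c⁻¹ * n * a⁻¹ * n⁻¹ := by
      rw [hx', commutatorElement_def]; group
    have e2 : (c * ⁅n, a⁆ * c⁻¹) * ⁅n, a⁆⁻¹ = c * n * a * n⁻¹ * (a⁻¹ * c⁻¹ * a) * n * a⁻¹ * n⁻¹ := by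
      rw [commutatorElement_def]; group
    rw [e1, e2, ← hca]
  rw [e]
  exact N.mul_mem (hN.conj_mem _ hm c) (N.inv_mem hm)

theorem mem_centralizingMembers : C ∈ centralizingMembers S A ↔ C ∈ S ∧ Cm C A := by
  constructor
  · rintro ⟨h1, h2⟩
    exact ⟨h1, fun c hc a ha => ((Subgroup.mem_centralizer_iff.mp (h2 hc)) a ha).symm⟩
  · rintro ⟨h1, h2⟩
    exact ⟨h1, fun c hc => Subgroup.mem_centralizer_iff.mpr (fun a ha => (h2 c hc a ha).symm)⟩

/-- case (ii) of the key lemma -/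
theorem le_center_of_inf_central (hS : IsRootSubgroupSet S) (hni : ∀ D ∈ S, ∃ E, FAdj S D E)
    (hcent : ∀ A ∈ S, ∀ C ∈ S, A ≠ C → centralizingMembers S A ≠ centralizingMembers S C)
    (hN : N.Normal)
    (hcen : ∀ A ∈ S, ∀ B ∈ S, IsRankOnePair A B → ∀ n ∈ N ⊓ (A ⊔ B), ∀ y ∈ A ⊔ B, n * y = y * n) :
    N ≤ Subgroup.center G := by
  have hinf : ∀ E ∈ S, E ⊓ N = ⊥ := by
    intro E hE
    obtain ⟨F, hF⟩ := hni E hE
    rw [eq_bot_iff]
    rintro e ⟨he, heN⟩
    exact R1.eq_one_of_commute hF.2.2 he (fun f hf =>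
      hcen E hE F hF.2.1 hF.2.2 e ⟨heN, Subgroup.mem_sup_left he⟩ f (Subgroup.mem_sup_right hf))
  have stepb : ∀ A ∈ S, ∀ n ∈ N, ∀ C ∈ S, Cm C A → Cm C (conjBy A n) := by
    intro A hA n hn C hC hCA
    have hle := comm_conj_le_normal hN hCA hn
    have hAn : conjBy A n ∈ S := hS.conj_mem A hA n
    rcases hS.pair C hC _ hAn with h1 | h1 | h1
    · exact Cm.of_commutator_eq_bot h1
    · exfalso
      apply R1.not_isNilpotent_sup h1
      have hK : Cm ⁅C, conjBy A n⁆ (C ⊔ conjBy A n) := fun x hx y hy =>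
        hcen C hC _ hAn h1 x ⟨hle hx, Subgroup.commutator_le_sup _ _ hx⟩ y hy
      apply nilpotent_of_chain (R₁ := ⁅C, conjBy A n⁆) (V := ⊥) (T := ⊥)
      · exact comm_sup_self (Cm.of_comm (hS.commutative C hC)) (Cm.of_comm (hS.commutative _ hAn))
      · rw [hK.commutator_eq_bot]
      · rw [Subgroup.commutator_bot_left]
      · rw [Subgroup.commutator_bot_left]
    · exfalso
      apply hS.ne_bot _ h1.1
      rw [eq_bot_iff, ← hinf _ h1.1]
      exact le_inf le_rfl hle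
  have stepc : ∀ A ∈ S, ∀ n ∈ N, conjBy A n = A := by
    intro A hA n hn
    by_contra hne
    apply hcent A hA _ (hS.conj_mem A hA n) (Ne.symm hne)
    ext C
    rw [mem_centralizingMembers, mem_centralizingMembers]
    constructor
    · rintro ⟨hC, hCA⟩
      exact ⟨hC, stepb A hA n hn C hC hCA⟩
    · rintro ⟨hC, hCA⟩
      have := stepb _ (hS.conj_mem A hA n) n⁻¹ (N.inv_mem hn) C hC hCA
      rw [conjBy_conjBy, inv_mul_cancel, conjBy_one] at this
      exact ⟨hC, this⟩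
  intro n hn
  have hle : (⨆ A ∈ S, A) ≤ Subgroup.centralizer {n} := by
    refine iSup₂_le fun A hA a ha => ?_
    rw [Subgroup.mem_centralizer_singleton_iff]
    have h1 : ⁅n, a⁆ ∈ A ⊓ N := by
      constructor
      · rw [commutatorElement_def]
        refine A.mul_mem ?_ (A.inv_mem ha)
        have := conj_mem_conjBy (g := n) ha
        rwa [stepc A hA n hn] at this
      · rw [commutatorElement_def, mul_assoc, mul_assoc]
        refine N.mul_mem hn ?_
        have := hN.conj_mem _ (N.inv_mem hn) a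
        simpa [mul_assoc] using this
    rw [hinf A hA, Subgroup.mem_bot, commutatorElement_eq_one_iff_mul_comm] at h1
    exact h1.symm
  rw [hS.generates] at hle
  rw [Subgroup.mem_center_iff]
  intro g
  exact Subgroup.mem_centralizer_singleton_iff.mp (hle (Subgroup.mem_top g))

/-- case (i) of the key lemma -/
theorem eq_top_of_not_central (hS : IsRootSubgroupSet S)
    (hconj : ∀ A ∈ S, ∀ B ∈ S, ∃ g : G, B = conjBy A g) (hN : N.Normal) (hA : A ∈ S)
    (hAB : IsRankOnePair A B)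
    (hP : ⁅A ⊔ B, A ⊔ B⁆ = A ⊔ B ∨ ∃ C, ⁅A, C⁆ = ⊥ ∧ ⁅B, C⁆ ∈ S)
    (hnc : ¬ ∀ n ∈ N ⊓ (A ⊔ B), ∀ y ∈ A ⊔ B, n * y = y * n) : N = ⊤ := by
  have hnz : Nz (A ⊔ B) (N ⊓ (A ⊔ B)) := by
    intro x hx
    rw [conjBy_inf, conjBy_of_normal hN, conjBy_of_mem hx]
  rcases R1.dichotomy' hAB inf_le_right hnz with h1 | h1
  · exact absurd h1 hnc
  rcases hP with hP | ⟨C, hAC, hBC⟩
  · apply eq_top_of_member_le hS hconj hN hA
    have h2 : ⁅(N ⊓ (A ⊔ B)) ⊔ A, (N ⊓ (A ⊔ B)) ⊔ A⁆ ≤ N ⊓ (A ⊔ B) := by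
      have nA : Nz A (N ⊓ (A ⊔ B)) := hnz.mono le_sup_left
      have nN : Nz (N ⊓ (A ⊔ B)) (N ⊓ (A ⊔ B)) := Nz.of_le le_rfl
      apply comm_sup_left nN nA
      · apply comm_sup_right nN nA
        · exact nN.commutator_le
        · exact nA.commutator_le
      · apply comm_sup_right nN nA
        · rw [Subgroup.commutator_comm]; exact nA.commutator_le
        · rw [(Cm.of_comm (hS.commutative A hA)).commutator_eq_bot]; exact bot_le
    rw [h1, hP] at h2
    exact (le_sup_left.trans h2).trans inf_le_left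
  · apply eq_top_of_member_le hS hconj hN hBC
    have h2 : B ≤ N ⊔ A := by
      calc B ≤ A ⊔ B := le_sup_right
        _ = (N ⊓ (A ⊔ B)) ⊔ A := h1.symm
        _ ≤ N ⊔ A := sup_le_sup_right inf_le_left A
    refine (Subgroup.commutator_mono h2 le_rfl).trans ?_
    apply comm_sup_left (Nz.of_normal hN _) (Nz.of_normal hN _)
    · exact (Nz.of_normal hN C).commutator_le
    · rw [hAC]; exact bot_le

/-- the key lemma -/
theorem normal_dichotomy (hS : IsRootSubgroupSet S) (hni : ∀ D ∈ S, ∃ E, FAdj S D E)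
    (hconj : ∀ A ∈ S, ∀ B ∈ S, ∃ g : G, B = conjBy A g)
    (hcent : ∀ A ∈ S, ∀ C ∈ S, A ≠ C → centralizingMembers S A ≠ centralizingMembers S C)
    (hP : ∀ A ∈ S, ∀ B ∈ S, IsRankOnePair A B →
      ⁅A ⊔ B, A ⊔ B⁆ = A ⊔ B ∨ ∃ C, ⁅A, C⁆ = ⊥ ∧ ⁅B, C⁆ ∈ S)
    (hN : N.Normal) : N ≤ Subgroup.center G ∨ N = ⊤ := by
  by_cases hcen : ∀ A ∈ S, ∀ B ∈ S, IsRankOnePair A B →
      ∀ n ∈ N ⊓ (A ⊔ B), ∀ y ∈ A ⊔ B, n * y = y * n
  · left
    exact le_center_of_inf_central hS hni hcent hN hcen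
  · right
    push Not at hcen
    obtain ⟨A, hA, B, hB, hAB, n, hn, y, hy, hne⟩ := hcen
    exact eq_top_of_not_central hS hconj hN hA hAB (hP A hA B hB hAB)
      (fun h => hne (h n hn y hy))

theorem commutator_eq_top_of (hS : IsRootSubgroupSet S)
    (hconj : ∀ A ∈ S, ∀ B ∈ S, ∃ g : G, B = conjBy A g) (hA : A ∈ S)
    (hP : ⁅A ⊔ B, A ⊔ B⁆ = A ⊔ B ∨ ∃ C, ⁅B, C⁆ ∈ S) : commutator G = ⊤ := by
  have hN : (commutator G).Normal := inferInstance
  rcases hP with hP | ⟨C, hBC⟩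
  · apply eq_top_of_member_le hS hconj hN hA
    calc A ≤ A ⊔ B := le_sup_left
      _ = ⁅A ⊔ B, A ⊔ B⁆ := hP.symm
      _ ≤ commutator G := Subgroup.commutator_mono le_top le_top
  · apply eq_top_of_member_le hS hconj hN hBC
    exact Subgroup.commutator_mono le_top le_top

end Cfsg.Agent.Lib.Helper83
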