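import Mathlib
import Cfsg.Prelude.Def_RootSubgroups
import Cfsg.Agent.Lib.Helper83.ND2
import Cfsg.Agent.Lib.Helper83.Simple

set_option autoImplicit false

namespace Cfsg.Agent.Lib.Helper83

open Cfsg
open scoped commutatorElement

variable {G : Type*} [Group G] {S : Set (Subgroup G)} {A B C D E F P Q N : Subgroup G}

/-- two commuting subgroups with a common rank one partner are interchanged by some element -/
theorem exists_swap (hAE : IsRankOnePair A E) (hCE : IsRankOnePair C E) (hAC : Cm A C) :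
    ∃ g : G, conjBy A g = C ∧ conjBy C g = A := by
  obtain ⟨e, he, he1⟩ := R1.exists_right hAE
  obtain ⟨a, ha, ha1, hae⟩ := R1.exists_partner (R1.symm hAE) he he1
  obtain ⟨c, hc, hc1, hce⟩ := R1.exists_partner (R1.symm hCE) he he1
  obtain ⟨e', he', -, hae'⟩ := R1.exists_partner hAE (A.inv_mem ha) (inv_ne_one.mpr ha1)
  obtain ⟨e₂, he₂, -, hce₂⟩ := R1.exists_partner hCE (C.inv_mem hc) (inv_ne_one.mpr hc1)
  have hac : a * c = c * a := hAC a ha c hc
  have h1 : Cm (conjBy E a) (conjBy E c) := by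
    rw [hae, hce]; exact hAC.conj e
  have h2 : Cm (conjBy E c⁻¹) (conjBy E a⁻¹) := by
    have := h1.conj (a⁻¹ * c⁻¹)
    rw [conjBy_conjBy, conjBy_conjBy] at this
    have e1 : a⁻¹ * c⁻¹ * a = c⁻¹ := by
      have : c⁻¹ * a = a * c⁻¹ := by
        have := congrArg (fun t => c⁻¹ * t * c⁻¹) hac
        simpa [mul_assoc] using this
      rw [mul_assoc, this]; group
    have e2 : a⁻¹ * c⁻¹ * c = a⁻¹ := by group
    rwa [e1, e2] at this
  have h3 : Cm (conjBy C (e'⁻¹ * e₂)) A := by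
    rw [← hce₂, ← hae'] at h2
    have := h2.conj e'⁻¹
    rwa [conjBy_conjBy, conjBy_conjBy, inv_mul_cancel, conjBy_one] at this
  have hε : e'⁻¹ * e₂ = 1 := by
    by_contra hε
    have hεE : e'⁻¹ * e₂ ∈ E := E.mul_mem (E.inv_mem he') he₂
    have hne : C ≠ conjBy C (e'⁻¹ * e₂) :=
      fun h0 => hε (R1.eq_one_of_normalizes (R1.symm hCE) hεE h0.symm)
    have h4 := (R1.pair_of_mem hCE (left_mem_unipotentSubgroups C E)
      ⟨_, Subgroup.mem_sup_right hεE, rfl⟩ hne).2
    have h5 : Cm A (C ⊔ E) := by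
      rw [← h4]; exact Cm.sup_right hAC h3.symm
    exact ha1 (R1.eq_one_of_commute hAE ha (fun b hb => h5 a ha b (Subgroup.mem_sup_right hb)))
  have hee : e₂ = e' := by
    have := congrArg (fun t => e' * t) hε
    simpa using this
  rw [hee] at hce₂
  refine ⟨e⁻¹ * (c * a) * e', ?_, ?_⟩
  · rw [← conjBy_conjBy, hae', ← conjBy_conjBy _ (c * a), conjBy_conjBy _ a⁻¹, mul_inv_cancel_right,
      hce, conjBy_conjBy, inv_mul_cancel, conjBy_one]
  · have e3 : c * a * c⁻¹ = a := by rw [← hac]; group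
    rw [← conjBy_conjBy, hce₂, ← conjBy_conjBy _ (c * a), conjBy_conjBy _ c⁻¹, e3, hae,
      conjBy_conjBy, inv_mul_cancel, conjBy_one]

/-- in a class with two members, degenerate or not, every member has a rank one partner -/
theorem exists_partner_of_class (hS : IsRootSubgroupClass S)
    (hdn : IsDegenerateRootSet S ∨ IsNondegenerateRootSet S) (hA : A ∈ S) (hC : C ∈ S) (hAC : A ≠ C) :
    ∀ D ∈ S, ∃ E, FAdj S D E := by
  rcases hdn with hdeg | hnd
  · obtain ⟨hS', -, hconj⟩ := hS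
    have hex : ∃ P ∈ S, ∃ Q ∈ S, IsRankOnePair P Q := by
      by_contra hcon
      push Not at hcon
      apply hAC
      obtain ⟨g, rfl⟩ := hconj A hA C hC
      have hle : (⨆ E ∈ S, E) ≤ Subgroup.centralizer (A : Set G) := by
        refine iSup₂_le fun E hE => ?_
        rcases hS'.pair E hE A hA with h1 | h1 | h1
        · intro x hx
          rw [Subgroup.mem_centralizer_iff]
          exact fun a ha => ((Cm.of_commutator_eq_bot h1) x hx a ha).symm
        · exact absurd h1 (hcon E hE A hA)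
        · exact absurd h1 (hdeg E hE A hA)
      rw [hS'.generates] at hle
      have hg := Subgroup.mem_centralizer_iff.mp (hle (Subgroup.mem_top g))
      exact (conjBy_eq_self_of_commute (fun a ha => (hg a ha).symm)).symm
    obtain ⟨P, hP, Q, hQ, hPQ⟩ := hex
    intro D hD
    obtain ⟨g, rfl⟩ := hconj P hP D hD
    exact ⟨conjBy Q g, hD, hS'.conj_mem Q hQ g, R1.conj hPQ g⟩
  · exact (ND.of hS hnd).hni

theorem centralizing_eq_of_subset (hS : IsRootSubgroupSet S) (hni : ∀ D ∈ S, ∃ E, FAdj S D E)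
    (hA : A ∈ S) (hC : C ∈ S)
    (hsub : centralizingMembers S A ⊆ centralizingMembers S C) :
    centralizingMembers S A = centralizingMembers S C := by
  have hAC : Cm A C :=
    (mem_centralizingMembers.mp (hsub (mem_centralizingMembers.mpr
      ⟨hA, Cm.of_comm (hS.commutative A hA)⟩))).2
  obtain ⟨E, -, hE, hCE⟩ := hni C hC
  have hnot : ∀ D, D ∈ S → Cm D A → Cm D C := fun D hD h =>
    (mem_centralizingMembers.mp (hsub (mem_centralizingMembers.mpr ⟨hD, h⟩))).2
  have hncm : ¬ Cm E C := by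
    intro h0
    obtain ⟨c, hc, hc1⟩ := R1.exists_left hCE
    exact hc1 (R1.eq_one_of_commute hCE hc (fun b hb => (h0 b hb c hc).symm))
  have hAE : IsRankOnePair A E := by
    rcases hS.pair A hA E hE with h1 | h1 | h1
    · exact absurd (hnot E hE (Cm.of_commutator_eq_bot h1).symm) hncm
    · exact h1
    · exfalso
      have hJ : Cm ⁅A, E⁆ C := hnot _ h1.1 (Cm.symm (CC.commute_left h1))
      have hnm := exists_natMod hS hC hE hCE hA hAC.symm h1.1
      exact hS.ne_bot _ hnm.hA hJ.symm.commutator_eq_bot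
  obtain ⟨g, hg1, hg2⟩ := exists_swap hAE hCE hAC
  apply Set.Subset.antisymm hsub
  intro D hD
  rw [mem_centralizingMembers] at hD ⊢
  refine ⟨hD.1, ?_⟩
  have h1 : Cm (conjBy D g) A := by
    have := hD.2.conj g
    rwa [hg2] at this
  have h2 := hnot _ (hS.conj_mem D hD.1 g) h1
  rw [← hg1] at h2
  have := h2.conj g⁻¹
  rwa [conjBy_conjBy, conjBy_conjBy, inv_mul_cancel, conjBy_one, conjBy_one] at this

theorem rankOnePartners_eq_of_subset (hS : IsRootSubgroupSet S) (hni : ∀ D ∈ S, ∃ E, FAdj S D E)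
    (hA : A ∈ S) (hC : C ∈ S) (hsub : rankOnePartners S A ⊆ rankOnePartners S C) :
    ⁅A, C⁆ = ⊥ ∧ rankOnePartners S A = rankOnePartners S C := by
  have hcomm : ⁅A, C⁆ = ⊥ := by
    rcases hS.pair A hA C hC with h1 | h1 | h1
    · exact h1
    · exact absurd rfl (hsub ⟨hC, h1⟩).2.ne
    · exfalso
      obtain ⟨E₁, -, hE₁, hr₁⟩ := hni C hC
      have c' := CC.symm h1
      have hCL := left_mem_linePartners hS hC hE₁ hr₁ c'
      obtain ⟨E, hE, eE⟩ := exists_comm_eq hS hni c'.1 hCL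
      have hnm : NatMod S C A ⁅C, A⁆ E :=
        ⟨hS, hC, hA, c'.1, hE, c', commutatorCase_of_mem hS c'.1 hE (by rw [eE]; exact hC), rfl, eE⟩
      have hCE := (hsub ⟨hE, hnm.r1⟩).2
      obtain ⟨c, hc, hc1⟩ := R1.exists_left hCE
      exact hc1 (R1.eq_one_of_commute hCE hc (fun b hb => (hnm.DA b hb c hc).symm))
  refine ⟨hcomm, ?_⟩
  obtain ⟨E, -, hE, hAE⟩ := hni A hA
  have hCE := (hsub ⟨hE, hAE⟩).2
  obtain ⟨g, hg1, hg2⟩ := exists_swap hAE hCE (Cm.of_commutator_eq_bot hcomm)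
  apply Set.Subset.antisymm hsub
  intro D hD
  refine ⟨hD.1, ?_⟩
  have h1 : IsRankOnePair A (conjBy D g) := by
    have := R1.conj hD.2 g
    rwa [hg2] at this
  have h2 := (hsub ⟨hS.conj_mem D hD.1 g, h1⟩).2
  rw [← hg1] at h2
  have := R1.conj h2 g⁻¹
  rwa [conjBy_conjBy, conjBy_conjBy, inv_mul_cancel, conjBy_one, conjBy_one] at this

end Cfsg.Agent.Lib.Helper83
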