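import Mathlib
import Cfsg.Prelude.Def_RootSubgroups
import Cfsg.Agent.Lib.Helper83.Conj

/-!
# Unipotent subgroups of `GL(M)` through the span of `g - 1`

A Baer--Suzuki type theorem (Alperin--Lyons argument carried out with nilpotent subalgebras of
`End M`).
-/

set_option autoImplicit false

namespace Cfsg.Agent.Lib.Helper83
open Cfsg

namespace Unip

variable {k : Type*} [Field k] {M : Type*} [AddCommGroup M] [Module k M]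

/-- the `k`-span of the endomorphisms `g - 1`, `g ∈ U`. -/
def sp (U : Subgroup (LinearMap.GeneralLinearGroup k M)) : Submodule k (Module.End k M) :=
  Submodule.span k {x | ∃ g ∈ U, x = (g : Module.End k M) - 1}

theorem mem_sp {U : Subgroup (LinearMap.GeneralLinearGroup k M)}
    {g : LinearMap.GeneralLinearGroup k M} (hg : g ∈ U) : (g : Module.End k M) - 1 ∈ sp U :=
  Submodule.subset_span ⟨g, hg, rfl⟩

theorem sp_le {U : Subgroup (LinearMap.GeneralLinearGroup k M)} {𝔞 : Submodule k (Module.End k M)}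
    (h : ∀ g ∈ U, (g : Module.End k M) - 1 ∈ 𝔞) : sp U ≤ 𝔞 := by
  apply Submodule.span_le.2
  rintro _ ⟨g, hg, rfl⟩
  exact h g hg

theorem sp_mono {U V : Subgroup (LinearMap.GeneralLinearGroup k M)} (h : U ≤ V) : sp U ≤ sp V :=
  sp_le fun _ hg => mem_sp (h hg)

theorem mul_sub_one (g h : LinearMap.GeneralLinearGroup k M) :
    ((g * h : LinearMap.GeneralLinearGroup k M) : Module.End k M) - 1 =
      ((g : Module.End k M) - 1) * ((h : Module.End k M) - 1) + ((g : Module.End k M) - 1)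
        + ((h : Module.End k M) - 1) := by
  rw [Units.val_mul]; noncomm_ring

theorem sp_mul_le (U : Subgroup (LinearMap.GeneralLinearGroup k M)) : sp U * sp U ≤ sp U := by
  unfold sp
  rw [Submodule.span_mul_span]
  apply Submodule.span_le.2
  rintro _ ⟨_, ⟨g, hg, rfl⟩, _, ⟨h, hh, rfl⟩, rfl⟩
  have e := mul_sub_one g h
  have : ((g : Module.End k M) - 1) * ((h : Module.End k M) - 1) =
      (((g * h : LinearMap.GeneralLinearGroup k M) : Module.End k M) - 1) - ((g : Module.End k M) - 1)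
        - ((h : Module.End k M) - 1) := by
    rw [e]; abel
  show ((g : Module.End k M) - 1) * ((h : Module.End k M) - 1) ∈ _
  rw [this]
  exact Submodule.sub_mem _ (Submodule.sub_mem _ (Submodule.subset_span ⟨g * h, U.mul_mem hg hh, rfl⟩)
    (Submodule.subset_span ⟨g, hg, rfl⟩)) (Submodule.subset_span ⟨h, hh, rfl⟩)

/-- powers of a multiplicatively closed submodule decrease. -/
theorem pow_succ_le {𝔞 : Submodule k (Module.End k M)} (h : 𝔞 * 𝔞 ≤ 𝔞) (t : ℕ) :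
    𝔞 ^ (t + 2) ≤ 𝔞 ^ (t + 1) := by
  rw [pow_succ 𝔞 (t + 1), pow_succ 𝔞 t, mul_assoc]
  exact mul_le_mul_right h _

theorem pow_succ_le_self {𝔞 : Submodule k (Module.End k M)} (h : 𝔞 * 𝔞 ≤ 𝔞) (t : ℕ) :
    𝔞 ^ (t + 1) ≤ 𝔞 := by
  induction t with
  | zero => simp
  | succ t ih => exact (pow_succ_le h t).trans ih

theorem list_prod_mem {𝔞 : Submodule k (Module.End k M)} (l : List (Module.End k M))
    (h : ∀ x ∈ l, x ∈ 𝔞) : l.prod ∈ 𝔞 ^ l.length := by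
  induction l with
  | nil => simp [Submodule.one_le.1 le_rfl]
  | cons a l ih =>
    rw [List.prod_cons, List.length_cons, pow_succ']
    exact Submodule.mul_mem_mul (h a (by simp)) (ih fun x hx => h x (by simp [hx]))

/-- the definition, with the list mapped the expected way. -/
theorem isUnipotentOn_iff' (H : Subgroup (LinearMap.GeneralLinearGroup k M)) :
    IsUnipotentOn H ↔ ∃ n : ℕ, ∀ l : List (LinearMap.GeneralLinearGroup k M),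
      (∀ g ∈ l, g ∈ H) → l.length = n →
      (l.map fun g : LinearMap.GeneralLinearGroup k M => (g : M →ₗ[k] M) - 1).prod = 0 := by
  unfold IsUnipotentOn
  have key : ∀ l : List (LinearMap.GeneralLinearGroup k M),
      (do let a ← l; pure (a : M →ₗ[k] M) : List (M →ₗ[k] M)) =
        l.map (fun g : LinearMap.GeneralLinearGroup k M => (g : M →ₗ[k] M)) := by
    intro l
    induction l with
    | nil => rfl
    | cons a l ih =>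
      simp only [List.map_cons]
      rw [← ih]
      rfl
  simp only [key, List.map_map]
  rfl

theorem isUnipotentOn_of_pow {U : Subgroup (LinearMap.GeneralLinearGroup k M)} {n : ℕ}
    (h : sp U ^ n = ⊥) : IsUnipotentOn U := by
  rw [isUnipotentOn_iff']
  refine ⟨n, fun l hl hn => ?_⟩
  have := list_prod_mem (𝔞 := sp U)
    (l.map fun g : LinearMap.GeneralLinearGroup k M => (g : M →ₗ[k] M) - 1) (by
    intro x hx
    rw [List.mem_map] at hx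
    obtain ⟨g, hg, rfl⟩ := hx
    exact mem_sp (hl g hg))
  rw [List.length_map, hn, h, Submodule.mem_bot] at this
  exact this

theorem pow_of_isUnipotentOn {U : Subgroup (LinearMap.GeneralLinearGroup k M)}
    (h : IsUnipotentOn U) : ∃ n, sp U ^ n = ⊥ := by
  rw [isUnipotentOn_iff'] at h
  obtain ⟨n, hn⟩ := h
  refine ⟨n, ?_⟩
  unfold sp
  rw [Submodule.span_pow, Submodule.span_eq_bot]
  intro x hx
  rw [Set.mem_pow] at hx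
  obtain ⟨f, rfl⟩ := hx
  choose g hg hfg using fun i => (f i).2
  have := hn (List.ofFn g) (by
    intro y hy
    rw [List.mem_ofFn] at hy
    obtain ⟨i, rfl⟩ := hy
    exact hg i) (by simp)
  rw [List.map_ofFn] at this
  rw [← this]
  congr 1
  apply congrArg
  funext i
  exact hfg i

/-- a nilpotent (non-unital) subalgebra of `End M`. -/
structure NilAlg (𝔞 : Submodule k (Module.End k M)) : Prop where
  mul_le : 𝔞 * 𝔞 ≤ 𝔞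
  nil : ∃ n : ℕ, 𝔞 ^ n = ⊥

theorem NilAlg.of_le {𝔞 𝔟 : Submodule k (Module.End k M)} (h : NilAlg 𝔞) (hle : 𝔟 ≤ 𝔞)
    (hb : 𝔟 * 𝔟 ≤ 𝔟) : NilAlg 𝔟 := by
  refine ⟨hb, ?_⟩
  obtain ⟨n, hn⟩ := h.nil
  refine ⟨n, ?_⟩
  rw [eq_bot_iff, ← hn]
  exact pow_le_pow_left' hle n

theorem NilAlg.inf {𝔞 𝔟 : Submodule k (Module.End k M)} (h : NilAlg 𝔞) (h' : NilAlg 𝔟) :
    NilAlg (𝔞 ⊓ 𝔟) :=
  h.of_le inf_le_left (le_inf ((mul_le_mul' inf_le_left inf_le_left).trans h.mul_le)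
    ((mul_le_mul' inf_le_right inf_le_right).trans h'.mul_le))

theorem nilAlg_bot : NilAlg (⊥ : Submodule k (Module.End k M)) :=
  ⟨by simp, 1, by simp⟩

theorem nilAlg_sp {U : Subgroup (LinearMap.GeneralLinearGroup k M)} (h : IsUnipotentOn U) :
    NilAlg (sp U) := ⟨sp_mul_le U, pow_of_isUnipotentOn h⟩

/-- if all members of a family have `g - 1` in the multiplicatively closed `𝔞`, so has their join. -/
theorem sub_one_mem_of_mem_iSup {𝔞 : Submodule k (Module.End k M)} (h𝔞 : 𝔞 * 𝔞 ≤ 𝔞)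
    {D : Set (Subgroup (LinearMap.GeneralLinearGroup k M))}
    (hD : ∀ A ∈ D, ∀ g ∈ A, (g : Module.End k M) - 1 ∈ 𝔞)
    {g : LinearMap.GeneralLinearGroup k M} (hg : g ∈ ⨆ A ∈ D, A) : (g : Module.End k M) - 1 ∈ 𝔞 := by
  have hle : (⨆ A ∈ D, A) ≤ Subgroup.closure {g : LinearMap.GeneralLinearGroup k M | ∃ A ∈ D, g ∈ A} := by
    refine iSup₂_le fun A hA x hx => Subgroup.subset_closure ⟨A, hA, hx⟩
  have hg' := hle hg
  clear hg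
  have : ((g : Module.End k M) - 1 ∈ 𝔞) ∧ (((g⁻¹ : LinearMap.GeneralLinearGroup k M) : Module.End k M) - 1 ∈ 𝔞) := by
    induction hg' using Subgroup.closure_induction with
    | mem x hx =>
      obtain ⟨A, hA, hx⟩ := hx
      exact ⟨hD A hA x hx, hD A hA _ (A.inv_mem hx)⟩
    | one => simp
    | mul x y _ _ hx hy =>
      constructor
      · rw [mul_sub_one]
        exact 𝔞.add_mem (𝔞.add_mem (h𝔞 (Submodule.mul_mem_mul hx.1 hy.1)) hx.1) hy.1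
      · rw [mul_inv_rev, mul_sub_one]
        exact 𝔞.add_mem (𝔞.add_mem (h𝔞 (Submodule.mul_mem_mul hy.2 hx.2)) hy.2) hx.2
    | inv x _ hx => exact ⟨hx.2, by rw [inv_inv]; exact hx.1⟩
  exact this.1

/-- **Lemma B**: a nilpotent algebra normalised by another one. -/
theorem lemmaB {𝔡 𝔧 : Submodule k (Module.End k M)} (hd : NilAlg 𝔡) (hj : NilAlg 𝔧)
    (h : 𝔧 * 𝔡 ≤ 𝔡 * (1 ⊔ 𝔧)) : ∃ 𝔠, NilAlg 𝔠 ∧ 𝔡 ≤ 𝔠 ∧ 𝔧 ≤ 𝔠 := by
  obtain ⟨𝔧₁, h𝔧₁⟩ : ∃ x, x = 1 ⊔ 𝔧 := ⟨_, rfl⟩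
  rw [← h𝔧₁] at h
  have hj1 : 𝔧 ≤ 𝔧₁ := h𝔧₁ ▸ le_sup_right
  have h1j : 1 ≤ 𝔧₁ := h𝔧₁ ▸ le_sup_left
  have h11 : 𝔧₁ * 𝔧₁ ≤ 𝔧₁ := by
    rw [h𝔧₁, Submodule.sup_mul, Submodule.mul_sup, Submodule.mul_sup, one_mul, one_mul, mul_one]
    exact sup_le le_rfl (sup_le le_sup_right (hj.mul_le.trans le_sup_right))
  have hdm : 𝔡 ≤ 𝔡 * 𝔧₁ := by
    calc 𝔡 = 𝔡 * 1 := (mul_one _).symm
      _ ≤ 𝔡 * 𝔧₁ := mul_le_mul' le_rfl h1j
  have h1d : 𝔧₁ * 𝔡 ≤ 𝔡 * 𝔧₁ := by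
    conv_lhs => rw [h𝔧₁, Submodule.sup_mul, one_mul]
    exact sup_le hdm h
  obtain ⟨𝔪, h𝔪⟩ : ∃ x, x = 𝔡 * 𝔧₁ := ⟨_, rfl⟩
  have hmpow : ∀ a : ℕ, 𝔪 ^ a ≤ 𝔡 ^ a * 𝔧₁ := by
    intro a
    induction a with
    | zero => simpa using h1j
    | succ a ih =>
      calc 𝔪 ^ (a + 1) = 𝔪 ^ a * 𝔪 := pow_succ _ _
        _ ≤ (𝔡 ^ a * 𝔧₁) * (𝔡 * 𝔧₁) := mul_le_mul' ih h𝔪.le
        _ = 𝔡 ^ a * (𝔧₁ * 𝔡) * 𝔧₁ := by simp only [mul_assoc]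
        _ ≤ 𝔡 ^ a * (𝔡 * 𝔧₁) * 𝔧₁ := mul_le_mul' (mul_le_mul' le_rfl h1d) le_rfl
        _ = 𝔡 ^ (a + 1) * (𝔧₁ * 𝔧₁) := by rw [pow_succ]; simp only [mul_assoc]
        _ ≤ 𝔡 ^ (a + 1) * 𝔧₁ := mul_le_mul' le_rfl h11
  have hmj : 𝔪 * 𝔧 ≤ 𝔪 := by
    calc 𝔪 * 𝔧 ≤ 𝔡 * 𝔧₁ * 𝔧₁ := mul_le_mul' h𝔪.le hj1
      _ = 𝔡 * (𝔧₁ * 𝔧₁) := mul_assoc _ _ _
      _ ≤ 𝔡 * 𝔧₁ := mul_le_mul' le_rfl h11
      _ = 𝔪 := h𝔪.symm
  have hjm : 𝔧 * 𝔪 ≤ 𝔪 := by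
    calc 𝔧 * 𝔪 = (𝔧 * 𝔡) * 𝔧₁ := by rw [h𝔪, mul_assoc]
      _ ≤ (𝔡 * 𝔧₁) * 𝔧₁ := mul_le_mul' h le_rfl
      _ = 𝔡 * (𝔧₁ * 𝔧₁) := mul_assoc _ _ _
      _ ≤ 𝔡 * 𝔧₁ := mul_le_mul' le_rfl h11
      _ = 𝔪 := h𝔪.symm
  have hmm : 𝔪 * 𝔪 ≤ 𝔪 := by
    calc 𝔪 * 𝔪 = 𝔡 * (𝔧₁ * 𝔡) * 𝔧₁ := by rw [h𝔪]; simp only [mul_assoc]
      _ ≤ 𝔡 * (𝔡 * 𝔧₁) * 𝔧₁ := mul_le_mul' (mul_le_mul' le_rfl h1d) le_rfl
      _ = (𝔡 * 𝔡) * (𝔧₁ * 𝔧₁) := by simp only [mul_assoc]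
      _ ≤ 𝔡 * 𝔧₁ := mul_le_mul' hd.mul_le h11
      _ = 𝔪 := h𝔪.symm
  have hcpow : ∀ b : ℕ, (𝔪 ⊔ 𝔧) ^ (b + 1) ≤ 𝔪 ⊔ 𝔧 ^ (b + 1) := by
    intro b
    induction b with
    | zero => simp
    | succ b ih =>
      calc (𝔪 ⊔ 𝔧) ^ (b + 1 + 1) = (𝔪 ⊔ 𝔧) ^ (b + 1) * (𝔪 ⊔ 𝔧) := pow_succ _ _
        _ ≤ (𝔪 ⊔ 𝔧 ^ (b + 1)) * (𝔪 ⊔ 𝔧) := mul_le_mul' ih le_rfl
        _ ≤ 𝔪 ⊔ 𝔧 ^ (b + 1 + 1) := by
          rw [Submodule.sup_mul, Submodule.mul_sup, Submodule.mul_sup]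
          refine sup_le (sup_le (hmm.trans le_sup_left) (hmj.trans le_sup_left))
            (sup_le ?_ ?_)
          · exact ((mul_le_mul' (pow_succ_le_self hj.mul_le b) le_rfl).trans hjm).trans le_sup_left
          · rw [← pow_succ]; exact le_sup_right
  refine ⟨𝔪 ⊔ 𝔧, ⟨?_, ?_⟩, (h𝔪 ▸ hdm).trans le_sup_left, le_sup_right⟩
  · rw [Submodule.sup_mul, Submodule.mul_sup, Submodule.mul_sup]
    exact sup_le (sup_le (hmm.trans le_sup_left) (hmj.trans le_sup_left))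
      (sup_le (hjm.trans le_sup_left) (hj.mul_le.trans le_sup_right))
  · obtain ⟨a, ha⟩ := hd.nil
    obtain ⟨b, hb⟩ := hj.nil
    refine ⟨(b + 1) * a, ?_⟩
    rw [eq_bot_iff, pow_mul]
    have h1 : (𝔪 ⊔ 𝔧) ^ (b + 1) ≤ 𝔪 := by
      refine (hcpow b).trans ?_
      rw [pow_succ, hb]; simp
    calc ((𝔪 ⊔ 𝔧) ^ (b + 1)) ^ a ≤ 𝔪 ^ a := pow_le_pow_left' h1 a
      _ ≤ 𝔡 ^ a * 𝔧₁ := hmpow a
      _ = ⊥ := by rw [ha]; simp


section hat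

variable (W : Set (Subgroup (LinearMap.GeneralLinearGroup k M)))

/-- the members of `W` all of whose `g - 1` lie in `𝔞`. -/
def hat (𝔞 : Submodule k (Module.End k M)) : Set (Subgroup (LinearMap.GeneralLinearGroup k M)) :=
  {A | A ∈ W ∧ ∀ g ∈ A, (g : Module.End k M) - 1 ∈ 𝔞}

/-- the span of the `g - 1` coming from members of `hat W 𝔞`. -/
def cl (𝔞 : Submodule k (Module.End k M)) : Submodule k (Module.End k M) :=
  Submodule.span k {x | ∃ A ∈ hat W 𝔞, ∃ g ∈ A, x = (g : Module.End k M) - 1}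

theorem hat_mono {𝔞 𝔟 : Submodule k (Module.End k M)} (h : 𝔞 ≤ 𝔟) : hat W 𝔞 ⊆ hat W 𝔟 :=
  fun _ hA => ⟨hA.1, fun g hg => h (hA.2 g hg)⟩

theorem cl_le (𝔞 : Submodule k (Module.End k M)) : cl W 𝔞 ≤ 𝔞 := by
  apply Submodule.span_le.2
  rintro _ ⟨A, hA, g, hg, rfl⟩
  exact hA.2 g hg

theorem hat_cl (𝔞 : Submodule k (Module.End k M)) : hat W (cl W 𝔞) = hat W 𝔞 := by
  apply Set.Subset.antisymm (hat_mono W (cl_le W 𝔞))
  intro A hA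
  exact ⟨hA.1, fun g hg => Submodule.subset_span ⟨A, hA, g, hg, rfl⟩⟩

theorem cl_mono {𝔞 𝔟 : Submodule k (Module.End k M)} (h : hat W 𝔞 ⊆ hat W 𝔟) :
    cl W 𝔞 ≤ cl W 𝔟 := by
  apply Submodule.span_mono
  rintro _ ⟨A, hA, g, hg, rfl⟩
  exact ⟨A, h hA, g, hg, rfl⟩

theorem hat_inf (𝔞 𝔟 : Submodule k (Module.End k M)) :
    hat W (𝔞 ⊓ 𝔟) = hat W 𝔞 ∩ hat W 𝔟 := by
  ext A
  constructor
  · intro h
    exact ⟨⟨h.1, fun g hg => (h.2 g hg).1⟩, ⟨h.1, fun g hg => (h.2 g hg).2⟩⟩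
  · intro h
    exact ⟨h.1.1, fun g hg => ⟨h.1.2 g hg, h.2.2 g hg⟩⟩

theorem exists_hat_max [FiniteDimensional k M] (P : Submodule k (Module.End k M) → Prop)
    (h : ∃ 𝔞, P 𝔞) :
    ∃ 𝔞, P 𝔞 ∧ ∀ 𝔟, P 𝔟 → hat W 𝔞 ⊆ hat W 𝔟 → hat W 𝔟 ⊆ hat W 𝔞 := by
  obtain ⟨𝔞₀, h₀⟩ := h
  obtain ⟨m, ⟨𝔞, ha, rfl⟩, hm⟩ :=
    (wellFounded_gt (α := Submodule k (Module.End k M))).has_min
      {x | ∃ 𝔞, P 𝔞 ∧ x = cl W 𝔞} ⟨_, 𝔞₀, h₀, rfl⟩
  refine ⟨𝔞, ha, fun 𝔟 hb hab => ?_⟩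
  have h1 := cl_mono W hab
  have h2 := hm _ ⟨𝔟, hb, rfl⟩
  have h3 : cl W 𝔞 = cl W 𝔟 := by
    by_contra hne
    exact h2 (lt_of_le_of_ne h1 hne)
  rw [← hat_cl W 𝔟, ← h3, hat_cl]

theorem conj_sub_one (c g : LinearMap.GeneralLinearGroup k M) :
    ((c * g * c⁻¹ : LinearMap.GeneralLinearGroup k M) : Module.End k M) - 1 =
      (c : Module.End k M) * ((g : Module.End k M) - 1) *
        ((c⁻¹ : LinearMap.GeneralLinearGroup k M) : Module.End k M) := by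
  have hcc : (c : Module.End k M) * ((c⁻¹ : LinearMap.GeneralLinearGroup k M) : Module.End k M) = 1 := by
    rw [← Units.val_mul]; simp
  rw [Units.val_mul, Units.val_mul, mul_sub, sub_mul, mul_one, hcc]

variable {W}

/-- **Claim N**: normalisers grow, with members of `W`. -/
theorem claimN {G : Subgroup (LinearMap.GeneralLinearGroup k M)} (hWG : ∀ A ∈ W, A ≤ G)
    (hWconj : ∀ A ∈ W, ∀ g ∈ G, conjBy A g ∈ W)
    {𝔞 𝔦 : Submodule k (Module.End k M)} (ha : NilAlg 𝔞) (hi : 𝔦 * 𝔦 ≤ 𝔦) (hle : 𝔦 ≤ 𝔞)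
    (hne : ¬ hat W 𝔞 ⊆ hat W 𝔦) :
    ∃ C ∈ hat W 𝔞, C ∉ hat W 𝔦 ∧ ∀ c ∈ C, ∀ A ∈ hat W 𝔦, conjBy A c ∈ hat W 𝔦 := by
  obtain ⟨n, hn⟩ := ha.nil
  have hF0 : 𝔦 ⊔ 𝔞 ^ (0 + 1) = 𝔞 := by simp [hle]
  have hFn : 𝔦 ⊔ 𝔞 ^ (n + 1) = 𝔦 := by rw [pow_succ, hn]; simp
  obtain ⟨s, hs1, hs2⟩ : ∃ s : ℕ, ¬ hat W (𝔦 ⊔ 𝔞 ^ (s + 1)) ⊆ hat W 𝔦 ∧
      hat W (𝔦 ⊔ 𝔞 ^ (s + 2)) ⊆ hat W 𝔦 := by
    by_contra hcon
    push Not at hcon
    have : ∀ s : ℕ, ¬ hat W (𝔦 ⊔ 𝔞 ^ (s + 1)) ⊆ hat W 𝔦 := by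
      intro s
      induction s with
      | zero => rwa [hF0]
      | succ s ih => exact hcon s ih
    exact this n (by rw [hFn])
  obtain ⟨C, hC1, hC2⟩ := Set.not_subset.1 hs1
  have hFle : 𝔦 ⊔ 𝔞 ^ (s + 1) ≤ 𝔞 := sup_le hle (pow_succ_le_self ha.mul_le s)
  have hL : (𝔦 ⊔ 𝔞 ^ (s + 1)) * (𝔦 ⊔ 𝔞 ^ (s + 2)) ≤ 𝔦 ⊔ 𝔞 ^ (s + 2) := by
    rw [Submodule.sup_mul, Submodule.mul_sup, Submodule.mul_sup]
    refine sup_le (sup_le (hi.trans le_sup_left) ?_) (sup_le ?_ ?_)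
    · refine le_trans ?_ le_sup_right
      calc 𝔦 * 𝔞 ^ (s + 2) ≤ 𝔞 * 𝔞 ^ (s + 2) := mul_le_mul' hle le_rfl
        _ = 𝔞 ^ (s + 1 + 2) := (pow_succ' _ _).symm
        _ ≤ 𝔞 ^ (s + 2) := pow_succ_le ha.mul_le (s + 1)
    · refine le_trans ?_ le_sup_right
      calc 𝔞 ^ (s + 1) * 𝔦 ≤ 𝔞 ^ (s + 1) * 𝔞 := mul_le_mul' le_rfl hle
        _ = 𝔞 ^ (s + 2) := (pow_succ _ _).symm
    · refine le_trans ?_ le_sup_right
      calc 𝔞 ^ (s + 1) * 𝔞 ^ (s + 2) ≤ 𝔞 ^ (s + 1) * 𝔞 :=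
            mul_le_mul' le_rfl (pow_succ_le_self ha.mul_le (s + 1))
        _ = 𝔞 ^ (s + 2) := (pow_succ _ _).symm
  have hR : (𝔦 ⊔ 𝔞 ^ (s + 2)) * (𝔦 ⊔ 𝔞 ^ (s + 1)) ≤ 𝔦 ⊔ 𝔞 ^ (s + 2) := by
    rw [Submodule.sup_mul, Submodule.mul_sup, Submodule.mul_sup]
    refine sup_le (sup_le (hi.trans le_sup_left) ?_) (sup_le ?_ ?_)
    · refine le_trans ?_ le_sup_right
      calc 𝔦 * 𝔞 ^ (s + 1) ≤ 𝔞 * 𝔞 ^ (s + 1) := mul_le_mul' hle le_rfl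
        _ = 𝔞 ^ (s + 2) := (pow_succ' _ _).symm
    · refine le_trans ?_ le_sup_right
      calc 𝔞 ^ (s + 2) * 𝔦 ≤ 𝔞 ^ (s + 2) * 𝔞 := mul_le_mul' le_rfl hle
        _ = 𝔞 ^ (s + 1 + 2) := (pow_succ _ _).symm
        _ ≤ 𝔞 ^ (s + 2) := pow_succ_le ha.mul_le (s + 1)
    · refine le_trans ?_ le_sup_right
      calc 𝔞 ^ (s + 2) * 𝔞 ^ (s + 1) ≤ 𝔞 * 𝔞 ^ (s + 1) :=
            mul_le_mul' (pow_succ_le_self ha.mul_le (s + 1)) le_rfl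
        _ = 𝔞 ^ (s + 2) := (pow_succ' _ _).symm
  refine ⟨C, hat_mono W hFle hC1, hC2, fun c hc A hA => hs2 ?_⟩
  refine ⟨hWconj A hA.1 c (hWG C hC1.1 hc), ?_⟩
  rintro _ ⟨g, hg, rfl⟩
  have hx := hC1.2 c hc
  have hx' := hC1.2 c⁻¹ (C.inv_mem hc)
  have hy : (g : Module.End k M) - 1 ∈ 𝔦 ⊔ 𝔞 ^ (s + 2) := le_sup_left (a := 𝔦) (hA.2 g hg)
  show ((c * g * c⁻¹ : LinearMap.GeneralLinearGroup k M) : Module.End k M) - 1 ∈ _
  rw [conj_sub_one]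
  have e : (c : Module.End k M) * ((g : Module.End k M) - 1) *
        ((c⁻¹ : LinearMap.GeneralLinearGroup k M) : Module.End k M) =
      ((g : Module.End k M) - 1) + ((c : Module.End k M) - 1) * ((g : Module.End k M) - 1)
      + ((g : Module.End k M) - 1) * (((c⁻¹ : LinearMap.GeneralLinearGroup k M) : Module.End k M) - 1)
      + ((c : Module.End k M) - 1) * ((g : Module.End k M) - 1) *
        (((c⁻¹ : LinearMap.GeneralLinearGroup k M) : Module.End k M) - 1) := by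
    noncomm_ring
  rw [e]
  have hxy := hL (Submodule.mul_mem_mul hx hy)
  exact Submodule.add_mem _ (Submodule.add_mem _ (Submodule.add_mem _ hy hxy)
    (hR (Submodule.mul_mem_mul hy hx'))) (hR (Submodule.mul_mem_mul hxy hx'))

end hat

/-- the largest `J`-invariant subspace of `𝔦`. -/
def core (J : Subgroup (LinearMap.GeneralLinearGroup k M)) (𝔦 : Submodule k (Module.End k M)) :
    Submodule k (Module.End k M) where
  carrier := {x | ∀ j ∈ J, (j : Module.End k M) * x *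
    ((j⁻¹ : LinearMap.GeneralLinearGroup k M) : Module.End k M) ∈ 𝔦}
  add_mem' := by
    intro x y hx hy j hj
    rw [mul_add, add_mul]
    exact 𝔦.add_mem (hx j hj) (hy j hj)
  zero_mem' := by
    intro j _
    simp
  smul_mem' := by
    intro c x hx j hj
    rw [mul_smul_comm, smul_mul_assoc]
    exact 𝔦.smul_mem c (hx j hj)

theorem mem_core {J : Subgroup (LinearMap.GeneralLinearGroup k M)}
    {𝔦 : Submodule k (Module.End k M)} {x : Module.End k M} :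
    x ∈ core J 𝔦 ↔ ∀ j ∈ J, (j : Module.End k M) * x *
      ((j⁻¹ : LinearMap.GeneralLinearGroup k M) : Module.End k M) ∈ 𝔦 := Iff.rfl

theorem core_le (J : Subgroup (LinearMap.GeneralLinearGroup k M))
    (𝔦 : Submodule k (Module.End k M)) : core J 𝔦 ≤ 𝔦 := by
  intro x hx
  simpa using hx 1 J.one_mem

theorem inv_mul_val (j : LinearMap.GeneralLinearGroup k M) :
    ((j⁻¹ : LinearMap.GeneralLinearGroup k M) : Module.End k M) * (j : Module.End k M) = 1 := by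
  rw [← Units.val_mul]; simp

theorem core_mul_le {J : Subgroup (LinearMap.GeneralLinearGroup k M)}
    {𝔦 : Submodule k (Module.End k M)} (hi : 𝔦 * 𝔦 ≤ 𝔦) : core J 𝔦 * core J 𝔦 ≤ core J 𝔦 := by
  rw [Submodule.mul_le]
  intro x hx y hy j hj
  have e : (j : Module.End k M) * (x * y) *
      ((j⁻¹ : LinearMap.GeneralLinearGroup k M) : Module.End k M) =
      ((j : Module.End k M) * x * ((j⁻¹ : LinearMap.GeneralLinearGroup k M) : Module.End k M)) *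
      ((j : Module.End k M) * y * ((j⁻¹ : LinearMap.GeneralLinearGroup k M) : Module.End k M)) := by
    calc (j : Module.End k M) * (x * y) *
      ((j⁻¹ : LinearMap.GeneralLinearGroup k M) : Module.End k M) =
        (j : Module.End k M) * x * 1 * y * ((j⁻¹ : LinearMap.GeneralLinearGroup k M) : Module.End k M) := by
          simp only [mul_assoc, one_mul]
      _ = _ := by rw [← inv_mul_val j]; simp only [mul_assoc]
  rw [e]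
  exact hi (Submodule.mul_mem_mul (hx j hj) (hy j hj))

theorem core_conj {J : Subgroup (LinearMap.GeneralLinearGroup k M)}
    {𝔦 : Submodule k (Module.End k M)} {x : Module.End k M} (hx : x ∈ core J 𝔦)
    {j : LinearMap.GeneralLinearGroup k M} (hj : j ∈ J) :
    (j : Module.End k M) * x * ((j⁻¹ : LinearMap.GeneralLinearGroup k M) : Module.End k M)
      ∈ core J 𝔦 := by
  intro i hi
  have := hx (i * j) (J.mul_mem hi hj)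
  rw [mul_inv_rev, Units.val_mul, Units.val_mul] at this
  simpa only [mul_assoc] using this

theorem sp_mul_core_le (J : Subgroup (LinearMap.GeneralLinearGroup k M))
    (𝔦 : Submodule k (Module.End k M)) : sp J * core J 𝔦 ≤ core J 𝔦 * (1 ⊔ sp J) := by
  rw [Submodule.mul_le]
  intro m hm n hn
  unfold sp at hm
  induction hm using Submodule.span_induction with
  | mem x hx =>
    obtain ⟨j, hj, rfl⟩ := hx
    have hd := core_conj hn hj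
    have e : ((j : Module.End k M) - 1) * n =
        ((j : Module.End k M) * n * ((j⁻¹ : LinearMap.GeneralLinearGroup k M) : Module.End k M)) *
          ((j : Module.End k M) - 1) +
        ((j : Module.End k M) * n * ((j⁻¹ : LinearMap.GeneralLinearGroup k M) : Module.End k M) - n) * 1 := by
      have : (j : Module.End k M) * n * ((j⁻¹ : LinearMap.GeneralLinearGroup k M) : Module.End k M) *
          (j : Module.End k M) = (j : Module.End k M) * n := by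
        rw [mul_assoc, inv_mul_val, mul_one]
      rw [mul_sub, this]
      noncomm_ring
    rw [e]
    exact Submodule.add_mem _ (Submodule.mul_mem_mul hd ((le_sup_right : sp J ≤ 1 ⊔ sp J) (mem_sp hj)))
      (Submodule.mul_mem_mul (Submodule.sub_mem _ hd hn)
        ((le_sup_left : (1 : Submodule k (Module.End k M)) ≤ 1 ⊔ sp J) (Submodule.one_le.1 le_rfl)))
  | zero => simp
  | add x y _ _ hx hy => rw [add_mul]; exact Submodule.add_mem _ hx hy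
  | smul c x _ hx => rw [smul_mul_assoc]; exact Submodule.smul_mem _ c hx

/-- **Baer--Suzuki for unipotent subgroups**, algebra form. -/
theorem exists_nilAlg [FiniteDimensional k M]
    {G : Subgroup (LinearMap.GeneralLinearGroup k M)}
    {W : Set (Subgroup (LinearMap.GeneralLinearGroup k M))} (hWG : ∀ A ∈ W, A ≤ G)
    (hWW : ∀ A ∈ W, ∀ B ∈ W, IsUnipotentOn (A ⊔ B))
    (hWconj : ∀ A ∈ W, ∀ g ∈ G, conjBy A g ∈ W) :
    ∃ 𝔞 : Submodule k (Module.End k M), NilAlg 𝔞 ∧ W ⊆ hat W 𝔞 := by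
  -- maximal elements
  have ext_max : ∀ 𝔟 : Submodule k (Module.End k M), NilAlg 𝔟 → ∃ 𝔞, (NilAlg 𝔞 ∧
      ∀ 𝔠, NilAlg 𝔠 → hat W 𝔞 ⊆ hat W 𝔠 → hat W 𝔠 ⊆ hat W 𝔞) ∧ hat W 𝔟 ⊆ hat W 𝔞 := by
    intro 𝔟 hb
    obtain ⟨𝔞, ⟨ha, hba⟩, hmax⟩ := exists_hat_max W (fun 𝔠 => NilAlg 𝔠 ∧ hat W 𝔟 ⊆ hat W 𝔠)
      ⟨𝔟, hb, subset_rfl⟩
    exact ⟨𝔞, ⟨ha, fun 𝔠 hc hac => hmax 𝔠 ⟨hc, hba.trans hac⟩ hac⟩, hba⟩
  have uniq : ∀ 𝔞₁ 𝔞₂ : Submodule k (Module.End k M),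
      (NilAlg 𝔞₁ ∧ ∀ 𝔠, NilAlg 𝔠 → hat W 𝔞₁ ⊆ hat W 𝔠 → hat W 𝔠 ⊆ hat W 𝔞₁) →
      (NilAlg 𝔞₂ ∧ ∀ 𝔠, NilAlg 𝔠 → hat W 𝔞₂ ⊆ hat W 𝔠 → hat W 𝔠 ⊆ hat W 𝔞₂) →
      hat W 𝔞₁ = hat W 𝔞₂ := by
    by_contra hcon
    push Not at hcon
    obtain ⟨b₁, b₂, hb₁, hb₂, hbne⟩ := hcon
    obtain ⟨_, ⟨𝔞₁, 𝔞₂, h1, h2, hne, rfl⟩, hmax⟩ := exists_hat_max W
      (fun 𝔦 => ∃ 𝔞₁ 𝔞₂ : Submodule k (Module.End k M),
        (NilAlg 𝔞₁ ∧ ∀ 𝔠, NilAlg 𝔠 → hat W 𝔞₁ ⊆ hat W 𝔠 → hat W 𝔠 ⊆ hat W 𝔞₁) ∧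
        (NilAlg 𝔞₂ ∧ ∀ 𝔠, NilAlg 𝔠 → hat W 𝔞₂ ⊆ hat W 𝔠 → hat W 𝔠 ⊆ hat W 𝔞₂) ∧
        hat W 𝔞₁ ≠ hat W 𝔞₂ ∧ 𝔦 = 𝔞₁ ⊓ 𝔞₂) ⟨_, b₁, b₂, hb₁, hb₂, hbne, rfl⟩
    have hi := h1.1.inf h2.1
    have hn1 : ¬ hat W 𝔞₁ ⊆ hat W (𝔞₁ ⊓ 𝔞₂) := by
      intro h
      have h12 := h.trans (hat_mono W inf_le_right)
      exact hne (Set.Subset.antisymm h12 (h1.2 𝔞₂ h2.1 h12))
    have hn2 : ¬ hat W 𝔞₂ ⊆ hat W (𝔞₁ ⊓ 𝔞₂) := by
      intro h
      have h21 := h.trans (hat_mono W inf_le_left)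
      exact hne (Set.Subset.antisymm (h2.2 𝔞₁ h1.1 h21) h21)
    obtain ⟨C₁, hC₁, hC₁', hN₁⟩ := claimN hWG hWconj h1.1 hi.mul_le inf_le_left hn1
    obtain ⟨C₂, hC₂, hC₂', hN₂⟩ := claimN hWG hWconj h2.1 hi.mul_le inf_le_right hn2
    have hJ : NilAlg (sp (C₁ ⊔ C₂)) := nilAlg_sp (hWW C₁ hC₁.1 C₂ hC₂.1)
    have hJN : ∀ j ∈ C₁ ⊔ C₂, (∀ A ∈ hat W (𝔞₁ ⊓ 𝔞₂), conjBy A j ∈ hat W (𝔞₁ ⊓ 𝔞₂)) ∧
        (∀ A ∈ hat W (𝔞₁ ⊓ 𝔞₂), conjBy A j⁻¹ ∈ hat W (𝔞₁ ⊓ 𝔞₂)) := by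
      intro j hj
      rw [Subgroup.sup_eq_closure] at hj
      induction hj using Subgroup.closure_induction with
      | mem x hx =>
        rcases hx with hx | hx
        · exact ⟨hN₁ x hx, hN₁ _ (C₁.inv_mem hx)⟩
        · exact ⟨hN₂ x hx, hN₂ _ (C₂.inv_mem hx)⟩
      | one => simp [conjBy_one]
      | mul x y _ _ hx hy =>
        constructor
        · intro A hA
          rw [← conjBy_conjBy]
          exact hx.1 _ (hy.1 A hA)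
        · intro A hA
          rw [mul_inv_rev, ← conjBy_conjBy]
          exact hy.2 _ (hx.2 A hA)
      | inv x _ hx => exact ⟨hx.2, by rw [inv_inv]; exact hx.1⟩
    have hd : NilAlg (core (C₁ ⊔ C₂) (𝔞₁ ⊓ 𝔞₂)) :=
      hi.of_le (core_le _ _) (core_mul_le hi.mul_le)
    obtain ⟨𝔠, hc, hdc, hjc⟩ := lemmaB hd hJ (sp_mul_core_le _ _)
    obtain ⟨𝔞₃, h3, hc3⟩ := ext_max 𝔠 hc
    have hD3 : hat W (𝔞₁ ⊓ 𝔞₂) ⊆ hat W 𝔞₃ := by
      intro A hA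
      apply hc3
      refine ⟨hA.1, fun g hg => hdc ?_⟩
      intro j hj
      rw [← conj_sub_one]
      exact ((hJN j hj).1 A hA).2 _ (conj_mem_conjBy hg)
    have hC₁3 : C₁ ∈ hat W 𝔞₃ := hc3 ⟨hC₁.1, fun g hg => hjc (mem_sp (le_sup_left (a := C₁) hg))⟩
    have hC₂3 : C₂ ∈ hat W 𝔞₃ := hc3 ⟨hC₂.1, fun g hg => hjc (mem_sp (le_sup_right (b := C₂) hg))⟩
    have e13 : hat W 𝔞₁ = hat W 𝔞₃ := by
      by_contra hne13
      have := hmax (𝔞₁ ⊓ 𝔞₃) ⟨𝔞₁, 𝔞₃, h1, h3, hne13, rfl⟩ (by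
        rw [hat_inf W 𝔞₁ 𝔞₃]
        exact Set.subset_inter (hat_mono W inf_le_left) hD3)
      apply hC₁'
      apply this
      rw [hat_inf]
      exact ⟨hC₁, hC₁3⟩
    have e23 : hat W 𝔞₂ = hat W 𝔞₃ := by
      by_contra hne23
      have := hmax (𝔞₂ ⊓ 𝔞₃) ⟨𝔞₂, 𝔞₃, h2, h3, hne23, rfl⟩ (by
        rw [hat_inf W 𝔞₂ 𝔞₃]
        exact Set.subset_inter (hat_mono W inf_le_right) hD3)
      apply hC₂'
      apply this
      rw [hat_inf]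
      exact ⟨hC₂, hC₂3⟩
    exact hne (e13.trans e23.symm)
  obtain ⟨𝔞, ha, -⟩ := ext_max ⊥ nilAlg_bot
  refine ⟨𝔞, ha.1, fun A hA => ?_⟩
  have hAA : NilAlg (sp A) := by
    have := hWW A hA A hA
    rw [sup_idem] at this
    exact nilAlg_sp this
  obtain ⟨𝔞', ha', hle⟩ := ext_max (sp A) hAA
  rw [uniq 𝔞 𝔞' ha ha']
  exact hle ⟨hA, fun g hg => mem_sp hg⟩

/-- **Baer--Suzuki for unipotent subgroups.** -/
theorem isUnipotentOn_iSup [FiniteDimensional k M]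
    {G : Subgroup (LinearMap.GeneralLinearGroup k M)}
    {W : Set (Subgroup (LinearMap.GeneralLinearGroup k M))} (hWG : ∀ A ∈ W, A ≤ G)
    (hWW : ∀ A ∈ W, ∀ B ∈ W, IsUnipotentOn (A ⊔ B))
    (hWconj : ∀ A ∈ W, ∀ g ∈ G, conjBy A g ∈ W) : IsUnipotentOn (⨆ A ∈ W, A) := by
  obtain ⟨𝔞, ha, hW⟩ := exists_nilAlg hWG hWW hWconj
  obtain ⟨n, hn⟩ := ha.nil
  apply isUnipotentOn_of_pow (n := n)
  rw [eq_bot_iff, ← hn]
  apply pow_le_pow_left'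
  exact sp_le fun g hg => sub_one_mem_of_mem_iSup ha.mul_le (fun A hA => (hW hA).2) hg

theorem conjBy_iSup_eq {G₀ : Type*} [Group G₀] {G : Subgroup G₀} {W : Set (Subgroup G₀)}
    (hWconj : ∀ A ∈ W, ∀ g ∈ G, conjBy A g ∈ W) {g : G₀} (hg : g ∈ G) :
    conjBy (⨆ A ∈ W, A) g = ⨆ A ∈ W, A := by
  unfold conjBy
  simp_rw [Subgroup.map_iSup]
  apply le_antisymm
  · exact iSup₂_le fun A hA => le_iSup₂_of_le (conjBy A g) (hWconj A hA g hg) le_rfl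
  · refine iSup₂_le fun A hA => le_iSup₂_of_le (conjBy A g⁻¹) (hWconj A hA _ (G.inv_mem hg)) ?_
    have := conjBy_conjBy A g⁻¹ g
    rw [mul_inv_cancel, conjBy_one] at this
    exact this.ge

end Unip

end Cfsg.Agent.Lib.Helper83
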